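import Cfsg.Agent.H77.LowC8

/-! Overgroups in `SL(V)` of symplectic and unitary groups of dimension four. -/

set_option autoImplicit false
set_option linter.unusedSectionVars false

namespace Cfsg.Agent.K4

open Module Cfsg.Agent.H27 Cfsg.Agent.H77

section Core

variable {F V : Type*} [Field F] [AddCommGroup V] [Module F V] [FiniteDimensional F V]
  {σ : F →+* F} {B : V →ₛₗ[σ] V →ₗ[F] F} {H : Subgroup (V ≃ₗ[F] V)}

theorem slsp_conj {k : V ≃ₗ[F] V} (hk : k ∈ H) (hi : ∀ x y, B (k x) (k y) = B x y) {u y : V}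
    (h : T1 H u (B y)) : T1 H (k u) (B (k y)) := by
  refine T1.of_conj hk ?_
  rwa [show B (k y) ∘ₗ (k : V →ₗ[F] V) = B y from LinearMap.ext fun x => hi y x]

theorem slsp_SLV_le (h : RF B) (hs : ∀ x y, B y x = -σ (B x y))
    (tr : ∀ z, ∃ d, B z z = d - σ d) (hS : Solv B (fun x => B x x = 0) 2) (hn : 2 < finrank F V)
    (hH : GG B ≤ H) {g : V ≃ₗ[F] V} (hgH : g ∈ H)
    (hg : ∀ c : F, ¬ ∀ x y, B x y = c * B (g x) (g y)) : SLV F V ≤ H := by
  have P := ps_skew h hs tr hS hn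
  have hE : ∀ u x δ, B u u = 0 → B u x = 0 → δ = σ δ + B x x →
      ∃ k ∈ H, (∀ x y, B (k x) (k y) = B x y) ∧ ∀ t, k t = Ef B 1 u x δ t := by
    intro u x δ hu hx hδ
    obtain ⟨k, hk, hkf⟩ := has_Ef_GG' (B := B) (c := 1) (Or.inl rfl) h.inv
      (fun x y => by rw [hs]; ring) hu hx (δ := δ) (by rw [one_mul]; exact hδ)
    exact ⟨k, hH hk, hk.1, hkf⟩
  have hT : ∀ u, B u u = 0 → T1 H u (B u) := fun u hu => by
    obtain ⟨k, hk, -, hkf⟩ := hE u 0 1 hu (by simp) (by simp)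
    simpa using (has_Ef_zero (c := 1)).mp ⟨k, hk, hkf⟩
  obtain ⟨g', hg'⟩ := h.exists_adj g
  obtain ⟨v, hv, hv'⟩ : ∃ v, B v v = 0 ∧ g⁻¹ (g' v) ∉ sp F [v] := by
    by_contra hc
    push Not at hc
    obtain ⟨c, hc⟩ := P.scalar (((g⁻¹ : V ≃ₗ[F] V) : V →ₗ[F] V) ∘ₗ g') hc
    apply hg (σ c)
    intro x y
    have h1 : g' x = c • g x := by
      have := congrArg g (hc x)
      rwa [map_smul, LinearMap.comp_apply, LinearEquiv.coe_coe, le_apply_inv] at this
    rw [← hg' x y, h1, map_smulₛₗ, LinearMap.smul_apply, smul_eq_mul]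
  have hT1 : T1 H (g v) (B (g' v)) := by
    refine T1.of_conj hgH ?_
    rw [show B (g' v) ∘ₗ (g : V →ₗ[F] V) = B v from LinearMap.ext fun x => hg' v x]
    exact hT v hv
  have haw : B (g' v) (g v) = 0 := by rw [hg', hv]
  have ha : g' v ∉ sp F [g v] := by
    intro hm
    obtain ⟨c, hc⟩ := mem_sp_one.mp hm
    exact hv' (mem_sp_one.mpr ⟨c, by rw [hc, LinearEquiv.map_smul, le_inv_apply]⟩)
  have hw0 : g v ≠ 0 := by
    intro h0
    have : v = 0 := g.map_eq_zero_iff.mp h0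
    apply ha
    rw [this, g'.map_zero]; exact Submodule.zero_mem _
  set w := g v
  set a := g' v
  obtain ⟨u, hu, h1, h2⟩ := hS.one h (not_mem_sp_one_symm ha hw0) 1 (by simp)
  have hau : B a u = 0 := h1 a (by simp)
  have huw : B u w ≠ 0 := h.refl_ne (by rw [h2]; exact one_ne_zero)
  have hu0 : u ≠ 0 := by rintro rfl; simp at h2
  have h3 := (hT u hu).comm_left hT1 hau haw
  rw [h.smul_eq] at h3
  have hl : σ (B u w) ≠ 0 := (map_ne_zero σ).mpr huw
  have hb : σ (B u w) • a ∉ sp F [u] := by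
    intro hm
    obtain ⟨c, hc⟩ := mem_sp_one.mp ((Submodule.smul_mem_iff _ hl).mp hm)
    rw [hc, map_smulₛₗ, LinearMap.smul_apply, smul_eq_mul, mul_eq_zero, map_eq_zero] at haw
    rcases haw with rfl | h0
    · apply ha; rw [hc, zero_smul]; exact Submodule.zero_mem _
    · exact huw h0
  have hbu : B (σ (B u w) • a) u = 0 := by simp [hau]
  generalize σ (B u w) • a = b at h3 hb hbu
  have G1 : ∀ η : F, T1 H u (η • B u) := by
    intro η
    obtain ⟨x, h4, h5⟩ := h.one' hb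
    have hux : B u (η • x) = 0 := by rw [map_smul, h4 u (by simp), smul_zero]
    obtain ⟨d, hd⟩ := tr (η • x)
    obtain ⟨k, hk, hi, hkf⟩ := hE u (η • x) d hu hux (by rw [hd]; ring)
    have h6 := slsp_conj hk hi h3
    rw [hkf, hkf, Ef_fix _ hu (h.refl _ _ hux)] at h6
    have h7 := h6.sub_right h3 (by
      simp [Ef, hbu, hu, h.refl _ _ (h4 u (by simp))]) hbu
    convert h7 using 1
    simp [Ef, h.refl _ _ hbu, h5, h.inv]
  have sc : ∀ (c : F) (e : V), c ≠ 0 → (∀ η : F, T1 H (c • e) (η • B (c • e))) →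
      ∀ η : F, T1 H e (η • B e) := by
    intro c e hc he η
    have h4 := t1_smul.mp (he (η / (c * σ c)))
    have := (map_ne_zero σ).mpr hc
    rwa [map_smulₛₗ, smul_smul, smul_smul, show c * (η / (c * σ c)) * σ c = η by field_simp] at h4
  have G : ∀ e, B e e = 0 → ∀ η : F, T1 H e (η • B e) := by
    intro e he
    by_cases he0 : e = 0
    · intro η; rw [he0]; exact t1_zero_left _
    refine P.conn (fun e => ∀ η : F, T1 H e (η • B e)) (fun e u u' he hu hu' h1 h2 hG => ?_)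
      hu he hu0 he0 G1
    have h4 := sc (B e u) ((B e u)⁻¹ • u) h1 (by rwa [smul_smul, mul_inv_cancel₀ h1, one_smul])
    refine sc (B e u')⁻¹ u' (inv_ne_zero h2) ?_
    have a1 : B e ((B e u)⁻¹ • u) = 1 := by simp [h1]
    have a2 : B e ((B e u')⁻¹ • u') = 1 := by simp [h2]
    have s1 := P.smul (B e u)⁻¹ u hu
    have s2 := P.smul (B e u')⁻¹ u' hu'
    generalize (B e u)⁻¹ • u = v at *
    generalize (B e u')⁻¹ • u' = v' at *
    obtain ⟨k, hk, hi, hkf⟩ := hE e (v' - v) (-B v' v) he (by rw [map_sub, a1, a2, sub_self]) (by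
      simp only [map_sub, LinearMap.sub_apply, s1, s2, map_neg, hs v' v]; ring)
    intro η
    have := t1_map hk hi (h4 η)
    rwa [show k v = v' by simp [hkf, Ef, a1, s1]] at this
  have step : ∀ z y, T1 H u (B z) → B z u = 0 → B y y = 0 → B u y = 0 → B z y ≠ 0 →
      B y ∈ Dset H u := by
    intro z y hz hzu hy huy hzy
    refine ⟨h.refl _ _ huy, fun c => ?_⟩
    have := (G y hy (c / B z y)).comm_right hz (by simp [h.refl _ _ huy]) hzu
    rwa [smul_smul, mul_div_cancel₀ _ hzy] at this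
  have hA : u ∈ Aset H := mem_Aset_of_Dset fun p hp => by
    obtain ⟨y, hy, h4, h5⟩ := P.sp1 hu hb
    have hD := step b y h3 hbu hy h4 h5
    by_cases hpy : B p y = 0
    · obtain ⟨x, hx, h6, h7, h8⟩ := P.key hy h4
        (not_mem_sp_of (B b) (by simpa using hbu) h5) hp hpy
      exact ⟨_, step y x (by simpa using hD.2 1) hD.1 hx h6 h7, h.refl_ne h8⟩
    · exact ⟨_, hD, h.refl_ne hpy⟩
  refine SLV_le_of_Aset (h.eq_top fun a ha => ?_)
  obtain ⟨v, hv, h1, h2⟩ := hS.ne_two h hu0 ha le_rfl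
  obtain ⟨g, hg, hgf⟩ := (hT v hv).exists
  have h3 := (Aset H).sub_mem (Aset_apply hA hg) hA
  rw [hgf, add_sub_cancel_left] at h3
  exact ⟨v, ((Aset H).smul_mem_iff (h.refl_ne h1)).mp h3, h2⟩

open Cfsg.Geo Matrix

variable {ι : Type} [Fintype ι] [DecidableEq ι]

theorem slsp_isMaximalIn {f : (ι → F) → (ι → F) → F}
    (hK : ¬ specialLinear ι F ≤ similarityGroup f)
    {B : (ι → F) →ₛₗ[σ] (ι → F) →ₗ[F] F} {d : F} (hd : d ≠ 0) (hf : ∀ x y, B x y = d * f y x)
    (h : RF B) (hs : ∀ x y, B y x = -σ (B x y)) (tr : ∀ z, ∃ d, B z z = d - σ d)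
    (hS : Solv B (fun x => B x x = 0) 2) (hn : 2 < Fintype.card ι) :
    IsMaximalIn (specialLinear ι F) (similarityGroup f ⊓ specialLinear ι F) := by
  have hn' : 2 < finrank F (ι → F) := by simpa using hn
  refine isMaximalIn_sl_of hK fun H hH g hg hgH => slsp_SLV_le h hs tr hS hn' (fun k hk => ?_) hgH
    fun c hc => hg ?_
  · obtain ⟨x, rfl⟩ := (toLE ι F).surjective k
    refine hH x ⟨1, fun v w => ?_⟩ hk.2
    have := hk.1 w v
    rw [hf, hf] at this
    simpa [toLE_apply] using mul_left_cancel₀ hd this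
  · have hc0 : c ≠ 0 := by
      rintro rfl
      haveI : Nontrivial (ι → F) := Module.nontrivial_of_finrank_pos (R := F) (by omega)
      obtain ⟨a, ha⟩ := exists_ne (0 : ι → F)
      exact h.ne_zero ha (LinearMap.ext fun y => by simpa using hc a y)
    refine ⟨(Units.mk0 c hc0)⁻¹, fun u v => ?_⟩
    have := hc v u
    rw [hf, hf, mul_left_comm] at this
    rw [mul_left_cancel₀ hd this]
    simp [toLE_apply, hc0]

end Core

theorem sl_sp4 {F : Type*} [Field F] [Fintype F] :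
    ∀ f : (Fin 4 → F) → (Fin 4 → F) → F, Cfsg.Geo.IsSymplecticForm f → Cfsg.Geo.IsMaximalIn (Cfsg.Geo.specialLinear (Fin 4) F) (Cfsg.Geo.similarityGroup f ⊓ Cfsg.Geo.specialLinear (Fin 4) F) := by
  intro f hf
  let B : (Fin 4 → F) →ₗ[F] (Fin 4 → F) →ₗ[F] F :=
    LinearMap.mk₂ F (fun x y => f y x) (fun x y v => hf.bilinear.add_right _ _ _)
      (fun c x v => hf.bilinear.smul_right _ _ _) (fun x y v => hf.bilinear.add_left _ _ _)
      (fun c x v => hf.bilinear.smul_left _ _ _)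
  have hB : ∀ x y, B x y = f y x := fun _ _ => rfl
  refine slsp_isMaximalIn (σ := RingHom.id F) (B := B) (d := 1)
    (Cfsg.Agent.H99.not_sl_le_similarity (by simp) hf.bilinear.add_left
      hf.bilinear.smul_left hf.nondegenerate) one_ne_zero (fun x y => by rw [hB, one_mul])
    ⟨fun _ => rfl, fun x hx => ?_, fun x y h => ?_⟩ (fun x y => hf.skew _ _)
    (fun z => ⟨0, by rw [hB, hf.alternating]; simp⟩)
    (solv_alt (fun x => hf.alternating x) 2) (by simp)
  · by_contra h0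
    obtain ⟨y, hy⟩ := (hf.nondegenerate x h0).1
    exact hy (hx y)
  · rw [hB] at h ⊢
    rw [hf.skew, h, neg_zero]

end Cfsg.Agent.K4
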