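import Cfsg.Agent.H98.RowSU
import Cfsg.Agent.H77.LowC5

/-! Geometric maximal subgroups of `SL₄(q)` and `SU₄(q)`: definitions. -/

set_option autoImplicit false
set_option linter.unusedSectionVars false

namespace Cfsg.Agent.K4

open Module Cfsg.Agent.H27

variable {F V : Type*} [Field F] [AddCommGroup V] [Module F V]

/-- Frames in dimension four: a diagonal torus, and an element sending a frame point to a frame
point is monomial. -/
structure P4 {ι : Type*} [Fintype ι] [DecidableEq ι] (H : Subgroup (V ≃ₗ[F] V))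
    (b : Basis ι F V) (a : F) : Prop where
  card : Fintype.card ι = 4
  a0 : a ≠ 0
  a4 : a ^ 4 ≠ 1
  a3 : a * a + a + 1 ≠ 0
  diag : ∀ n : ι → ℤ, ∑ i, n i = 0 → ∃ d ∈ H, ∀ x i, b.coord i (d x) = a ^ n i * b.coord i x
  part : ∀ h ∈ H, ∀ i j, h (b i) ∈ frame b j → h ∈ dstab (frame b)

variable {σ : F →+* F}

/-- A conjugation compatible with a skew-Hermitian form on a space of dimension four; the
restriction of the form to the fixed vectors is symmetric. -/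
structure CJ (B : V →ₛₗ[σ] V →ₗ[F] F) (τ : V →ₛₗ[σ] V) : Prop where
  tt : ∀ x, τ (τ x) = x
  tB : ∀ x y, B (τ x) (τ y) = B y x
  two : (2 : F) ≠ 0
  dim : finrank F V = 4
  five : ∃ e : F, σ e = e ∧ e ≠ 0 ∧ e * e ≠ 1
  sq : ∀ a b c : F, σ a = -a → σ b = -b → σ c = -c → a ≠ 0 → b ≠ 0 →
    ∃ x y : F, σ x = x ∧ σ y = y ∧ a * x ^ 2 + b * y ^ 2 + c = 0

/-- The elements commuting with the conjugation up to a scalar. -/
def KT (τ : V →ₛₗ[σ] V) : Subgroup (V ≃ₗ[F] V) where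
  carrier := {g | ∃ μ : F, μ ≠ 0 ∧ ∀ x, τ (g x) = μ • g (τ x)}
  one_mem' := ⟨1, one_ne_zero, fun x => by simp [le_one_apply]⟩
  mul_mem' := by
    rintro g h ⟨μ, hμ, h1⟩ ⟨ν, hν, h2⟩
    exact ⟨μ * ν, mul_ne_zero hμ hν, fun x => by
      rw [le_mul_apply, h1, h2, map_smul, smul_smul, le_mul_apply]⟩
  inv_mem' := by
    rintro g ⟨μ, hμ, h⟩
    refine ⟨μ⁻¹, inv_ne_zero hμ, fun x => ?_⟩
    have := h (g⁻¹ x)
    rw [le_apply_inv] at this
    rw [this, map_smul, le_inv_apply, smul_smul, inv_mul_cancel₀ hμ, one_smul]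

theorem mem_KT {τ : V →ₛₗ[σ] V} {g : V ≃ₗ[F] V} :
    g ∈ KT τ ↔ ∃ μ : F, μ ≠ 0 ∧ ∀ x, τ (g x) = μ • g (τ x) := Iff.rfl

end Cfsg.Agent.K4
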