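import Cfsg.Agent.K4.Defs

/-! Frames in dimension four: non-monomial elements have no zero entry. -/

set_option autoImplicit false
set_option linter.unusedSectionVars false
set_option linter.unusedSimpArgs false

namespace Cfsg.Agent.K4

open Module Cfsg.Agent.H27

variable {F V : Type*} [Field F] [AddCommGroup V] [Module F V] [FiniteDimensional F V]
variable {ι : Type*} [Fintype ι] [DecidableEq ι] {H : Subgroup (V ≃ₗ[F] V)} {b : Basis ι F V} {a : F}

theorem P4.conj_mem (P : P4 H b a) {g x : V ≃ₗ[F] V} (hg : g ∈ H) (hx : x ∈ H) {k : ι} {c : F}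
    (h : x (g (b k)) = c • g (b k)) : g⁻¹ * x * g ∈ dstab (frame b) :=
  P.part _ (H.mul_mem (H.mul_mem (H.inv_mem hg) hx) hg) k k (mem_frame.2 ⟨c, by
    rw [le_mul_apply, le_mul_apply, h, map_smul, le_inv_apply]⟩)

theorem P4.two_zero (P : P4 H b a) {g : V ≃ₗ[F] V} (hg : g ∈ H) {k i j : ι} (hij : i ≠ j)
    (hi : b.coord i (g (b k)) = 0) (hj : b.coord j (g (b k)) = 0) : g ∈ dstab (frame b) := by
  have a0 := P.a0
  have a1 : a ≠ 1 := fun h => P.a4 (by rw [h, one_pow])
  have a2 : a⁻¹ ≠ a := fun h => P.a4 (by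
    have : a * a = 1 := by nth_rw 1 [← h]; exact inv_mul_cancel₀ a0
    linear_combination (a * a + 1) * this)
  obtain ⟨d, hd, hdf⟩ := P.diag (Pi.single i 1 - Pi.single j 1) (by simp [Finset.sum_sub_distrib])
  have ht : ∀ m, a ^ (Pi.single i 1 - Pi.single j 1 : ι → ℤ) m =
      if m = i then a else if m = j then a⁻¹ else 1 := fun m => by
    by_cases h1 : m = i
    · simp [h1, hij]
    by_cases h2 : m = j
    · simp [h2, hij.symm]
    · simp [h1, h2]
  simp only [ht] at hdf
  have hy := P.conj_mem hg hd (k := k) (c := 1) (eq_of_coord b fun m => by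
    rw [hdf, one_smul]
    split_ifs with h1 h2
    · rw [h1, hi, mul_zero]
    · rw [h2, hj, mul_zero]
    · rw [one_mul])
  have hgy : ∀ x, g ((g⁻¹ * d * g) x) = d (g x) := fun x => le_apply_inv g _
  generalize g⁻¹ * d * g = y at hy hgy
  obtain ⟨π, hπ⟩ := exists_of_mem_dstab_frame hy
  choose c c0 hc using hπ
  have key : ∀ x, a • y (y (y x)) - (a * a + a + 1) • y (y x) + (a * a + a + 1) • y x
      - a • x = 0 := fun x => g.injective (eq_of_coord b fun m => by
    simp only [map_sub, map_add, map_smul, hgy, hdf, map_zero, smul_eq_mul]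
    split_ifs <;> field_simp <;> ring)
  have hπ : ∀ r, π r = r := fun r => by
    by_contra hr
    by_cases h2 : π (π r) = r
    · have e1 := congrArg (b.coord r) (key (b r))
      have e2 := congrArg (b.coord (π r)) (key (b r))
      simp only [hc, h2, map_smul, map_add, map_sub, coord_self, coord_ne b hr,
        coord_ne b (Ne.symm hr), smul_eq_mul, mul_zero, mul_one, map_zero, sub_zero, zero_add,
        zero_sub, add_zero] at e1 e2
      have e3 : a * (c r * c (π r)) + (a * a + a + 1) = 0 :=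
        mul_left_cancel₀ (c0 r) (by linear_combination e2)
      have e4 : (a * a + 1) * (a + 1) ^ 2 = 0 := by
        linear_combination (a * a + a + 1) * e3 + a * e1
      rcases mul_eq_zero.1 e4 with h | h
      · exact P.a4 (by linear_combination (a * a - 1) * h)
      · have h' := (pow_eq_zero_iff two_ne_zero).1 h
        exact P.a4 (by linear_combination (a ^ 3 - a ^ 2 + a - 1) * h')
    · have := congrArg (b.coord (π r)) (key (b r))
      simp only [hc, map_smul, map_add, map_sub, coord_self, coord_ne b hr,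
        coord_ne b (π.injective.ne hr).symm, coord_ne b (π.injective.ne h2).symm, smul_eq_mul,
        mul_zero, mul_one, map_zero, sub_zero, zero_add] at this
      exact mul_ne_zero P.a3 (c0 r) this
  have hcy : ∀ x r, b.coord r (y x) = c r * b.coord r x := fun x r => by
    have : b.coord r ∘ₗ (y : V →ₗ[F] V) = c r • b.coord r := b.ext fun l => by
      rw [LinearMap.comp_apply, LinearEquiv.coe_coe, hc, hπ]
      by_cases hl : r = l <;> simp [hl]
    exact LinearMap.congr_fun this x
  obtain ⟨r, hr⟩ : ∃ r, b.coord r (g⁻¹ (b i)) ≠ 0 := by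
    by_contra h0
    push Not at h0
    exact b.ne_zero i ((g⁻¹).map_eq_zero_iff.1 (eq_of_coord b fun j => by rw [h0, map_zero]))
  have h1 : y (g⁻¹ (b i)) = a • g⁻¹ (b i) := g.injective (eq_of_coord b fun m => by
    rw [hgy, map_smul, le_apply_inv, hdf, map_smul, smul_eq_mul]
    by_cases h1 : m = i
    · rw [if_pos h1]
    · rw [coord_ne b h1, mul_zero, mul_zero])
  have h2 := hcy (g⁻¹ (b i)) r
  rw [h1, map_smul, smul_eq_mul] at h2
  refine P.part g hg r i (mem_frame_of_coord fun m hm => ?_)
  have h3 := hdf (g (b r)) m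
  rw [← hgy, hc, hπ, ← mul_right_cancel₀ hr h2, map_smul, map_smul, if_neg hm, smul_eq_mul] at h3
  by_contra h4
  have h5 := mul_right_cancel₀ h4 h3
  split_ifs at h5
  · exact a2 h5.symm
  · exact a1 h5

theorem P4.ne_zero (P : P4 H b a) {g : V ≃ₗ[F] V} (hg : g ∈ H) (hg' : g ∉ dstab (frame b))
    (i k : ι) : b.coord i (g (b k)) ≠ 0 := by
  intro hi
  have a0 := P.a0
  obtain ⟨d, hd, hdf⟩ := P.diag ((fun _ => 1) - Pi.single i 4) (by
    simp [Finset.sum_sub_distrib, P.card])
  have hd' : ∀ x, d x = a • x + ((a⁻¹ ^ 3 - a) * b.coord i x) • b i := fun x =>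
    eq_of_coord b fun m => by
      rw [hdf, map_add, map_smul, map_smul]
      by_cases h : m = i
      · subst h
        simp only [Pi.sub_apply, Pi.single_eq_same, coord_self, smul_eq_mul]
        rw [show (1 - 4 : ℤ) = -(3 : ℕ) by norm_num, zpow_neg, zpow_natCast, inv_pow]; ring
      · simp [h, coord_ne b h]
  have hκ : a⁻¹ ^ 3 - a ≠ 0 := fun h => P.a4 (by field_simp at h; linear_combination -h)
  obtain ⟨π, hπ⟩ := exists_of_mem_dstab_frame (P.conj_mem hg hd (k := k) (c := a) (by
    rw [hd', hi]; simp))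
  obtain ⟨r, hr⟩ : ∃ r, b.coord i (g (b r)) ≠ 0 := by
    by_contra h0
    push Not at h0
    have : b.coord i ∘ₗ (g : V →ₗ[F] V) = 0 := b.ext h0
    simpa [le_apply_inv] using LinearMap.congr_fun this (g⁻¹ (b i))
  obtain ⟨c, -, hc⟩ := hπ r
  rw [le_mul_apply, le_mul_apply, hd', map_add, map_smul, map_smul, le_inv_apply] at hc
  have h1 : ∀ m, m ≠ r → m ≠ π r → b.coord m (g⁻¹ (b i)) = 0 := fun m h1 h2 => by
    have := congrArg (b.coord m) hc
    simp only [map_add, map_smul, coord_ne b h1, coord_ne b h2, smul_eq_mul, mul_zero,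
      zero_add] at this
    exact (mul_eq_zero.1 this).resolve_left (mul_ne_zero hκ hr)
  obtain ⟨m, hm⟩ := exists_not_mem_list [r, π r] (by simp [P.card])
  obtain ⟨m', hm'⟩ := exists_not_mem_list [r, π r, m] (by simp [P.card])
  simp only [List.mem_cons, List.not_mem_nil, or_false, not_or] at hm hm'
  exact hg' ((Subgroup.inv_mem_iff _).1 (P.two_zero (H.inv_mem hg) hm'.2.2 (h1 _ hm'.1 hm'.2.1)
    (h1 _ hm.1 hm.2)))

end Cfsg.Agent.K4
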