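import Cfsg.Agent.K4.OBasic

/-! Orthogonal subfield subgroups of `SU₄(q)`: an overgroup with a full group of transvections. -/

set_option autoImplicit false
set_option linter.unusedSectionVars false
set_option linter.unusedSimpArgs false
set_option linter.unusedVariables false

namespace Cfsg.Agent.K4

open Module Cfsg.Agent.H27

variable {F V : Type*} [Field F] [AddCommGroup V] [Module F V] {σ : F →+* F} {q : ℕ}
variable [FiniteDimensional F V] [Fintype F] {B : V →ₛₗ[σ] V →ₗ[F] F} {τ : V →ₛₗ[σ] V}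
  {H : Subgroup (V ≃ₗ[F] V)}

theorem CJ.as_of_perp (S : UH B) (Q : H98.QF σ q) (C : CJ B τ)
    (hr : ∀ v, τ v = v → B v v = 0 → AS B H v) {z w : V} (zz : B z z = 0) (hw : τ w = w)
    (ww : B w w ≠ 0) (wz : B w z = 0) : AS B H z := by
  have two := C.two
  obtain ⟨u, u0, hu, uu, h1⟩ := C.exists_iso_perp S [w] (by simp) (by simpa)
  have wu : B w u = 0 := h1 w (by simp)
  obtain ⟨y, -, uy⟩ := C.exists_rat_ne S u0
  obtain ⟨f, hf, ff, uf, h2⟩ := C.exists_partner S hu uu [w] (by simpa) h1
    (z := y - (B w y / B w w) • w) (by simpa [S.zero_symm wu] using uy) (by simp [ww])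
  have wf : B w f = 0 := h2 w (by simp)
  obtain ⟨b, hb, E⟩ := C.exists_HB' S uu ff uf (fun x h1 h2 => by
    rw [C.tau_right S hu, C.tau_right S hf, h1, h2]; simp) hw (S.zero_symm wu) (S.zero_symm wf) ww
  have e := E.expand S C.dim z
  rw [wz, zero_div, zero_smul, add_zero] at e
  generalize B f z / B f u = α at e
  generalize B u z / B u f = β at e
  generalize B b z / B b b = γ at e
  have au := hr u hu uu
  have af := S.as_smul (hr f hf ff) (B u f)⁻¹
  have h3 : B u ((B u f)⁻¹ • f) = 1 := by simp [uf]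
  have h4 : B ((B u f)⁻¹ • f) b = 0 := by simp [E.fb]
  have h5 : ∀ c : F, c • f = (c * B u f) • (B u f)⁻¹ • f := fun c => by
    rw [smul_smul, mul_inv_cancel_right₀ uf]
  have h6 : σ (-(B b b / (2 * B u f))) = -(B b b / (2 * B u f)) := by
    rw [map_neg, map_div₀, map_mul, map_ofNat, S.norm_skew, C.skw S hu hf]; field_simp
  have h7 := S.as_smul (hr (u + (-(B b b / (2 * B u f))) • f + b)
    (by rw [map_add, map_add, hu, hb, C.rat_smul hf h6]) (by
      simp only [map_add, map_smulₛₗ, LinearMap.add_apply, LinearMap.smul_apply, uu, ff, E.eb, E.fb,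
        S.zero_symm E.eb, S.zero_symm E.fb, h6, C.sym hu hf, smul_eq_mul, RingHom.id_apply]
      field_simp
      ring)) γ
  rw [smul_add, smul_add, smul_smul, h5] at h7
  rw [h5] at e
  generalize β * B u f = β' at e
  generalize γ * -(B b b / (2 * B u f)) * B u f = β'' at h7
  generalize (B u f)⁻¹ • f = g at e af h3 h4 h7
  have inv : ∀ a c : F, B (a • u + c • g + γ • b) (a • u + c • g + γ • b) = 0 →
      σ a * c - σ c * a = -(σ γ * γ * B b b) := fun a c h => by
    simp only [map_add, map_smulₛₗ, LinearMap.add_apply, LinearMap.smul_apply, uu, af.1, E.eb, h4,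
      S.zero_symm E.eb, S.zero_symm h4, h3, S.one_symm h3, smul_eq_mul, RingHom.id_apply] at h
    linear_combination h
  rw [e] at zz ⊢
  have i1 := inv _ _ zz
  rcases eq_or_ne γ 0 with rfl | γ0
  · rcases eq_or_ne β' 0 with rfl | β0
    · simpa using S.as_smul au α
    · have β0' : σ β' ≠ 0 := (map_ne_zero σ).2 β0
      convert S.as_smul (S.as_move au af (c := α / β') (by
        rw [map_div₀, div_eq_div_iff β0' β0]; linear_combination i1)) β' using 1
      rw [h3]
      match_scalars <;> field_simp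
  · have i2 := inv _ _ h7.1
    refine Q.sl2_trans (fun a c => AS B H (a • u + c • g + γ • b)) (fun a c t ht h => ?_)
      (fun a c t ht h => ?_) (by rw [i2]; simp [γ0, E.bb]) (i2.trans i1.symm) h7
    · convert S.as_move au h ht using 1
      simp only [map_add, map_smul, uu, h3, E.eb, smul_eq_mul]; module
    · convert S.as_move af h (c := -t) (by rw [map_neg, ht]) using 1
      simp only [map_add, map_smul, af.1, S.one_symm h3, h4, smul_eq_mul]; module

theorem CJ.exists_rat_iso_ne (S : UH B) (C : CJ B τ) {z : V} (z0 : z ≠ 0) :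
    ∃ u, τ u = u ∧ B u u = 0 ∧ B u z ≠ 0 := by
  by_contra hc
  push Not at hc
  obtain ⟨e, e0, he, ee, -⟩ := C.exists_iso_perp S [] (by simp) (by simp)
  obtain ⟨f, hf, ff, ef⟩ := C.exists_partner' S e0 he ee
  have h1 : ∀ y, τ y = y → B e y ≠ 0 → B y z = 0 := fun y hy ey => by
    obtain ⟨c, h1, h2⟩ := C.iso_sub S he ee hy ey
    simpa [hc e he ee] using hc _ (by rw [map_sub, hy, C.rat_smul he h1]) h2
  obtain ⟨y, hy, h2⟩ := C.exists_rat_ne S z0
  refine S.ne_symm h2 ?_
  by_cases ey : B e y = 0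
  · simpa [hc f hf ff] using h1 (y + f) (by rw [map_add, hy, hf]) (by simpa [ey] using ef)
  · exact h1 y hy ey

theorem CJ.GG_le_of_as (S : UH B) (Q : H98.QF σ q) (C : CJ B τ) (hH : KT τ ⊓ GG B ≤ H) {u : V}
    (hu0 : u ≠ 0) (hu : τ u = u) (h : AS B H u) : GG B ≤ H := by
  have hr : ∀ v, τ v = v → B v v = 0 → AS B H v := fun v hv vv => by
    rcases eq_or_ne v 0 with rfl | v0
    · exact as_zero
    obtain ⟨s, hs, h1, rfl⟩ := C.trans S hu0 hu h.1 v0 hv vv
    exact h.conj (hH ⟨mem_KT_of_com h1, hs⟩) hs.1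
  have h1 : ∀ z, B z z = 0 → B z (τ z) ≠ 0 → AS B H z := fun z zz hb => by
    obtain ⟨a, b, ha, -, E⟩ := C.exists_HB S zz (by rw [C.tB, zz]) hb fun x h1 h2 =>
      ⟨by rw [C.adj, S.zero_symm h2], by rw [C.tB, S.zero_symm h1]⟩
    exact C.as_of_perp S Q hr zz ha E.aa (S.zero_symm E.ea)
  refine S.gen H fun z zz => And.right (?_ : AS B H z)
  by_cases hb : B z (τ z) = 0
  swap
  · exact h1 z zz hb
  rcases eq_or_ne z 0 with rfl | z0
  · exact as_zero
  obtain ⟨v, hv, vv, vz⟩ := C.exists_rat_iso_ne S z0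
  have h2 := h1 (z + B v z • v) (by
    simp only [map_add, map_smulₛₗ, LinearMap.add_apply, LinearMap.smul_apply, zz, vv,
      S.skew v z, smul_eq_mul, RingHom.id_apply]
    ring) (by
    simp only [map_add, map_smulₛₗ, LinearMap.add_apply, LinearMap.smul_apply, hb, vv, hv,
      S.skew v z, C.tau_right S hv, smul_eq_mul, RingHom.id_apply]
    intro e
    exact mul_ne_zero C.two (pow_ne_zero 2 ((map_ne_zero σ).2 vz)) (by linear_combination -e))
  convert S.as_move (hr v hv vv) h2 (c := -1) (by simp) using 1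
  simp [vv]

end Cfsg.Agent.K4
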