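import Cfsg.Agent.K4.Defs

/-! Orthogonal subfield subgroups of `SU₄(q)`: rational vectors, reflections, bases. -/

set_option autoImplicit false
set_option linter.unusedSectionVars false
set_option linter.unusedSimpArgs false
set_option linter.unusedVariables false

namespace Cfsg.Agent.K4

open Module Cfsg.Agent.H27

variable {F V : Type*} [Field F] [AddCommGroup V] [Module F V] {σ : F →+* F}
variable [FiniteDimensional F V] [Finite F] {B : V →ₛₗ[σ] V →ₗ[F] F} {τ : V →ₛₗ[σ] V}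

/-- A hyperbolic pair together with an orthogonal basis of its complement. -/
structure HB (B : V →ₛₗ[σ] V →ₗ[F] F) (e f a b : V) : Prop where
  ee : B e e = 0
  ff : B f f = 0
  ef : B e f ≠ 0
  ea : B e a = 0
  eb : B e b = 0
  fa : B f a = 0
  fb : B f b = 0
  ab : B a b = 0
  aa : B a a ≠ 0
  bb : B b b ≠ 0

theorem mem_KT_of_com {g : V ≃ₗ[F] V} (h : ∀ x, τ (g x) = g (τ x)) : g ∈ KT τ :=
  ⟨1, one_ne_zero, fun x => by rw [h, one_smul]⟩

theorem dep5 (h4 : finrank F V = 4) (v₁ v₂ v₃ v₄ v₅ : V)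
    (h : ∀ c₁ c₂ c₃ c₄ c₅ : F, c₁ • v₁ + c₂ • v₂ + c₃ • v₃ + c₄ • v₄ + c₅ • v₅ = 0 →
      c₁ = 0 ∧ c₂ = 0 ∧ c₃ = 0 ∧ c₄ = 0 ∧ c₅ = 0) : False := by
  have : LinearIndependent F ![v₁, v₂, v₃, v₄, v₅] := by
    rw [Fintype.linearIndependent_iff]
    intro c hc i
    obtain ⟨h1, h2, h3, h5, h6⟩ := h (c 0) (c 1) (c 2) (c 3) (c 4)
      (by simpa [Fin.sum_univ_five] using hc)
    fin_cases i <;> assumption
  have := this.fintype_card_le_finrank
  simp [h4] at this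

namespace HB

variable (S : UH B) (h4 : finrank F V = 4) {e f a b : V} (E : HB B e f a b)
include S h4 E

theorem eq_zero {x : V} (h1 : B e x = 0) (h2 : B f x = 0) (h3 : B a x = 0) (h5 : B b x = 0) :
    x = 0 := by
  by_contra hx
  refine dep5 h4 e f a b x fun c₁ c₂ c₃ c₄ c₅ h => ?_
  have e1 := congrArg (B e) h
  have e2 := congrArg (B f) h
  have e3 := congrArg (B a) h
  have e4 := congrArg (B b) h
  simp [E.ee, E.ff, E.ea, E.eb, E.fa, E.fb, E.ab, E.ef, E.aa, E.bb, S.ne_symm E.ef, h1, h2, h3, h5,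
    S.zero_symm E.ea, S.zero_symm E.eb, S.zero_symm E.fa, S.zero_symm E.fb,
    S.zero_symm E.ab] at e1 e2 e3 e4
  simp [e1, e2, e3, e4, hx] at h
  exact ⟨e2, e1, e3, e4, h⟩

theorem expand (x : V) : x = (B f x / B f e) • e + (B e x / B e f) • f + (B a x / B a a) • a +
    (B b x / B b b) • b := by
  rw [← sub_eq_zero]
  have := E.ef
  have := S.ne_symm E.ef
  have := E.aa
  have := E.bb
  refine E.eq_zero S h4 ?_ ?_ ?_ ?_ <;>
  simp only [map_sub, map_add, map_smul, E.ee, E.ff, E.ea, E.eb, E.fa, E.fb, E.ab,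
    S.zero_symm E.ea, S.zero_symm E.eb, S.zero_symm E.fa, S.zero_symm E.fb, S.zero_symm E.ab,
    smul_eq_mul] <;> field_simp <;> ring

theorem expand_perp {x : V} (h1 : B e x = 0) (h2 : B f x = 0) :
    x = (B a x / B a a) • a + (B b x / B b b) • b := by
  simpa [h1, h2] using E.expand S h4 x

end HB

namespace CJ

variable (S : UH B) (C : CJ B τ)
include C

theorem adj (x y : V) : B x (τ y) = B y (τ x) := by rw [← C.tB (τ x), C.tt]

theorem adj' (x y : V) : B (τ x) y = B (τ y) x := by rw [← C.tB x, C.tt]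

theorem sym {x y : V} (hx : τ x = x) (hy : τ y = y) : B y x = B x y := by rw [← C.tB, hx, hy]

theorem rat_tr (x : V) : τ (x + τ x) = x + τ x := by rw [map_add, C.tt, add_comm]

theorem rat_smul {x : V} (hx : τ x = x) {c : F} (hc : σ c = c) : τ (c • x) = c • x := by
  rw [map_smulₛₗ, hx, hc]

include S

theorem skw {x y : V} (hx : τ x = x) (hy : τ y = y) : σ (B x y) = -B x y := by
  have := S.skew x y
  rw [C.sym hx hy] at this
  linear_combination this

theorem tau_right {x : V} (hx : τ x = x) (y : V) : B x (τ y) = -σ (B x y) := by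
  rw [C.adj, hx, S.skew]

theorem mem_of_tr {Z : Submodule F V} {x : V} (h : ∀ γ : F, γ • x + τ (γ • x) ∈ Z) : x ∈ Z := by
  obtain ⟨θ, hθ⟩ := S.exists_ne
  have := Z.sub_mem (h θ) (Z.smul_mem (σ θ) (h 1))
  rw [map_smulₛₗ, map_smulₛₗ, map_one,
    show θ • x + σ θ • τ x - σ θ • ((1 : F) • x + (1 : F) • τ x) = (θ - σ θ) • x by module] at this
  exact (Z.smul_mem_iff (sub_ne_zero.2 hθ.symm)).1 this

theorem exists_tr {W : Type*} [AddCommGroup W] [Module F W] (φ : V →ₗ[F] W) {x : V}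
    (h : φ x ≠ 0) : ∃ γ : F, φ (γ • x + τ (γ • x)) ≠ 0 := by
  by_contra hc
  push Not at hc
  exact h (C.mem_of_tr S (Z := LinearMap.ker φ) hc)

theorem exists_rat_ne {x : V} (hx : x ≠ 0) : ∃ y, τ y = y ∧ B x y ≠ 0 := by
  obtain ⟨y, hy⟩ : ∃ y, B x y ≠ 0 := by
    by_contra hc
    push Not at hc
    exact hx (S.nd x hc)
  obtain ⟨γ, h⟩ := C.exists_tr S (B x) hy
  exact ⟨_, C.rat_tr _, h⟩

theorem exists_rat_perp (l : List V) (hl : l.length < 4)
    (h : ∀ x, (∀ w ∈ l, B w x = 0) → ∀ w ∈ l, B w (τ x) = 0) :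
    ∃ x, x ≠ 0 ∧ τ x = x ∧ ∀ w ∈ l, B w x = 0 := by
  obtain ⟨x, h1, h2⟩ := H77.exists_perp_not_mem B l [] (by simpa [C.dim] using hl)
  obtain ⟨γ, h3⟩ := C.exists_tr S LinearMap.id (x := x) (by simpa [H77.mem_sp_nil] using h2)
  exact ⟨γ • x + τ (γ • x), h3, C.rat_tr _, fun w hw => by
    rw [map_add, h (γ • x) (fun w hw => by simp [h1 w hw]) w hw]; simp [h1 w hw]⟩

theorem inv_of_rat {l : List V} (hl : ∀ w ∈ l, τ w = w) (x : V) (h : ∀ w ∈ l, B w x = 0) :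
    ∀ w ∈ l, B w (τ x) = 0 := fun w hw => by
  rw [C.tau_right S (hl w hw), h w hw, map_zero, neg_zero]

theorem exists_rf {a : V} (ha : τ a = a) (h : B a a ≠ 0) : ∃ r ∈ Iso B,
    LinearMap.det (r : V →ₗ[F] V) = -1 ∧ (∀ x, τ (r x) = r (τ x)) ∧
      ∀ x, r x = x - (2 * B a x / B a a) • a := by
  obtain ⟨r, h1, h2, h3⟩ := S.exists_refl h (l := -1) (by simp)
  have h4 : ∀ x, r x = x - (2 * B a x / B a a) • a := fun x => by
    rw [h3]; match_scalars <;> (field_simp; try ring)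
  refine ⟨r, h1, h2, fun x => ?_, h4⟩
  rw [h4, h4, map_sub, map_smulₛₗ, ha, map_div₀, map_mul, map_ofNat, C.skw S ha ha,
    C.tau_right S ha]
  congr 2
  field_simp

theorem exists_rr {a b : V} (ha : τ a = a) (h : B a a ≠ 0) (hb : τ b = b) (h' : B b b ≠ 0) :
    ∃ s ∈ GG B, (∀ x, τ (s x) = s (τ x)) ∧ ∀ x, s x = x - (2 * B b x / B b b) • b -
      (2 * (B a x - 2 * B b x / B b b * B a b) / B a a) • a := by
  obtain ⟨r, h1, h2, h3, h4⟩ := C.exists_rf S ha h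
  obtain ⟨r', h1', h2', h3', h4'⟩ := C.exists_rf S hb h'
  refine ⟨r * r', ⟨(Iso B).mul_mem h1 h1', mem_SLV.2 (by rw [det_mul', h2, h2']; simp)⟩,
    fun x => by rw [le_mul_apply, h3, h3', le_mul_apply], fun x => ?_⟩
  rw [le_mul_apply, h4, h4', map_sub, map_smul, smul_eq_mul]

theorem iso_sub {u y : V} (hu : τ u = u) (h0 : B u u = 0) (hy : τ y = y) (h : B u y ≠ 0) :
    ∃ c : F, σ c = c ∧ B (y - c • u) (y - c • u) = 0 := by
  have h1 : σ (B y y / (2 * B u y)) = B y y / (2 * B u y) := by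
    rw [map_div₀, map_mul, map_ofNat, C.skw S hy hy, C.skw S hu hy]; field_simp
  refine ⟨_, h1, ?_⟩
  have := C.two
  simp only [map_sub, map_smulₛₗ, LinearMap.sub_apply, LinearMap.smul_apply, h0, h1, C.sym hu hy,
    smul_eq_mul, RingHom.id_apply]
  field_simp
  ring

theorem exists_partner {u : V} (hu : τ u = u) (h0 : B u u = 0) (l : List V)
    (hl : ∀ w ∈ l, τ w = w) (hlu : ∀ w ∈ l, B w u = 0) {z : V} (hz : B u z ≠ 0)
    (hlz : ∀ w ∈ l, B w z = 0) :
    ∃ f, τ f = f ∧ B f f = 0 ∧ B u f ≠ 0 ∧ ∀ w ∈ l, B w f = 0 := by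
  obtain ⟨γ, h1⟩ := C.exists_tr S (B u) hz
  obtain ⟨c, hc, h2⟩ := C.iso_sub S hu h0 (C.rat_tr _) h1
  refine ⟨_, by rw [map_sub, C.rat_tr, C.rat_smul hu hc], h2, by simpa [h0] using h1,
    fun w hw => ?_⟩
  rw [map_sub, map_add, C.inv_of_rat S hl (γ • z) (fun w hw => by simp [hlz w hw]) w hw]
  simp [hlu w hw, hlz w hw]

theorem exists_partner' {u : V} (hu0 : u ≠ 0) (hu : τ u = u) (h0 : B u u = 0) :
    ∃ f, τ f = f ∧ B f f = 0 ∧ B u f ≠ 0 := by
  obtain ⟨z, -, hz⟩ := C.exists_rat_ne S hu0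
  simpa using C.exists_partner S hu h0 [] (by simp) (by simp) hz (by simp)

theorem exists_HB' {e f a : V} (he : B e e = 0) (hf : B f f = 0) (hef : B e f ≠ 0)
    (h : ∀ x, B e x = 0 → B f x = 0 → B e (τ x) = 0 ∧ B f (τ x) = 0) (ha : τ a = a)
    (h1 : B e a = 0) (h2 : B f a = 0) (h3 : B a a ≠ 0) : ∃ b, τ b = b ∧ HB B e f a b := by
  obtain ⟨b, b0, hb, h4⟩ := C.exists_rat_perp S [e, f, a] (by simp) fun x hx => by
    have := h x (hx e (by simp)) (hx f (by simp))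
    simpa [this.1, this.2] using C.inv_of_rat S (l := [a]) (by simpa) x
      (by simpa using hx a (by simp))
  have eb := h4 e (by simp)
  have fb := h4 f (by simp)
  have ab := h4 a (by simp)
  refine ⟨b, hb, he, hf, hef, h1, eb, h2, fb, ab, h3, fun bb => ?_⟩
  obtain ⟨y, -, hy⟩ := C.exists_rat_ne S b0
  refine dep5 C.dim e f a b y fun c₁ c₂ c₃ c₄ c₅ h => ?_
  have e4 := congrArg (B b) h
  simp [S.zero_symm eb, S.zero_symm fb, S.zero_symm ab, bb, hy] at e4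
  have e1 := congrArg (B e) h
  have e2 := congrArg (B f) h
  have e3 := congrArg (B a) h
  simp [he, hf, h1, h2, eb, fb, ab, hef, h3, S.ne_symm hef, e4, S.zero_symm h1,
    S.zero_symm h2] at e1 e2 e3
  simp [e1, e2, e3, e4, b0] at h
  exact ⟨e2, e1, e3, h, e4⟩

theorem exists_HB {e f : V} (he : B e e = 0) (hf : B f f = 0) (hef : B e f ≠ 0)
    (h : ∀ x, B e x = 0 → B f x = 0 → B e (τ x) = 0 ∧ B f (τ x) = 0) :
    ∃ a b, τ a = a ∧ τ b = b ∧ HB B e f a b := by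
  suffices ∃ a, τ a = a ∧ B e a = 0 ∧ B f a = 0 ∧ B a a ≠ 0 by
    obtain ⟨a, ha, h1, h2, h3⟩ := this
    obtain ⟨b, hb, E⟩ := C.exists_HB' S he hf hef h ha h1 h2 h3
    exact ⟨a, b, ha, hb, E⟩
  obtain ⟨x, x0, hx, h4⟩ := C.exists_rat_perp S [e, f] (by simp) fun x hx => by
    simpa using h x (hx e (by simp)) (hx f (by simp))
  have ex := h4 e (by simp)
  have fx := h4 f (by simp)
  by_cases xx : B x x = 0
  swap
  · exact ⟨x, hx, ex, fx, xx⟩
  obtain ⟨y, -, hy⟩ := C.exists_rat_ne S x0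
  have hfe := S.ne_symm hef
  obtain ⟨γ, h5⟩ := C.exists_tr S (B x) (x := y - (B f y / B f e) • e - (B e y / B e f) • f)
    (by simpa [S.zero_symm ex, S.zero_symm fx] using hy)
  have h6 : B e (γ • (y - (B f y / B f e) • e - (B e y / B e f) • f)) = 0 := by simp [he, hef]
  have h7 : B f (γ • (y - (B f y / B f e) • e - (B e y / B e f) • f)) = 0 := by simp [hf, hfe]
  generalize γ • (y - (B f y / B f e) • e - (B e y / B e f) • f) = z at h5 h6 h7
  have h8 : B e (z + τ z) = 0 := by rw [map_add, h6, (h z h6 h7).1, add_zero]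
  have h9 : B f (z + τ z) = 0 := by rw [map_add, h7, (h z h6 h7).2, add_zero]
  have h10 := C.rat_tr z
  generalize z + τ z = w at h5 h8 h9 h10
  by_cases ww : B w w = 0
  · refine ⟨x + w, by rw [map_add, hx, h10], by simp [ex, h8], by simp [fx, h9], ?_⟩
    simp only [map_add, LinearMap.add_apply, xx, ww, C.sym hx h10, zero_add, add_zero, ← two_mul]
    exact mul_ne_zero C.two h5
  · exact ⟨w, h10, h8, h9, ww⟩

theorem exists_HB_rat {e f : V} (he' : τ e = e) (hf' : τ f = f) (he : B e e = 0) (hf : B f f = 0)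
    (hef : B e f ≠ 0) : ∃ a b, τ a = a ∧ τ b = b ∧ HB B e f a b :=
  C.exists_HB S he hf hef fun x h1 h2 => by
    rw [C.tau_right S he', C.tau_right S hf', h1, h2]; simp

theorem exists_iso_three {a b c : V} (ha : τ a = a) (hb : τ b = b) (hc : τ c = c) (aa : B a a ≠ 0)
    (bb : B b b ≠ 0) (c0 : c ≠ 0) (ab : B a b = 0) (ac : B a c = 0) (bc : B b c = 0) :
    ∃ x y : F, σ x = x ∧ σ y = y ∧ x • a + y • b + c ≠ 0 ∧
      B (x • a + y • b + c) (x • a + y • b + c) = 0 := by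
  obtain ⟨x, y, hx, hy, h⟩ := C.sq _ _ _ (C.skw S ha ha) (C.skw S hb hb) (C.skw S hc hc) aa bb
  refine ⟨x, y, hx, hy, fun h0 => ?_, ?_⟩
  · have e1 := congrArg (B a) h0
    have e2 := congrArg (B b) h0
    simp [ab, ac, bc, S.zero_symm ab, aa, bb] at e1 e2
    exact c0 (by simpa [e1, e2] using h0)
  · simp only [map_add, map_smulₛₗ, LinearMap.add_apply, LinearMap.smul_apply, ab, ac, bc,
      S.zero_symm ab, S.zero_symm ac, S.zero_symm bc, hx, hy, smul_eq_mul, RingHom.id_apply]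
    linear_combination h

theorem exists_iso_perp (l : List V) (hl : l.length ≤ 1) (h : ∀ w ∈ l, τ w = w) :
    ∃ u, u ≠ 0 ∧ τ u = u ∧ B u u = 0 ∧ ∀ w ∈ l, B w u = 0 := by
  by_contra hc
  push Not at hc
  have hn : ∀ u, u ≠ 0 → τ u = u → (∀ w ∈ l, B w u = 0) → B u u ≠ 0 := fun u h1 h2 h3 h4 => by
    obtain ⟨w, hw, h5⟩ := hc u h1 h2 h4
    exact h5 (h3 w hw)
  obtain ⟨a, a0, ha, h1⟩ := C.exists_rat_perp S l (by omega) (C.inv_of_rat S h)
  obtain ⟨b, b0, hb, h2⟩ := C.exists_rat_perp S (a :: l) (by simp; omega)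
    (C.inv_of_rat S (by simpa [ha] using h))
  obtain ⟨c, c0, hc', h3⟩ := C.exists_rat_perp S (b :: a :: l) (by simp; omega)
    (C.inv_of_rat S (by simpa [ha, hb] using h))
  have h2' : ∀ w ∈ l, B w b = 0 := fun w hw => h2 w (by simp [hw])
  obtain ⟨x, y, hx, hy, h4, h5⟩ := C.exists_iso_three S ha hb hc' (hn a a0 ha h1)
    (hn b b0 hb h2') c0 (h2 a (by simp)) (h3 a (by simp)) (h3 b (by simp))
  exact hn _ h4 (by rw [map_add, map_add, C.rat_smul ha hx, C.rat_smul hb hy, hc'])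
    (fun w hw => by simp [h1 w hw, h2' w hw, h3 w (by simp [hw])]) h5

theorem trans_ne {u v : V} (hu : τ u = u) (h0 : B u u = 0) (hv : τ v = v) (h1 : B v v = 0)
    (h : B u v ≠ 0) {e : F} (he : σ e = e) (e0 : e ≠ 0) :
    ∃ s ∈ GG B, (∀ x, τ (s x) = s (τ x)) ∧ s u = e • v := by
  obtain ⟨a, b, ha, -, E⟩ := C.exists_HB_rat S hu hv h0 h1 h
  have h2 : B (u - e • v) (u - e • v) = -(2 * e * B u v) := by
    simp only [map_sub, map_smulₛₗ, LinearMap.sub_apply, LinearMap.smul_apply, h0, h1, he,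
      C.sym hu hv, smul_eq_mul, RingHom.id_apply]
    ring
  have h3 := C.two
  obtain ⟨s, hs, h4, h5⟩ := C.exists_rr S (a := u - e • v)
    (by rw [map_sub, hu, C.rat_smul hv he]) (by rw [h2]; simp [h, h3, e0]) ha E.aa
  refine ⟨s, hs, h4, ?_⟩
  rw [h5, h2]
  simp only [map_sub, map_smulₛₗ, LinearMap.sub_apply, LinearMap.smul_apply, h0, he,
    C.sym hu hv, S.zero_symm E.ea, smul_eq_mul]
  match_scalars <;> field_simp <;> ring

theorem trans {u v : V} (u0 : u ≠ 0) (hu : τ u = u) (h0 : B u u = 0) (v0 : v ≠ 0) (hv : τ v = v)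
    (h1 : B v v = 0) : ∃ s ∈ GG B, (∀ x, τ (s x) = s (τ x)) ∧ s u = v := by
  by_cases h : B u v = 0
  swap
  · simpa using C.trans_ne S hu h0 hv h1 h (map_one σ) one_ne_zero
  obtain ⟨y, hy, h2, h3⟩ : ∃ y, τ y = y ∧ B u y ≠ 0 ∧ B v y ≠ 0 := by
    obtain ⟨y, hy, h2⟩ := C.exists_rat_ne S u0
    obtain ⟨z, hz, h3⟩ := C.exists_rat_ne S v0
    by_cases h4 : B v y = 0
    · by_cases h5 : B u z = 0
      · exact ⟨y + z, by rw [map_add, hy, hz], by simpa [h5] using h2, by simpa [h4] using h3⟩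
      · exact ⟨z, hz, h5, h3⟩
    · exact ⟨y, hy, h2, h4⟩
  obtain ⟨c, hc, h4⟩ := C.iso_sub S hu h0 hy h2
  have h5 : τ (y - c • u) = y - c • u := by rw [map_sub, hy, C.rat_smul hu hc]
  obtain ⟨s, hs, h6, h7⟩ := C.trans_ne S hu h0 h5 h4 (by simpa [h0] using h2) (map_one σ)
    one_ne_zero
  obtain ⟨t, ht, h8, h9⟩ := C.trans_ne S h5 h4 hv h1
    (S.ne_symm (by simpa [S.zero_symm h] using h3)) (map_one σ) one_ne_zero
  exact ⟨t * s, (GG B).mul_mem ht hs, fun x => by rw [le_mul_apply, h8, h6, le_mul_apply],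
    by rw [le_mul_apply, h7, one_smul, h9, one_smul]⟩

end CJ

end Cfsg.Agent.K4
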