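import Cfsg.Agent.K4.OU

/-! Orthogonal subfield subgroups of `SU₄(q)`: two conjugations share a rational isotropic
point. -/

set_option autoImplicit false
set_option linter.unusedSectionVars false
set_option linter.unusedSimpArgs false
set_option linter.unusedVariables false

namespace Cfsg.Agent.K4

open Module Cfsg.Agent.H27

variable {F V : Type*} [Field F] [AddCommGroup V] [Module F V] {σ : F →+* F}
variable [FiniteDimensional F V] [Finite F] {B : V →ₛₗ[σ] V →ₗ[F] F} {τ τ' : V →ₛₗ[σ] V}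
  {H : Subgroup (V ≃ₗ[F] V)}

theorem CJ.h90 (S : UH B) (C : CJ B τ) {e : V} (e0 : e ≠ 0) {c : F} (h : τ e = c • e) :
    ∃ ν : F, ν ≠ 0 ∧ σ ν * c = ν := by
  obtain ⟨γ, hγ⟩ := C.exists_tr S LinearMap.id (x := e) e0
  have h1 := C.rat_tr (γ • e)
  rw [LinearMap.id_apply] at hγ
  rw [map_smulₛₗ τ γ, h, smul_smul, ← add_smul] at hγ h1
  rw [map_smulₛₗ, h, smul_smul] at h1
  exact ⟨_, left_ne_zero_of_smul hγ, smul_left_injective F e0 h1⟩

namespace OH

variable (S : UH B) (O : OH B τ H) (O' : OH B τ' H)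
include S O O'

theorem scalar {w : V} (hw : τ' w = w) (ww : B w w = 0) (hb : B w (τ w) ≠ 0) :
    ∃ (a b : V) (μ : F), τ a = a ∧ τ b = b ∧ HB B w (τ w) a b ∧ τ' a = μ • a ∧ τ' b = μ • b := by
  have two := O.cj.two
  have w0 : w ≠ 0 := by rintro rfl; simp at hb
  obtain ⟨a, b, ha, hb', E⟩ := O.cj.exists_HB S ww (by rw [O.cj.tB, ww]) hb fun x h1 h2 =>
    ⟨by rw [O.cj.adj, S.zero_symm h2], by rw [O.cj.tB, S.zero_symm h1]⟩
  obtain ⟨e, he, e0, hn⟩ : ∃ e : F, σ e = e ∧ e ≠ 0 ∧ B a a + e * e * B b b ≠ 0 := by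
    obtain ⟨e, he, e0, e1⟩ := O.cj.five
    by_cases h : B a a + 1 * 1 * B b b = 0
    · exact ⟨e, he, e0, fun h' => mul_ne_zero (sub_ne_zero.2 e1) E.bb (by linear_combination h' - h)⟩
    · exact ⟨1, map_one σ, one_ne_zero, h⟩
  have ba := S.zero_symm E.ab
  have h1 : ∀ x, B (a + e • b) x = B a x + e * B b x := fun x => by simp [he]
  have h2 : B (a + e • b) (a + e • b) = B a a + e * e * B b b := by
    rw [h1]; simp only [map_add, map_smul, E.ab, ba, smul_eq_mul]; ring
  obtain ⟨s, hs, s1, s2⟩ := O.cj.exists_rr S (a := a + e • b)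
    (by rw [map_add, ha, O.cj.rat_smul hb' he]) (h2 ▸ hn) ha E.aa
  simp only [h2, h1, ba, mul_zero, add_zero] at s2
  have sw : s w = w := by simp [s2, S.zero_symm E.ea, S.zero_symm E.eb]
  obtain ⟨μ, -, hμ⟩ := O'.mem_of_fix S w0 hw ww (O.com_mem S hs s1) (l := 1) (by rw [sw, one_smul])
  obtain rfl : μ = 1 := by
    have := hμ w
    rw [sw, hw, sw] at this
    exact smul_left_injective F w0 (this.symm.trans (one_smul F w).symm)
  simp only [one_smul] at hμ
  have aa := E.aa
  have bb := E.bb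
  have k1 := O.cj.skw S ha ha
  have k2 := O.cj.skw S hb' hb'
  set n := B a a + e * e * B b b with hn'
  have k3 : σ n = -n := by rw [hn', map_add, map_mul, map_mul, he, k1, k2]; ring
  have sa : s a = a + (-(2 * e * e * B b b / n)) • a + (2 * e * B a a / n) • b := by
    rw [s2, ba]; match_scalars <;> field_simp <;> first | ring1 | (rw [hn']; ring1)
  have sb : s b = b + (-(2 * e * B b b / n)) • a + (-(2 * e * e * B b b / n)) • b := by
    rw [s2, E.ab]; match_scalars <;> field_simp <;> ring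
  have ta := hμ a
  have tb := hμ b
  rw [sa] at ta
  rw [sb] at tb
  simp only [map_add, map_smulₛₗ, map_neg, map_div₀, map_mul, map_ofNat, he, k1, k2, k3, mul_neg,
    neg_div_neg_eq] at ta tb
  have key : ∀ v, B v a = 0 → B v b = 0 → B v (τ' a) = 0 ∧ B v (τ' b) = 0 := fun v va vb => by
    have e1 := congrArg (B v) ta
    have e2 := congrArg (B v) tb
    simp only [s2, map_add, map_sub, map_smul, va, vb, smul_eq_mul, mul_zero, sub_zero,
      add_zero] at e1 e2
    field_simp at e1 e2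
    have e3 : B v (τ' b) = 0 := mul_left_cancel₀ (mul_ne_zero (mul_ne_zero two e0) hn) (by
      rw [hn']; linear_combination e1 - e * e2)
    rw [e3] at e2
    exact ⟨mul_left_cancel₀ (mul_ne_zero (mul_ne_zero two e0) bb) (by linear_combination -e2), e3⟩
  have xa := E.expand_perp S O.cj.dim (key w E.ea E.eb).1 (key _ E.fa E.fb).1
  have xb := E.expand_perp S O.cj.dim (key w E.ea E.eb).2 (key _ E.fa E.fb).2
  generalize B a (τ' a) / B a a = x₁ at xa
  generalize B b (τ' a) / B b b = x₂ at xa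
  generalize B a (τ' b) / B a a = y₁ at xb
  generalize B b (τ' b) / B b b = y₂ at xb
  rw [xa, xb, map_add, map_smul, map_smul, sa, sb] at tb
  have e1 := congrArg (B a) tb
  have e2 := congrArg (B b) tb
  have e3 := O'.cj.tB a a
  have e4 := congrArg (B a) (O'.cj.tt a)
  rw [xa] at e3
  rw [xa, map_add, map_smulₛₗ, map_smulₛₗ, xa, xb] at e4
  simp only [map_add, map_smulₛₗ, LinearMap.add_apply, LinearMap.smul_apply, E.ab, ba, smul_eq_mul,
    RingHom.id_apply, mul_zero, add_zero, zero_add] at e1 e2 e3 e4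
  field_simp at e1 e2
  have f1 : y₂ = x₁ := mul_left_cancel₀ (mul_ne_zero (mul_ne_zero two e0) bb)
    (by linear_combination e1)
  have f2 : y₁ * B a a = -(x₂ * B b b) := mul_left_cancel₀ (mul_ne_zero two e0)
    (by linear_combination -e2)
  have f3 : x₂ = 0 := by
    have : σ x₂ * x₂ = 0 := mul_left_cancel₀ (mul_ne_zero two bb)
      (by linear_combination e3 - e4 + σ x₂ * f2)
    simpa using this
  have f4 : y₁ = 0 := by simpa [f3, aa] using f2
  exact ⟨a, b, x₁, ha, hb', E, by simpa [f3] using xa, by simpa [f4, f1] using xb⟩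

theorem scalar' {w a b : V} {μ : F} (ha : τ a = a) (hb : τ b = b) (E : HB B w (τ w) a b)
    (h1 : τ' a = μ • a) (h2 : τ' b = μ • b) {x : V} (h3 : B w x = 0) (h4 : B (τ w) x = 0) :
    τ' x = μ • τ x := by
  rw [E.expand_perp S O.cj.dim h3 h4]
  simp only [map_add, map_smulₛₗ, h1, h2, ha, hb]
  module

variable (hno : ∀ e, e ≠ 0 → B e e = 0 → τ e = e → ∀ c : F, τ' e ≠ c • e)
include hno

theorem type_a {w : V} (hw : τ' w = w) (ww : B w w = 0) : B (τ w) w = 0 := by
  by_contra hb
  have two := O.cj.two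
  obtain ⟨a, b, μ, ha, hb', E, ta, tb⟩ := O.scalar S O' hw ww (S.ne_symm hb)
  have a0 : a ≠ 0 := by rintro rfl; exact E.aa (by simp)
  obtain ⟨ν, ν0, hν⟩ := O'.cj.h90 S a0 ta
  have μ0 : μ ≠ 0 := by rintro rfl; exact ν0 (by simpa using hν.symm)
  have ν0' : σ ν ≠ 0 := (map_ne_zero σ).2 ν0
  have ra : τ' (ν • a) = ν • a := by rw [map_smulₛₗ, ta, smul_smul, hν]
  have rb : τ' (ν • b) = ν • b := by rw [map_smulₛₗ, tb, smul_smul, hν]
  have ba := S.zero_symm E.ab
  obtain ⟨f, hf, ff, wf, h1⟩ := O'.cj.exists_partner S hw ww [ν • a, ν • b] (by simp [ra, rb])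
    (by simp [S.zero_symm E.ea, S.zero_symm E.eb]) E.ef
    (by simp [S.zero_symm E.fa, S.zero_symm E.fb])
  have af : B a f = 0 := by simpa [ν0] using h1 (ν • a) (by simp)
  have bf : B b f = 0 := by simpa [ν0] using h1 (ν • b) (by simp)
  have fM : ∀ m, B w m = 0 → B (τ w) m = 0 → B f m = 0 := fun m h1 h2 => by
    rw [E.expand_perp S O.cj.dim h1 h2]; simp [S.zero_symm af, S.zero_symm bf]
  have key : ∀ t : F, σ t = t → t ≠ 0 → B (τ w) w + t * (2 * B (τ w) f - 2 * σ μ⁻¹ * B w f) +
      t ^ 2 * B (τ f) f = 0 := by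
    intro t ht t0
    obtain ⟨r, s, hr, hs, h2⟩ := O.cj.sq (B (ν • a) (ν • a)) (B (ν • b) (ν • b)) (2 * t * B w f)
      (S.norm_skew _) (S.norm_skew _) (by
        rw [map_mul, map_mul, map_ofNat, ht, O'.cj.skw S hw hf]; ring)
      (by simp [ν0, E.aa]) (by simp [ν0, E.bb])
    have rx : τ' (r • ν • a + s • ν • b) = r • ν • a + s • ν • b := by
      rw [map_add, O'.cj.rat_smul ra hr, O'.cj.rat_smul rb hs]
    have wx : B w (r • ν • a + s • ν • b) = 0 := by simp [E.ea, E.eb]
    have wx' : B (τ w) (r • ν • a + s • ν • b) = 0 := by simp [E.fa, E.fb]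
    have xx : B (r • ν • a + s • ν • b) (r • ν • a + s • ν • b) = -(2 * t * B w f) := by
      simp only [map_add, map_smulₛₗ, LinearMap.add_apply, LinearMap.smul_apply, E.ab, ba, hr, hs,
        smul_eq_mul, RingHom.id_apply] at h2 ⊢
      linear_combination h2
    obtain ⟨y, y0, xy, wy, wy', ry⟩ : ∃ y, y ≠ 0 ∧ B (r • ν • a + s • ν • b) y = 0 ∧ B w y = 0 ∧
        B (τ w) y = 0 ∧ τ y = -y := by
      refine ⟨(s * B b b) • a - (r * B a a) • b, fun h => ?_, ?_, by simp [E.ea, E.eb],
        by simp [E.fa, E.fb], ?_⟩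
      · have e1 := congrArg (B a) h
        have e2 := congrArg (B b) h
        simp [E.ab, ba, E.aa, E.bb] at e1 e2
        simp [e1, e2, two, t0, wf] at xx
      · simp only [map_add, map_sub, map_smulₛₗ, LinearMap.add_apply, LinearMap.smul_apply, E.ab,
          ba, hr, hs, smul_eq_mul, RingHom.id_apply]
        ring
      · rw [map_sub, map_smulₛₗ, map_smulₛₗ, ha, hb', map_mul, map_mul, hr, hs, S.norm_skew,
          S.norm_skew]
        module
    generalize r • ν • a + s • ν • b = x at rx wx wx' xx xy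
    have tx : τ x = μ⁻¹ • x := by
      rw [eq_inv_smul_iff₀ μ0, ← O.scalar' S O' ha hb' E ta tb wx wx', rx]
    have fx := fM x wx wx'
    have rz : τ' (w + t • f + x) = w + t • f + x := by
      rw [map_add, map_add, hw, O'.cj.rat_smul hf ht, rx]
    have zz : B (w + t • f + x) (w + t • f + x) = 0 := by
      simp only [map_add, map_smulₛₗ, LinearMap.add_apply, LinearMap.smul_apply, ww, ff, wx, fx,
        S.zero_symm wx, S.zero_symm fx, xx, ht, O'.cj.sym hw hf, smul_eq_mul, RingHom.id_apply]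
      ring
    have h3 : B (τ (w + t • f + x)) (w + t • f + x) = 0 := by
      by_contra hz
      obtain ⟨a', b', μ', ha', hb'', E', ta', tb'⟩ := O.scalar S O' rz zz (S.ne_symm hz)
      have zy : B (w + t • f + x) y = 0 := by simp [wy, xy, fM y wy wy']
      have e1 := O.scalar' S O' ha' hb'' E' ta' tb' zy (by
        rw [O.cj.adj', ry, map_neg, LinearMap.neg_apply, S.zero_symm zy, neg_zero])
      rw [O.scalar' S O' ha hb' E ta tb wy wy', ry] at e1
      obtain rfl : μ = μ' := smul_left_injective F (neg_ne_zero.2 y0) e1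
      have hM : ∀ m, τ m = m → τ' m = μ • m → B w m = 0 ∧ B (τ w) m = 0 := fun m hm tm => by
        by_contra hc
        have c1 : σ (B a m / B a a) = B a m / B a a := by
          rw [map_div₀, O.cj.skw S ha hm, S.norm_skew, neg_div_neg_eq]
        have c2 : σ (B b m / B b b) = B b m / B b b := by
          rw [map_div₀, O.cj.skw S hb' hm, S.norm_skew, neg_div_neg_eq]
        have l1 : τ (m - (B a m / B a a) • a - (B b m / B b b) • b) =
            m - (B a m / B a a) • a - (B b m / B b b) • b := by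
          rw [map_sub, map_sub, hm, O.cj.rat_smul ha c1, O.cj.rat_smul hb' c2]
        have l2 : τ' (m - (B a m / B a a) • a - (B b m / B b b) • b) =
            μ • (m - (B a m / B a a) • a - (B b m / B b b) • b) := by
          rw [map_sub, map_sub, tm, map_smulₛₗ, map_smulₛₗ, ta, tb, c1, c2]; module
        obtain ⟨p, q, hp, hq, h4, h5⟩ := O.cj.exists_iso_three S ha hb' l1 E.aa E.bb (fun h => hc (by
            rw [sub_sub, sub_eq_zero] at h
            rw [h]; simp [E.ea, E.eb, E.fa, E.fb])) E.ab (by simp [E.ab, E.aa]) (by simp [ba, E.bb])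
        refine hno _ h4 h5 (by rw [map_add, map_add, l1, O.cj.rat_smul ha hp, O.cj.rat_smul hb' hq])
          μ ?_
        rw [map_add, map_add, l2, map_smulₛₗ, map_smulₛₗ, ta, tb, hp, hq]; module
      obtain ⟨m1, m2⟩ := hM a' ha' ta'
      obtain ⟨m3, m4⟩ := hM b' hb'' tb'
      have E2 : HB B w (τ w) a' b' := ⟨E.ee, E.ff, E.ef, m1, m3, m2, m4, E'.ab, E'.aa, E'.bb⟩
      have := E2.eq_zero S O.cj.dim wx wx' (S.zero_symm (by simpa [m1, fM a' m1 m2] using E'.ea))
        (S.zero_symm (by simpa [m3, fM b' m3 m4] using E'.eb))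
      simp [this, two, t0, wf] at xx
    simp only [map_add, map_smulₛₗ, LinearMap.add_apply, LinearMap.smul_apply, tx, wx', xx,
      O.cj.adj' f w, O.cj.adj' f x, S.zero_symm wx, S.zero_symm fx, ht, smul_eq_mul,
      RingHom.id_apply] at h3
    linear_combination h3
  obtain ⟨e, he, e0, e1⟩ := O.cj.five
  have k1 := key 1 (map_one σ) one_ne_zero
  have k2 := key (-1) (by simp) (by simp)
  have k3 := key e he e0
  exact mul_ne_zero two (mul_ne_zero (sub_ne_zero.2 e1) hb) (by
    linear_combination (e * e + e) * k1 + (e * e - e) * k2 - 2 * k3)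

omit hno in
theorem common : ∃ e, e ≠ 0 ∧ B e e = 0 ∧ τ e = e ∧ ∃ c : F, τ' e = c • e := by
  by_contra hno
  push Not at hno
  have two := O.cj.two
  obtain ⟨e, e0, he, ee, -⟩ := O'.cj.exists_iso_perp S [] (by simp) (by simp)
  obtain ⟨f, hf, ff, ef⟩ := O'.cj.exists_partner' S e0 he ee
  obtain ⟨a, b, ha, hb, E⟩ := O'.cj.exists_HB_rat S he hf ee ff ef
  have h1 := O.type_a S O' hno he ee
  have h2 := O.type_a S O' hno hf ff
  have key : ∀ x, τ' x = x → B e x = 0 → B f x = 0 → B x (τ e) = 0 := fun x hx ex fx => by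
    have k : ∀ r : F, σ r = r → -(r * r * B x x / B e f) * B (τ e) f + 2 * r * B (τ e) x -
        r * r * r * B x x / B e f * B (τ f) x + r * r * B (τ x) x = 0 := fun r hr => by
      have ht : σ (-(r * r * B x x / (2 * B e f))) = -(r * r * B x x / (2 * B e f)) := by
        rw [map_neg, map_div₀, map_mul, map_mul, map_mul, hr, map_ofNat, S.norm_skew,
          O'.cj.skw S he hf]
        field_simp
      have := O.type_a S O' hno (w := e + (-(r * r * B x x / (2 * B e f))) • f + r • x)
        (by rw [map_add, map_add, he, O'.cj.rat_smul hf ht, O'.cj.rat_smul hx hr]) (by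
          simp only [map_add, map_smulₛₗ, LinearMap.add_apply, LinearMap.smul_apply, ee, ff, ex, fx,
            S.zero_symm ex, S.zero_symm fx, ht, hr, O'.cj.sym he hf, smul_eq_mul, RingHom.id_apply]
          field_simp
          ring)
      simp only [map_add, map_smulₛₗ, LinearMap.add_apply, LinearMap.smul_apply, h1, h2, ht, hr,
        O.cj.adj' f e, O.cj.adj' x e, O.cj.adj' x f, smul_eq_mul, RingHom.id_apply] at this
      rw [← this]
      field_simp
      ring
    obtain ⟨r, hr, r0, r1⟩ := O.cj.five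
    have k1 := k 1 (map_one σ)
    have k2 := k (-1) (by simp)
    have k3 := k r hr
    have k4 := k (-r) (by simp [hr])
    refine S.zero_symm (mul_left_cancel₀
      (mul_ne_zero (mul_ne_zero two two) (mul_ne_zero r0 (sub_ne_zero.2 r1))) ?_)
    linear_combination r ^ 3 * (k1 - k2) - (k3 - k4)
  have h3 := E.expand S O.cj.dim (τ e)
  rw [S.zero_symm h1, key a ha E.ea E.fa, key b hb E.eb E.fb] at h3
  simp only [zero_div, zero_smul, add_zero] at h3
  obtain ⟨ν, ν0, hν⟩ := O.cj.h90 S e0 h3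
  refine hno (ν • e) (smul_ne_zero ν0 e0) (by simp [ee]) (by rw [map_smulₛₗ, h3, smul_smul, hν])
    (σ ν / ν) ?_
  rw [map_smulₛₗ, he, smul_smul, div_mul_cancel₀ _ ν0]

end OH

end Cfsg.Agent.K4
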