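import Cfsg.Agent.K4.OA
import Cfsg.Agent.K4.OTwo

/-! Orthogonal subfield subgroups of `SU₄(q)`: maximality. -/

set_option autoImplicit false
set_option linter.unusedSectionVars false
set_option linter.unusedSimpArgs false
set_option linter.unusedVariables false

namespace Cfsg.Agent.K4

open Module Cfsg.Agent.H27

variable {F V : Type*} [Field F] [AddCommGroup V] [Module F V] {σ : F →+* F} {q : ℕ}
variable [FiniteDimensional F V] [Fintype F] {B : V →ₛₗ[σ] V →ₗ[F] F} {τ : V →ₛₗ[σ] V}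

/-- The conjugate of a conjugation. -/
def cjg (τ : V →ₛₗ[σ] V) (g : V ≃ₗ[F] V) : V →ₛₗ[σ] V :=
  ((g : V →ₗ[F] V).comp τ).comp ((g⁻¹ : V ≃ₗ[F] V) : V →ₗ[F] V)

theorem cjg_apply (g : V ≃ₗ[F] V) (x : V) : cjg τ g x = g (τ (g⁻¹ x)) := rfl

theorem OH.conj {H : Subgroup (V ≃ₗ[F] V)} (O : OH B τ H) {g : V ≃ₗ[F] V} (hg : g ∈ H) :
    OH B (cjg τ g) H := by
  have hi := (O.gg hg).1
  have hi' := (O.gg (H.inv_mem hg)).1
  refine ⟨⟨fun x => ?_, fun x y => ?_, O.cj.two, O.cj.dim, O.cj.five, O.cj.sq⟩, ?_, O.gg,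
    fun u u0 hu h => ?_⟩
  · rw [cjg_apply, cjg_apply, le_inv_apply, O.cj.tt, le_apply_inv]
  · rw [cjg_apply, cjg_apply, hi, O.cj.tB, hi']
  · rintro h ⟨⟨μ, μ0, hμ⟩, hh⟩
    have h1 : g⁻¹ * h * g ∈ H := by
      refine O.le ⟨⟨μ, μ0, fun x => ?_⟩, (GG B).mul_mem ((GG B).mul_mem
        ((GG B).inv_mem (O.gg hg)) hh) (O.gg hg)⟩
      have := congrArg (g⁻¹ : V ≃ₗ[F] V) (hμ (g x))
      rwa [cjg_apply, cjg_apply, le_inv_apply, le_inv_apply, map_smul] at this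
    rwa [H.mul_mem_cancel_right hg, H.mul_mem_cancel_left (H.inv_mem hg)] at h1
  · refine O.no (g⁻¹ u) ((g⁻¹ : V ≃ₗ[F] V).map_ne_zero_iff.2 u0) ?_ (h.conj (H.inv_mem hg) hi')
    have := congrArg (g⁻¹ : V ≃ₗ[F] V) hu
    rwa [cjg_apply, le_inv_apply] at this

theorem OH.mem (S : UH B) {H : Subgroup (V ≃ₗ[F] V)} (O : OH B τ H) {g : V ≃ₗ[F] V}
    (hg : g ∈ H) : g ∈ KT τ := by
  have O' := O.conj hg
  obtain ⟨e, e0, ee, he, c, hc⟩ := O.common S O'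
  obtain ⟨ν, ν0, hν⟩ := O'.cj.h90 S e0 hc
  have h1 : cjg τ g (ν • e) = ν • e := by rw [map_smulₛₗ, hc, smul_smul, hν]
  refine O.mem_of_map S (u := g⁻¹ (ν • e))
    ((g⁻¹ : V ≃ₗ[F] V).map_ne_zero_iff.2 (smul_ne_zero ν0 e0)) ?_ ?_ hg he (le_apply_inv _ _)
  · have := congrArg (g⁻¹ : V ≃ₗ[F] V) h1
    rwa [cjg_apply, le_inv_apply] at this
  · rw [(O.gg (H.inv_mem hg)).1]; simp [ee]

theorem CJ.isMaximalIn (S : UH B) (Q : H98.QF σ q) (C : CJ B τ) :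
    Cfsg.Geo.IsMaximalIn (GG B) (KT τ ⊓ GG B) := by
  refine isMaximalIn_of inf_le_right ?_ fun M hM hMG g hg hg' => ?_
  · obtain ⟨u, u0, hu, uu, -⟩ := C.exists_iso_perp S [] (by simp) (by simp)
    obtain ⟨f, hf, -, uf⟩ := C.exists_partner' S u0 hu uu
    obtain ⟨T, hT, hTf⟩ := S.exists_tvS uu (map_one σ)
    refine ⟨T, hT, fun ⟨⟨μ, _, hμ⟩, _⟩ => ?_⟩
    have h1 := hμ u
    have h2 := hμ f
    simp only [hTf, hu, uu, one_smul, zero_smul, add_zero] at h1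
    obtain rfl : μ = 1 := smul_left_injective F u0 (h1.symm.trans (one_smul F u).symm)
    rw [hf, hTf, map_add, map_smulₛₗ, hf, hu, one_smul, one_smul, C.skw S hu hf] at h2
    have h3 := smul_left_injective F u0 (add_left_cancel h2)
    exact mul_ne_zero C.two uf (by linear_combination -h3)
  · by_cases h : ∃ u, u ≠ 0 ∧ τ u = u ∧ AS B M u
    · obtain ⟨u, u0, hu, h⟩ := h
      exact C.GG_le_of_as S Q hM u0 hu h
    · exact absurd ⟨OH.mem S ⟨C, hM, hMG, fun u u0 hu h' => h ⟨u, u0, hu, h'⟩⟩ hg, hMG hg⟩ hg'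

end Cfsg.Agent.K4
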