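import Cfsg.Agent.K4.OBasic

/-! Orthogonal subfield subgroups of `SU₄(q)`: stabilisers of rational isotropic points. -/

set_option autoImplicit false
set_option linter.unusedSectionVars false
set_option linter.unusedSimpArgs false
set_option linter.unusedVariables false

namespace Cfsg.Agent.K4

open Module Cfsg.Agent.H27

variable {F V : Type*} [Field F] [AddCommGroup V] [Module F V] {σ : F →+* F}
variable [FiniteDimensional F V] [Finite F] {B : V →ₛₗ[σ] V →ₗ[F] F} {τ : V →ₛₗ[σ] V}
  {H : Subgroup (V ≃ₗ[F] V)}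

/-- An overgroup without a full transvection group at a rational point. -/
structure OH (B : V →ₛₗ[σ] V →ₗ[F] F) (τ : V →ₛₗ[σ] V) (H : Subgroup (V ≃ₗ[F] V)) : Prop where
  cj : CJ B τ
  le : KT τ ⊓ GG B ≤ H
  gg : H ≤ GG B
  no : ∀ u, u ≠ 0 → τ u = u → ¬ AS B H u

theorem exists_skew_ne (S : UH B) : ∃ ζ : F, ζ ≠ 0 ∧ σ ζ = -ζ := by
  obtain ⟨θ, hθ⟩ := S.exists_ne
  exact ⟨θ - σ θ, sub_ne_zero.2 hθ.symm, by rw [map_sub, S.inv]; ring⟩

theorem mem_span_of_perp (S : UH B) {u w : V} (h : ∀ x, B u x = 0 → B w x = 0) :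
    ∃ c : F, w = c • u := by
  by_contra hc
  obtain ⟨x, h1, h2⟩ := (H77.rf_of_skH S.toSkH).exists_perp (l := [u]) (a := w)
    (by rwa [H77.mem_sp_one]) 1
  rw [h x (h1 u (by simp))] at h2
  exact zero_ne_one h2

/-- The vectors on which `g` commutes with the conjugation up to a given factor. -/
def comZ (hinv : ∀ a, σ (σ a) = a) (τ : V →ₛₗ[σ] V) (g : V ≃ₗ[F] V) (l m : F) : Submodule F V where
  carrier := {x | l • τ (g (τ x)) = m • g x}
  zero_mem' := by simp
  add_mem' {x y} hx hy := by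
    simp only [Set.mem_ofPred_eq, map_add, smul_add] at hx hy ⊢
    rw [hx, hy]
  smul_mem' c x hx := by
    simp only [Set.mem_ofPred_eq, map_smulₛₗ, hinv, RingHom.id_apply] at hx ⊢
    rw [smul_comm, hx, smul_comm]

namespace OH

variable (S : UH B) (O : OH B τ H) {u : V} (u0 : u ≠ 0) (hu : τ u = u) (uu : B u u = 0)
include S O

theorem com_mem {s : V ≃ₗ[F] V} (hs : s ∈ GG B) (h : ∀ x, τ (s x) = s (τ x)) : s ∈ H :=
  O.le ⟨mem_KT_of_com h, hs⟩

include u0 hu uu

theorem t1_zero {c : F} (h : T1 H u (c • B u)) : c = 0 := by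
  by_contra c0
  have hc : σ c = c := by
    obtain ⟨g, hg, hgf⟩ := h.exists
    obtain ⟨x, -, hx⟩ := O.cj.exists_rat_ne S u0
    have := (O.gg hg).1 x x
    simp only [hgf, map_add, map_smulₛₗ, LinearMap.add_apply, LinearMap.smul_apply, uu,
      S.skew u x, smul_eq_mul, RingHom.id_apply, map_mul] at this
    exact mul_right_cancel₀ (mul_ne_zero ((map_ne_zero σ).2 hx) hx) (by linear_combination this)
  have h1 : ∀ e : F, σ e = e → T1 H u ((e * e * c) • B u) := fun e he => by
    rcases eq_or_ne e 0 with rfl | e0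
    · simpa using t1_zero_right u
    obtain ⟨s, hs, h2, h3⟩ := O.cj.trans S u0 hu uu (smul_ne_zero e0 u0) (O.cj.rat_smul hu he)
      (by simp [uu])
    have := H77.t1_map (O.com_mem S hs h2) hs.1 h
    rw [h3, t1_smul, map_smulₛₗ, he, smul_smul, smul_smul] at this
    convert this using 2
    ring
  refine O.no u u0 hu ⟨uu, fun d hd => ?_⟩
  have two := O.cj.two
  have := (h1 ((d / c + 1) / 2) (by simp [hd, hc, map_ofNat])).sub_right
    (h1 ((d / c - 1) / 2) (by simp [hd, hc, map_ofNat])) (by simp [uu]) (by simp [uu])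
  convert this using 1
  ext x
  simp only [LinearMap.sub_apply, LinearMap.smul_apply, smul_eq_mul]
  field_simp
  ring

omit u0 in
theorem es_anti {x : V} (hx : τ x = -x) (ux : B u x = 0) : ES B H u x (B x x / 2) := by
  have two := O.cj.two
  have h1 : σ (B x x / 2) = -(B x x / 2) := by rw [map_div₀, S.norm_skew, map_ofNat, neg_div]
  obtain ⟨g, hg, hgf⟩ := S.exists_E uu ux (t := B x x / 2) (by rw [h1]; field_simp; ring)
  refine ⟨g, O.com_mem S hg fun z => ?_, hgf⟩
  rw [hgf, hgf, map_add, map_add, map_smulₛₗ, map_smulₛₗ, hx, hu, O.cj.tau_right S hu,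
    O.cj.adj x, hx, map_neg, S.skew x z, map_add, map_mul, h1]
  module

theorem anti_of_es {y : V} {t : F} (ht : σ t = -t) (uy : B u y = 0) (h : ES B H u y t) :
    τ y = -y := by
  have two := O.cj.two
  obtain ⟨ζ, ζ0, hζ⟩ := exists_skew_ne S
  have h1 : ∀ x, τ x = -x → B u x = 0 → B (y + τ y) x = 0 := fun x hx ux => by
    have e := O.es_anti S hu uu hx ux
    have e1 := S.es_comp uu ux uy e h
    rw [add_comm x] at e1
    have := O.t1_zero S u0 hu uu (S.t1_of_es uu (by simp [ux, uy]) e1 (S.es_comp uu uy ux h e))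
    refine S.zero_symm ?_
    rw [map_add, O.cj.adj, hx, map_neg]
    linear_combination this
  obtain ⟨γ, hγ⟩ := mem_span_of_perp S (u := u) (w := y + τ y) fun x ux =>
    O.cj.mem_of_tr S (Z := LinearMap.ker (B (y + τ y))) fun c => by
      have := h1 (ζ • (c • x + τ (c • x))) (by rw [map_smulₛₗ, O.cj.rat_tr, hζ, neg_smul])
        (by simp [ux, O.cj.tau_right S hu])
      rw [map_smul, smul_eq_zero] at this
      exact this.resolve_left ζ0
  have h2 : σ γ = γ := by
    have := O.cj.rat_tr y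
    rw [hγ, map_smulₛₗ, hu] at this
    exact smul_left_injective F u0 this
  have h3 : τ (y - (γ / 2) • u) = -(y - (γ / 2) • u) := by
    rw [map_sub, O.cj.rat_smul hu (by simp [h2, map_ofNat]), eq_sub_of_add_eq' hγ]
    match_scalars <;> (field_simp; try ring)
  have h4 : B u (y - (γ / 2) • u) = 0 := by simp [uy, uu]
  have h5 : ES B H u (y - (γ / 2) • u) (t + γ) := Has.congr h fun z => by
    simp only [map_sub, map_smulₛₗ, LinearMap.sub_apply, LinearMap.smul_apply, map_div₀, h2,
      map_ofNat, smul_eq_mul]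
    match_scalars <;> (field_simp; try ring)
  have h6 := O.t1_zero S u0 hu uu (S.t1_of_es uu h4 h5 (O.es_anti S hu uu h3 h4))
  have h7 := congrArg σ h6
  rw [map_sub, map_add, map_div₀, S.norm_skew, map_ofNat, ht, h2, map_zero] at h7
  have h8 : γ = 0 := mul_left_cancel₀ two (by linear_combination h6 + h7)
  rw [h8, zero_smul] at hγ
  exact eq_neg_of_add_eq_zero_right hγ

theorem mem_of_fix {h : V ≃ₗ[F] V} (hh : h ∈ H) {l : F} (hl : h u = l • u) : h ∈ KT τ := by
  have two := O.cj.two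
  have hi := (O.gg hh).1
  have l0 : l ≠ 0 := by rintro rfl; exact u0 (h.map_eq_zero_iff.1 (by simpa using hl))
  have l0' : σ l ≠ 0 := (map_ne_zero σ).2 l0
  have hux : ∀ x, σ l * B u (h x) = B u x := fun x => by
    rw [← hi u x, hl, map_smulₛₗ]; rfl
  obtain ⟨ζ, ζ0, hζ⟩ := exists_skew_ne S
  have h1 : ∀ x, B u x = 0 → x ∈ comZ S.inv τ h l (σ l) := fun x ux =>
    O.cj.mem_of_tr S fun c => by
      have a1 : τ (ζ • (c • x + τ (c • x))) = -(ζ • (c • x + τ (c • x))) := by
        rw [map_smulₛₗ, O.cj.rat_tr, hζ, neg_smul]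
      have a2 : B u (ζ • (c • x + τ (c • x))) = 0 := by simp [ux, O.cj.tau_right S hu]
      rw [← Submodule.smul_mem_iff _ ζ0]
      generalize ζ • (c • x + τ (c • x)) = z at a1 a2
      have e := (O.es_anti S hu uu a1 a2).conj hh hi
      have e2 : ES B H u (σ l • h z) (B z z / 2 * (σ l * l)) := Has.congr e fun w => by
        simp only [hl, map_smulₛₗ, LinearMap.smul_apply, S.inv, smul_eq_mul]
        module
      have := O.anti_of_es S u0 hu uu (by
        rw [map_mul, map_mul, map_div₀, S.norm_skew, S.inv, map_ofNat]; ring)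
        (by rw [map_smul, smul_eq_mul, hux, a2]) e2
      rw [map_smulₛₗ, S.inv] at this
      show l • τ (h (τ z)) = σ l • h z
      rw [a1, map_neg, map_neg, smul_neg, this, neg_neg]
  obtain ⟨f, hf, -, uf⟩ := O.cj.exists_partner' S u0 hu uu
  obtain ⟨s, hs⟩ := mem_span_of_perp S (u := u) (w := l • τ (h f) - σ l • h f) fun x ux => by
    obtain ⟨x, rfl⟩ := h.surjective x
    have a1 : B u x = 0 := by rw [← hux, ux, mul_zero]
    have a2 : l • τ (h (τ (τ x))) = σ l • h (τ x) :=
      h1 _ (by rw [O.cj.tau_right S hu, a1, map_zero, neg_zero])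
    refine S.zero_symm ?_
    rw [O.cj.tt] at a2
    rw [map_sub, map_smul, O.cj.adj, ← map_smul, a2, map_smul, map_smul, hi, hi, O.cj.adj, hf,
      sub_self]
  have h2 : σ s = -s := by
    have := congrArg τ hs
    rw [map_sub, map_smulₛₗ, map_smulₛₗ, map_smulₛₗ, O.cj.tt, S.inv, hu, ← neg_sub, hs,
      ← neg_smul] at this
    exact (smul_left_injective F u0 this).symm
  have h3 : σ (s / (2 * B u f)) = s / (2 * B u f) := by
    rw [map_div₀, map_mul, map_ofNat, h2, O.cj.skw S hu hf]; field_simp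
  obtain ⟨T, hT, hTf⟩ := S.exists_tvS uu h3
  have hTu : ∀ x, B u x = 0 → (T * h) x = h x := fun x ux => by
    have : B u (h x) = 0 := (mul_eq_zero.1 ((hux x).trans ux)).resolve_left l0'
    simp [le_mul_apply, hTf, this]
  have h4 : T * h ∈ KT τ := by
    refine ⟨σ l / l, div_ne_zero l0' l0, fun x => ?_⟩
    have a1 : ∀ x, B u x = 0 → x ∈ comZ S.inv τ (T * h) l (σ l) := fun x ux => by
      show l • τ ((T * h) (τ x)) = σ l • (T * h) x
      rw [hTu x ux, hTu _ (by rw [O.cj.tau_right S hu, ux, map_zero, neg_zero])]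
      exact h1 x ux
    have a2 : f ∈ comZ S.inv τ (T * h) l (σ l) := by
      show l • τ ((T * h) (τ f)) = σ l • (T * h) f
      have b1 : B u (h f) = B u f / σ l := by rw [← hux f]; field_simp
      rw [hf, le_mul_apply, hTf, map_add, map_smulₛₗ, hu, smul_add, eq_add_of_sub_eq' hs,
        LinearMap.smul_apply, smul_eq_mul, map_mul, h3, b1, map_div₀, S.inv, O.cj.skw S hu hf]
      match_scalars <;> (field_simp; try ring)
    have a3 : l • τ ((T * h) (τ (τ x))) = σ l • (T * h) (τ x) := by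
      have := Submodule.add_mem _ (a1 (τ x - (B u (τ x) / B u f) • f) (by simp [uf]))
        (Submodule.smul_mem _ (B u (τ x) / B u f) a2)
      rwa [sub_add_cancel] at this
    rw [O.cj.tt] at a3
    rw [div_eq_inv_mul, mul_smul, ← a3, smul_smul, inv_mul_cancel₀ l0, one_smul]
  have h5 := O.le ⟨h4, (GG B).mul_mem hT (O.gg hh)⟩
  rw [H.mul_mem_cancel_right hh] at h5
  have h6 := O.t1_zero S u0 hu uu ⟨T, h5, hTf⟩
  have h7 : T = 1 := LinearEquiv.ext fun x => by rw [hTf, h6]; simp [le_one_apply]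
  rwa [h7, one_mul] at h4

theorem mem_of_map {g : V ≃ₗ[F] V} (hg : g ∈ H) {v : V} (hv : τ v = v) {c : F}
    (h : g u = c • v) : g ∈ KT τ := by
  have h1 : c • v ≠ 0 := h ▸ g.map_ne_zero_iff.2 u0
  have c0 : c ≠ 0 := left_ne_zero_of_smul h1
  have vv : B v v = 0 := by
    have := (O.gg hg).1 u u
    simpa [h, uu, c0] using this
  obtain ⟨s, hs, h2, h3⟩ := O.cj.trans S (right_ne_zero_of_smul h1) hv vv u0 hu uu
  have := O.mem_of_fix S u0 hu uu (H.mul_mem (O.com_mem S hs h2) hg) (l := c)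
    (by rw [le_mul_apply, h, map_smul, h3])
  rwa [(KT τ).mul_mem_cancel_left (mem_KT_of_com h2)] at this

end OH

end Cfsg.Agent.K4
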