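import Cfsg.Agent.H77.Mono6
import Cfsg.Agent.K4.FrS

/-! The monomial group is maximal in `SL₄(q)` for `q ≥ 7`. -/

set_option autoImplicit false
set_option linter.unusedSectionVars false

namespace Cfsg.Agent.K4

open Module Cfsg.Geo Cfsg.Agent.H27

section Core

variable {F V : Type*} [Field F] [AddCommGroup V] [Module F V] [FiniteDimensional F V]

section Gen

variable {ι : Type*} [Fintype ι] [DecidableEq ι]
variable {H : Subgroup (V ≃ₗ[F] V)} {b : Basis ι F V}

theorem slfr_fix [Fintype F] (hq : 5 ≤ Fintype.card F) (h4 : 4 ≤ Fintype.card ι)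
    (hH : dstab (frame b) ⊓ SLV F V ≤ H) (hS : H ≤ SLV F V) {h : V ≃ₗ[F] V} (hh : h ∈ H)
    (hh' : h ∉ dstab (frame b)) {i₀ : ι} (h0 : h (b i₀) ∈ frame b i₀) : SLV F V ≤ H := by
  obtain ⟨a, ha0, ha2, -⟩ := H77.exists_good_scalar hq
  have ha1 : a ≠ 1 := by rintro rfl; simp at ha2
  set p := dropCoord b i₀ with hpdef
  have hp : Function.Surjective p := dropCoord_surjective b i₀
  set b' := Pi.basisFun F {i // i ≠ i₀} with hb'
  have hc : ∀ (i : {i // i ≠ i₀}) x, b'.coord i (p x) = b.coord i x := fun i x => by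
    simp [b', p, dropCoord_apply]
  have hb : ∀ i : {i // i ≠ i₀}, p (b i) = b' i := dropCoord_basis b i₀
  have hp0 : p (b i₀) = 0 := by rw [← LinearMap.mem_ker, ker_dropCoord]; exact self_mem_frame b _
  have hker : ∀ x y, p x = p y → x = y + b.coord i₀ (x - y) • b i₀ := fun x y hxy => by
    have : x - y ∈ frame b i₀ := by
      rw [← ker_dropCoord, LinearMap.mem_ker, map_sub]; exact sub_eq_zero.2 hxy
    have := (basisDec b).self this
    rw [basisDec_π] at this
    rw [this]; abel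
  have hst : ∀ g : V ≃ₗ[F] V, g (b i₀) ∈ frame b i₀ → g ∈ stab (LinearMap.ker p) := fun g hg => by
    rw [ker_dropCoord]
    refine mem_stab_of_mapsTo fun x hx => ?_
    obtain ⟨c, rfl⟩ := mem_frame.1 hx
    rw [map_smul]; exact Submodule.smul_mem _ _ hg
  obtain ⟨y, hy⟩ := exists_quot p hp (hst h h0)
  obtain ⟨μ, hμ⟩ := mem_frame.1 h0
  have hμ0 : μ ≠ 0 := fun h1 => b.ne_zero i₀ (by rw [← h.map_eq_zero_iff, ← hμ, h1, zero_smul])
  by_cases hy' : y ∈ dstab (frame b')
  · obtain ⟨σ, hσ⟩ := exists_of_mem_dstab_frame hy'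
    let ψ : Dual F V := μ⁻¹ • (μ • b.coord i₀ - b.coord i₀ ∘ₗ (h : V →ₗ[F] V))
    have hψ : ∀ x, ψ x = μ⁻¹ * (μ * b.coord i₀ x - b.coord i₀ (h x)) := fun x => rfl
    have hψ0 : ψ (b i₀) = 0 := by rw [hψ, ← hμ]; simp
    have hm : ∀ i, i ≠ i₀ → ∃ j, h (b i) + (μ * ψ (b i)) • b i₀ ∈ frame b j := fun i hi => by
      obtain ⟨c, -, hc'⟩ := hσ ⟨i, hi⟩
      rw [← hb, hy, ← hb, ← map_smul] at hc'
      refine ⟨σ ⟨i, hi⟩, mem_frame.2 ⟨c, ?_⟩⟩
      have e := hker _ _ hc'
      rw [map_sub, map_smul, coord_ne b (σ _).2.symm] at e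
      rw [hψ, coord_ne b hi.symm, mul_inv_cancel_left₀ hμ0]
      linear_combination (norm := module) -e
    have hf : h * tv (b i₀) ψ hψ0 ∈ H := hH ⟨mem_dstab_frame fun i => by
      by_cases hi : i = i₀
      · exact ⟨i₀, by rw [hi, le_mul_apply, tv_apply, hψ0, zero_smul, add_zero]; exact h0⟩
      · rw [le_mul_apply, tv_apply, map_add, map_smul, ← hμ, smul_smul, mul_comm]
        exact hm i hi, (SLV F V).mul_mem (hS hh) (tv_mem_SLV _ _ _)⟩
    rw [H.mul_mem_cancel_left hh] at hf
    obtain ⟨k, hk⟩ : ∃ k, ψ (b k) ≠ 0 := by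
      by_contra hc
      push Not at hc
      refine hh' (mem_dstab_frame fun i => ?_)
      by_cases hi : i = i₀
      · exact ⟨i₀, hi ▸ h0⟩
      · simpa [hc] using hm i hi
    exact SLV_le_of_t1 h4 ha0 ha1 hH (t1_of_tv hψ0 hf) hψ0 hk
  have h3 : 3 ≤ Fintype.card {i // i ≠ i₀} := by
    rw [Fintype.card_subtype_compl, Fintype.card_subtype_eq]; omega
  obtain ⟨i, k, c, hik, hc0, ht⟩ := exists_t1_of_mono (H := quotGrp p hp H) hq h3 b'
    (fun i c hc1 => by
      have h1 : 1 + c ≠ 0 := fun h => hc1 (by linear_combination h)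
      obtain ⟨d, hd, hdf⟩ := exists_dg b i.2 h1
      refine has_quot hp (hH hd) (hst d (by
        rw [hdf, coord_ne b i.2, mul_zero, zero_smul, add_zero]
        exact Submodule.add_mem _ (self_mem_frame b _)
          (Submodule.smul_mem _ _ (self_mem_frame b _)))) fun x => ?_
      simp only [hdf, map_add, map_smul, hp0, hb, LinearMap.smul_apply, hc, smul_eq_mul, smul_zero,
        add_zero, add_sub_cancel_left])
    (fun i j c hij hc0 => by
      have hij' : (i : ι) ≠ j := Subtype.coe_injective.ne hij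
      have e1 : 1 + (b.coord i - c⁻¹ • b.coord j) (c • b j - b i) = -1 := by
        simp only [LinearMap.sub_apply, LinearMap.smul_apply, map_sub, map_smul, coord_self,
          coord_ne b hij', coord_ne b hij'.symm, smul_eq_mul]
        field_simp; ring
      have e2 : 1 + (b.coord i - c⁻¹ • b.coord j) (c • b j - b i) ≠ 0 := by rw [e1]; simp
      obtain ⟨g1, s1, d1, f1⟩ := dil_frame b i₀ (a := -1) (by simp)
      have hm : dil _ _ e2 ∈ dstab (frame b) := mem_dstab_frame fun l => by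
        rw [dil_apply]
        by_cases hli : l = i
        · refine ⟨j, mem_frame.2 ⟨c, ?_⟩⟩
          simp [hli, hij'.symm]
        by_cases hlj : l = j
        · refine ⟨i, mem_frame.2 ⟨c⁻¹, ?_⟩⟩
          simp only [hlj, LinearMap.sub_apply, LinearMap.smul_apply, coord_self, coord_ne b hij',
            smul_eq_mul]
          match_scalars <;> field_simp <;> ring
        · exact ⟨l, by simpa [Ne.symm hli, Ne.symm hlj] using self_mem_frame b l⟩
      refine has_quot hp (g := dil _ _ e2 * g1) (hH ⟨(dstab _).mul_mem hm (mem_dstab_of_stab s1),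
        mem_SLV.2 (by rw [det_mul', det_dil, e1, d1]; simp)⟩) (hst _ (by
          rw [le_mul_apply, dil_apply, f1]
          simp only [LinearMap.sub_apply, LinearMap.smul_apply, map_add, map_smul, coord_ne b i.2,
            coord_ne b j.2, smul_zero, add_zero, sub_zero, zero_smul]
          exact Submodule.add_mem _ (self_mem_frame b _)
            (Submodule.smul_mem _ _ (self_mem_frame b _)))) fun x => ?_
      simp only [le_mul_apply, dil_apply, f1, map_add, map_smul, map_sub, hp0, hb,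
        LinearMap.smul_apply, LinearMap.sub_apply, hc, smul_zero, add_zero, coord_ne b i.2,
        coord_ne b j.2, sub_zero, zero_smul])
    (g := y) ⟨h, hh, hy⟩ hy'
  obtain ⟨y1, ⟨g, hg, hgy⟩, hy1⟩ := ht.exists
  have hik' : (i : ι) ≠ k := Subtype.coe_injective.ne hik
  let χ : Dual F V := b.coord i₀ ∘ₗ (g : V →ₗ[F] V) - b.coord i₀
  have hgf : ∀ x, g x = x + (c * b.coord k x) • b i + χ x • b i₀ := fun x => by
    have : p (g x) = p (x + (c * b.coord k x) • b i) := by
      rw [← hgy, hy1, map_add, map_smul, hb, LinearMap.smul_apply, hc, smul_eq_mul]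
    have e := hker _ _ this
    rw [map_sub, map_add, map_smul, coord_ne b i.2.symm, smul_zero, add_zero] at e
    exact e
  have hg0 : g (b i₀) = (1 + χ (b i₀)) • b i₀ := by
    rw [hgf, coord_ne b k.2]; module
  have hν : 1 + χ (b i₀) ≠ 0 := fun h1 =>
    b.ne_zero i₀ (by rw [← g.map_eq_zero_iff, hg0, h1, zero_smul])
  by_cases hχ : ∃ m, m ≠ i₀ ∧ χ (b m) ≠ 0
  · obtain ⟨m, hm, hχm⟩ := hχ
    obtain ⟨l, hl⟩ := exists_not_mem_list [i₀, i, k] (by simp; omega)
    simp only [List.mem_cons, List.not_mem_nil, or_false, not_or] at hl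
    obtain ⟨d, hd, hdf⟩ := exists_dg b (Ne.symm hl.1) ha0
    let ψ : Dual F V := ((1 + χ (b i₀)) * a)⁻¹ • (χ ∘ₗ (d : V →ₗ[F] V) - a • χ)
    have hψ : ∀ x, ψ x = ((1 + χ (b i₀)) * a)⁻¹ * (χ (d x) - a * χ x) := fun x => rfl
    have hd0 : d (b i₀) = a • b i₀ := by rw [hdf, coord_self, coord_ne b hl.1]; module
    have hdi : d (b i) = b i := by rw [hdf, coord_ne b hl.2.1, coord_ne b i.2.symm]; module
    have hdk : ∀ x, b.coord k (d x) = b.coord k x := fun x => by
      simp [hdf, k.2, Ne.symm hl.2.2]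
    refine SLV_le_of_t1 h4 ha0 ha1 hH (r := i₀) (ψ := ψ) (k := m) ⟨(d * g)⁻¹ * (g * d),
      H.mul_mem (H.inv_mem (H.mul_mem (hH hd) hg)) (H.mul_mem hg (hH hd)), fun x => ?_⟩ ?_ ?_
    · apply (d * g).injective
      rw [le_mul_apply _ (g * d), le_apply_inv, le_mul_apply, le_mul_apply, map_add, map_smul, hg0,
        hgf x, hgf (d x), hdk]
      simp only [map_add, map_smul, hd0, hdi, hψ]
      match_scalars <;> field_simp <;> ring
    · rw [hψ, hd0, map_smul, smul_eq_mul, sub_self, mul_zero]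
    · rw [hψ, hdf, coord_ne b hm.symm]
      refine mul_ne_zero (inv_ne_zero (mul_ne_zero hν ha0)) fun h => ?_
      by_cases hlm : l = m
      · rw [hlm, coord_self] at h
        simp only [mul_zero, zero_smul, add_zero, map_add, map_smul, smul_eq_mul, mul_one] at h
        refine mul_ne_zero (sub_ne_zero.2 ha2.symm) hχm ?_
        field_simp at h
        linear_combination h
      · rw [coord_ne b hlm] at h
        simp only [mul_zero, zero_smul, add_zero] at h
        exact mul_ne_zero (sub_ne_zero.2 ha1.symm) hχm (by linear_combination h)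
  · push Not at hχ
    obtain ⟨l, hl⟩ := exists_not_mem_list [i₀, i, k] (by simp; omega)
    simp only [List.mem_cons, List.not_mem_nil, or_false, not_or] at hl
    obtain ⟨d, hd, hdf⟩ := exists_dg b (Ne.symm hl.2.2) ha0
    have hd0 : d (b i₀) = b i₀ := by rw [hdf, coord_ne b k.2, coord_ne b hl.1]; module
    have hdi : d (b i) = b i := by rw [hdf, coord_ne b hl.2.1, coord_ne b hik'.symm]; module
    have hgi : g (b i) = b i := by rw [hgf, coord_ne b hik'.symm, hχ i i.2]; module
    have hdk : ∀ x, b.coord k (d x) = a * b.coord k x := fun x => by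
      simp [hdf, Ne.symm hl.2.2]; ring
    have hχd : ∀ x, χ (d x) = χ x := fun x => by simp only [hdf, map_add, map_smul, hχ k k.2,
      hχ l hl.1, smul_zero, add_zero]
    refine SLV_le_of_t1 h4 ha0 ha1 hH (r := i) (ψ := ((a - 1) * c) • b.coord k) (k := k)
      ⟨(d * g)⁻¹ * (g * d), H.mul_mem (H.inv_mem (H.mul_mem (hH hd) hg)) (H.mul_mem hg (hH hd)),
        fun x => ?_⟩ ?_ ?_
    · apply (d * g).injective
      rw [le_mul_apply _ (g * d), le_apply_inv, le_mul_apply, le_mul_apply, map_add, map_smul, hgi,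
        hgf x, hgf (d x), hdk, hχd]
      simp only [map_add, map_smul, hd0, hdi, LinearMap.smul_apply, smul_eq_mul]
      module
    · simp [hik'.symm]
    · simpa using ⟨sub_ne_zero.2 ha1, hc0⟩

theorem slfr_diag (b : Basis ι F V) (t : ι → F) (ht : ∀ i, t i ≠ 0) (hp : ∏ i, t i = 1) :
    ∃ d ∈ dstab (frame b) ⊓ SLV F V, ∀ x i, b.coord i (d x) = t i * b.coord i x := by
  let w : ι → Fˣ := fun k => Units.mk0 _ (ht k)
  let g := b.equiv (b.unitsSMul w) (Equiv.refl ι)
  have hg : ∀ k, g (b k) = t k • b k := fun k => by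
    simp [g, w, Basis.unitsSMul_apply, Units.smul_def]
  refine ⟨g, ⟨mem_dstab_frame fun k => ⟨k, mem_frame.2 ⟨_, (hg k).symm⟩⟩, mem_SLV.2 ?_⟩,
    fun x k => ?_⟩
  · rw [← LinearMap.det_toMatrix b, ← hp, ← Matrix.det_diagonal]
    congr 1
    ext i j
    rw [LinearMap.toMatrix_apply, LinearEquiv.coe_coe, hg, Matrix.diagonal_apply]
    by_cases h : i = j <;> simp [h]
  · have : b.coord k ∘ₗ (g : V →ₗ[F] V) = t k • b.coord k := b.ext fun l => by
      rw [LinearMap.comp_apply, LinearEquiv.coe_coe, hg]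
      by_cases hl : k = l <;> simp [hl]
    exact LinearMap.congr_fun this x

end Gen

theorem slfr_scalar [Fintype F] (hq : 7 ≤ Fintype.card F) :
    ∃ a : F, a ≠ 0 ∧ a ^ 4 ≠ 1 ∧ a * a + a + 1 ≠ 0 := by
  classical
  by_contra hc
  push Not at hc
  obtain ⟨x, hx⟩ := exists_not_mem_list (ι := F) [0, 1, -1] (by simp; omega)
  obtain ⟨y, hy⟩ := exists_not_mem_list (ι := F) [0, 1, -1, x, -x, x + 1] (by simp; omega)
  simp only [List.mem_cons, List.not_mem_nil, or_false, not_or] at hx hy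
  by_cases h2 : (2 : F) = 0
  · have k : ∀ x : F, x ≠ 0 → x ≠ 1 → x * x + x + 1 = 0 := fun x h0 h1 => hc x h0 fun h => h1 (by
      have : (x - 1) ^ 4 = 0 := by linear_combination h + (1 - 2 * x + 3 * x ^ 2 - 2 * x ^ 3) * h2
      exact sub_eq_zero.1 (pow_eq_zero_iff (by norm_num) |>.1 this))
    exact mul_ne_zero (sub_ne_zero.2 hy.2.2.2.1) (sub_ne_zero.2 hy.2.2.2.2.2) (by
      linear_combination k y hy.1 hy.2.1 - k x hx.1 hx.2.1 + (x ^ 2 + x - x * y - y) * h2)
  · have k : ∀ x : F, x ≠ 0 → x ≠ 1 → x ≠ -1 → x * x + 1 = 0 := fun x h0 h1 h3 => by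
      by_contra h4
      have h5 : x ^ 4 ≠ 1 := fun h => mul_ne_zero (mul_ne_zero (sub_ne_zero.2 h1)
        (sub_ne_zero.2 h3)) h4 (by linear_combination h)
      exact mul_ne_zero h2 h0 (by
        linear_combination hc x h0 h5 - hc (-x) (neg_ne_zero.2 h0) (by rwa [Even.neg_pow (by decide)]))
    exact mul_ne_zero (sub_ne_zero.2 hy.2.2.2.1) (sub_ne_zero.2 hy.2.2.2.2.1) (by
      linear_combination k y hy.1 hy.2.1 hy.2.2.1 - k x hx.1 hx.2.1 hx.2.2)

theorem slfr_pairs {a : F} (a0 : a ≠ 0) (a4 : a ^ 4 ≠ 1) (a3 : a * a + a + 1 ≠ 0) :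
    ∃ x y : Fin 4 → F, (∀ r, x r * x r * (y r * y r) = 1) ∧
      ∀ r r', x r * y r' = x r' * y r → r = r' := by
  have a2 : a ^ 2 ≠ 1 := fun h => a4 (by linear_combination (a ^ 2 + 1) * h)
  have a2' : a ^ 2 ≠ -1 := fun h => a4 (by linear_combination (a ^ 2 - 1) * h)
  by_cases h2 : (2 : F) = 0
  · have a6 : a ^ 6 ≠ 1 := fun h => pow_ne_zero 2 (mul_ne_zero (sub_ne_zero.2 (fun h : a = 1 =>
      a2 (by rw [h, one_pow]))) a3) (by linear_combination h + (1 - a ^ 3) * h2)
    refine ⟨fun r => a ^ (r : ℕ), fun r => a⁻¹ ^ (r : ℕ), fun r => by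
      simp only [inv_pow]; field_simp, fun r r' h => ?_⟩
    have h' : a ^ (2 * (r : ℕ)) = a ^ (2 * (r' : ℕ)) := by
      simp only [inv_pow] at h
      field_simp at h
      rw [mul_comm 2, mul_comm 2, pow_mul, pow_mul, h]
    have k : ∀ m n : ℕ, a ^ (m + n) = a ^ m → a ^ n = 1 := fun m n h =>
      mul_left_cancel₀ (pow_ne_zero m a0) (by rw [← pow_add, h, mul_one])
    fin_cases r <;> fin_cases r' <;> first
      | rfl
      | exact absurd (k _ 2 h') a2
      | exact absurd (k _ 4 h') a4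
      | exact absurd (k _ 6 h') a6
      | exact absurd (k _ 2 h'.symm) a2
      | exact absurd (k _ 4 h'.symm) a4
      | exact absurd (k _ 6 h'.symm) a6
  · refine ⟨![1, 1, a, a], ![1, -1, a⁻¹, -a⁻¹], fun r => ?_, fun r r' h => ?_⟩
    · fin_cases r <;> simp <;> field_simp
    · fin_cases r <;> fin_cases r' <;> first
        | rfl
        | (simp only [Fin.zero_eta, Fin.mk_one, Fin.reduceFinMk, Matrix.cons_val] at h
           field_simp at h
           first
             | exact absurd (by linear_combination h) h2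
             | exact absurd (by linear_combination -h) h2
             | exact absurd (by linear_combination h) a2
             | exact absurd (by linear_combination -h) a2
             | exact absurd (by linear_combination h) a2'
             | exact absurd (by linear_combination -h) a2')

theorem slfr_aux {x y z w : F} (hx : x ≠ 0) (h1 : y * y = x * x) (h2 : y * z = x * w)
    (h3 : x + y + z + w = 0) : x + y = 0 ∨ x + z = 0 := by
  by_cases h4 : x + y = 0
  · exact Or.inl h4
  have h5 : y = x := sub_eq_zero.1 (mul_left_cancel₀ h4 (by linear_combination h1))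
  subst h5
  have h6 : z = w := mul_left_cancel₀ hx h2
  subst h6
  refine Or.inr (mul_left_cancel₀ h4 ?_)
  linear_combination y * h3

/-- The Klein four group. -/
def slfrK : Fin 4 → Fin 4 → Fin 4 := ![![0, 1, 2, 3], ![1, 0, 3, 2], ![2, 3, 0, 1], ![3, 2, 1, 0]]

theorem slfrK_spec : ∀ r r' : Fin 4, r ≠ r' → ∃ m, (m = 1 ∨ m = 2 ∨ m = 3) ∧
    ∀ i, slfrK r (slfrK r' i) = slfrK m i ∧ slfrK r' (slfrK r' i) = i := by decide

variable {H : Subgroup (V ≃ₗ[F] V)} {b : Basis (Fin 4) F V}

theorem slfr_part {a : F} (P : P4 H b a) (hH : dstab (frame b) ⊓ SLV F V ≤ H) {g : V ≃ₗ[F] V}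
    (hg : g ∈ H) : g ∈ dstab (frame b) := by
  by_contra hg'
  have hv := P.ne_zero hg hg'
  have hu := P.ne_zero (H.inv_mem hg) fun h => hg' ((Subgroup.inv_mem_iff _).1 h)
  obtain ⟨s, hs⟩ : ∃ s : Fin 4 → F, ∀ i, s i = b.coord 0 (g⁻¹ (b i)) * b.coord i (g (b 1)) :=
    ⟨_, fun _ => rfl⟩
  have s0 : ∀ i, s i ≠ 0 := fun i => by rw [hs]; exact mul_ne_zero (hu _ _) (hv _ _)
  have LP : ∀ t : Fin 4 → Fin 4 → F, (∀ r, ∏ i, t r i = 1) → (∀ r, ∑ i, s i * t r i = 0) →
      ∃ r r', r ≠ r' ∧ ∀ i j, t r i * t r' j = t r' i * t r j := by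
    intro t hp hsum
    have key : ∀ r, ∃ l : {l : Fin 4 // l ≠ 0}, ∃ c : F, c ≠ 0 ∧
        ∀ i, t r i * b.coord i (g (b 1)) = c * b.coord i (g (b l)) := by
      intro r
      obtain ⟨d, hd, hdf⟩ := slfr_diag b (t r) (fun i h => by
        have := hp r
        rw [Finset.prod_eq_zero (Finset.mem_univ i) h] at this
        exact zero_ne_one this) (hp r)
      have h0 : b.coord 0 ((g⁻¹ * d * g) (b 1)) = 0 := by
        rw [le_mul_apply, le_mul_apply, ← b.sum_repr (d _), map_sum, map_sum, ← hsum r]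
        refine Finset.sum_congr rfl fun i _ => ?_
        rw [map_smul, map_smul, ← Basis.coord_apply, hdf, hs, smul_eq_mul]
        ring
      obtain ⟨π, hπ⟩ := exists_of_mem_dstab_frame (b := b) (y := g⁻¹ * d * g) (by
        by_contra h
        exact P.ne_zero (H.mul_mem (H.mul_mem (H.inv_mem hg) (hH hd)) hg) h _ _ h0)
      obtain ⟨c, hc, e⟩ := hπ 1
      refine ⟨⟨π 1, fun h => ?_⟩, c, hc, fun i => ?_⟩
      · rw [e, h] at h0
        simp [hc] at h0
      · have := congrArg g e
        rw [le_mul_apply, le_mul_apply, le_apply_inv, map_smul] at this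
        rw [← hdf, this, map_smul, smul_eq_mul]
    choose l c hc e using key
    obtain ⟨r, r', hr, hl⟩ := Fintype.exists_ne_map_eq_of_card_lt l (by simp)
    refine ⟨r, r', hr, fun i j => mul_left_cancel₀ (mul_ne_zero (hv i 1) (hv j 1)) ?_⟩
    have e1 := e r i
    have e2 := e r j
    have e3 := e r' i
    have e4 := e r' j
    rw [← hl] at e3 e4
    linear_combination (t r' j * b.coord j (g (b 1))) * e1 + (c r * b.coord i (g (b (l r)))) * e4
      - (t r j * b.coord j (g (b 1))) * e3 - (c r' * b.coord i (g (b (l r)))) * e2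
  have hsum : s 0 + s 1 + s 2 + s 3 = 0 := by
    have h0 : b.coord 0 (g⁻¹ (g (b 1))) = 0 := by rw [le_inv_apply]; simp
    rw [← b.sum_repr (g _), map_sum, map_sum] at h0
    rw [← Fin.sum_univ_four s, ← h0]
    refine Finset.sum_congr rfl fun i _ => ?_
    rw [map_smul, map_smul, ← Basis.coord_apply, hs, smul_eq_mul, mul_comm]
  have h3 : s 0 + s 1 = 0 ∨ s 0 + s 2 = 0 ∨ s 0 + s 3 = 0 := by
    have a0 := s0 0
    have a1 := s0 1
    have a2 := s0 2
    have a3 := s0 3
    obtain ⟨r, r', hr, h⟩ := LP (fun r i => s (slfrK r i) / s i) (fun r => by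
      fin_cases r <;> simp [Fin.prod_univ_four, slfrK, a0, a1, a2, a3] <;> field_simp) fun r => by
      simp only [mul_div_cancel₀ _ (s0 _)]
      fin_cases r <;> simp [Fin.sum_univ_four, slfrK] <;> linear_combination hsum
    obtain ⟨m, hm, hm'⟩ := slfrK_spec r r' hr
    have h' : ∀ j, s (slfrK m 0) * s j = s 0 * s (slfrK m j) := fun j => by
      have := h (slfrK r' 0) (slfrK r' j)
      rw [(hm' _).1, (hm' _).1, (hm' _).2, (hm' _).2] at this
      have b1 := s0 (slfrK r' 0)
      have b2 := s0 (slfrK r' j)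
      field_simp at this
      exact this
    rcases hm with rfl | rfl | rfl
    · exact (slfr_aux a0 (h' 1) (h' 2) hsum).imp_right Or.inl
    · exact (slfr_aux a0 (h' 2) (h' 1) (by
        show s 0 + s 2 + s 1 + s 3 = 0
        linear_combination hsum)).elim (fun h => Or.inr (Or.inl h)) Or.inl
    · exact (slfr_aux a0 (h' 3) (h' 1) (by
        show s 0 + s 3 + s 1 + s 2 = 0
        linear_combination hsum)).elim (fun h => Or.inr (Or.inr h)) Or.inl
  obtain ⟨x, y, hxy, hinj⟩ := slfr_pairs P.a0 P.a4 P.a3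
  rcases h3 with h3 | h3 | h3
  · obtain ⟨r, r', hr, h⟩ := LP (fun r => ![x r, x r, y r, y r]) (fun r => by
      simp only [Fin.prod_univ_four, Matrix.cons_val]; linear_combination hxy r) fun r => by
      simp only [Fin.sum_univ_four, Matrix.cons_val]
      linear_combination (x r - y r) * h3 + y r * hsum
    exact hr (hinj r r' (h 0 2))
  · obtain ⟨r, r', hr, h⟩ := LP (fun r => ![x r, y r, x r, y r]) (fun r => by
      simp only [Fin.prod_univ_four, Matrix.cons_val]; linear_combination hxy r) fun r => by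
      simp only [Fin.sum_univ_four, Matrix.cons_val]
      linear_combination (x r - y r) * h3 + y r * hsum
    exact hr (hinj r r' (h 0 1))
  · obtain ⟨r, r', hr, h⟩ := LP (fun r => ![x r, y r, y r, x r]) (fun r => by
      simp only [Fin.prod_univ_four, Matrix.cons_val]; linear_combination hxy r) fun r => by
      simp only [Fin.sum_univ_four, Matrix.cons_val]
      linear_combination (x r - y r) * h3 + y r * hsum
    exact hr (hinj r r' (h 0 1))

theorem slfr_SLV_le [Fintype F] (hq : 7 ≤ Fintype.card F)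
    (hH : dstab (frame b) ⊓ SLV F V ≤ H) (hS : H ≤ SLV F V) {g : V ≃ₗ[F] V} (hg : g ∈ H)
    (hg' : g ∉ dstab (frame b)) : SLV F V ≤ H := by
  by_contra hc
  obtain ⟨a, a0, a4, a3⟩ := slfr_scalar hq
  refine hg' (slfr_part ⟨by simp, a0, a4, a3, fun n hn => ?_, fun h hh i j hij => ?_⟩ hH hg)
  · obtain ⟨d, hd, hdf⟩ := slfr_diag b (fun i => a ^ n i) (fun i => zpow_ne_zero _ a0) (by
      rw [Fin.sum_univ_four] at hn
      rw [Fin.prod_univ_four, ← zpow_add₀ a0, ← zpow_add₀ a0, ← zpow_add₀ a0, hn, zpow_zero])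
    exact ⟨d, hH hd, hdf⟩
  by_contra hh'
  obtain ⟨s, hs, hs'⟩ := (basisDec b).exists_perm_SLV
    (fun i j => by rw [finrank_frame, finrank_frame]) (frame_ne_bot b) (Equiv.swap i j)
  refine hc (slfr_fix (by omega) (by simp) hH hS (H.mul_mem (hH hs) hh) (fun h1 => hh' ?_)
    (i₀ := i) ?_)
  · rwa [(dstab _).mul_mem_cancel_left hs.1] at h1
  · have := hs' j _ hij
    rwa [Equiv.swap_apply_right] at this

end Core

theorem sl_frame4 {F : Type*} [Field F] [Fintype F] :
    7 ≤ Fintype.card F → ∀ D : Fin 4 → Submodule F (Fin 4 → F), Cfsg.Geo.IsMDecomposition 1 D → Cfsg.Geo.IsMaximalIn (Cfsg.Geo.specialLinear (Fin 4) F) (Cfsg.Geo.decompositionStabilizer D ⊓ Cfsg.Geo.specialLinear (Fin 4) F) := by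
  intro hq D hD
  have h : IsMaximalIn (SLV F (Fin 4 → F)) (dstab D ⊓ SLV F (Fin 4 → F)) := by
    obtain ⟨d⟩ := exists_dec hD.indep hD.iSup_eq_top
    refine isMaximalIn_of inf_le_right ?_ fun M hM hM' g hg hg' => ?_
    · obtain ⟨g, hg, hg'⟩ := d.exists_SLV_not_mem_dstab (i := 0) (j := 1) (by decide) fun i =>
        ne_bot_of_finrank_pos (by rw [hD.finrank_eq]; exact one_pos)
      exact ⟨g, hg, fun h => hg' h.1⟩
    · obtain ⟨b, rfl⟩ := exists_basis_frame d hD.finrank_eq
      exact slfr_SLV_le hq hM hM' hg fun h => hg' ⟨h, hM' hg⟩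
  have := isMaximalIn_comap (toLE (Fin 4) F) h
  rwa [Subgroup.comap_inf, comap_SLV, comap_dstab] at this

end Cfsg.Agent.K4
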