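import Cfsg.Agent.H77.LowC8
import Cfsg.Agent.K4.OBasic

/-! The orthogonal similarity group in `SL₄`. -/

set_option autoImplicit false
set_option linter.unusedSectionVars false

namespace Cfsg.Agent.K4

open Module Cfsg.Agent.H27 Cfsg.Agent.H77 QuadraticMap

section Core

variable {F V : Type*} [Field F] [AddCommGroup V] [Module F V] [FiniteDimensional F V]
  {H : Subgroup (V ≃ₗ[F] V)} [Finite F] {Q : QuadraticForm F V}

theorem slo_frame (h2 : (2 : F) ≠ 0) (h : RF (σ := RingHom.id F) (polarBilin Q))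
    (hn : finrank F V = 4) {u a : V} (hu : Q u ≠ 0) (ha : Q a = 0) (hua : polarBilin Q u a = 0)
    (ha0 : a ≠ 0) : ∃ f x, Q f = 0 ∧ polarBilin Q u f = 0 ∧ polarBilin Q a f = 1 ∧
      polarBilin Q u x = 0 ∧ polarBilin Q a x = 0 ∧ polarBilin Q f x = 0 ∧ Q x ≠ 0 ∧
      ∀ r, polarBilin Q r a = 0 → polarBilin Q r f = 0 → polarBilin Q r x = 0 → r ∈ sp F [u] := by
  have self : ∀ x, polarBilin Q x x = 2 * Q x := fun x => polar_self_eq Q x
  have hsym : ∀ x y, polarBilin Q y x = polarBilin Q x y := fun x y => polar_comm Q y x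
  have huu : polarBilin Q u u ≠ 0 := by rw [self]; exact mul_ne_zero h2 hu
  have haa : polarBilin Q a a = 0 := by rw [self, ha, mul_zero]
  obtain ⟨z, h3, h4⟩ := h.exists_perp (l := [u]) (a := a) (fun hm => by
    obtain ⟨d, rfl⟩ := mem_sp_one.mp hm
    rw [map_smul, smul_eq_mul, mul_eq_zero] at hua
    simp [hua.resolve_right huu] at ha0) 1
  obtain ⟨f, hf, huf, haf⟩ : ∃ f, Q f = 0 ∧ polarBilin Q u f = 0 ∧ polarBilin Q a f = 1 :=
    ⟨z + (-Q z) • a, by rw [quad_add_smul, ha, polar_comm, ← polarBilin_apply_apply, h4]; ring,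
      by rw [map_add, map_smul, h3 u (by simp), hua]; simp,
      by rw [map_add, map_smul, h4, haa]; simp⟩
  have hff : polarBilin Q f f = 0 := by rw [self, hf, mul_zero]
  have hfa : polarBilin Q f a = 1 := by rw [hsym, haf]
  obtain ⟨x, h5, hx⟩ : ∃ x, (∀ w ∈ [u, a, f], polarBilin Q w x = 0) ∧ Q x ≠ 0 := by
    by_contra hc
    push Not at hc
    obtain ⟨x, h5, h6⟩ := exists_perp_not_mem (polarBilin Q) [u, a, f] [] (by simp; omega)
    obtain ⟨y, h7, h8⟩ := h.exists_perp (l := [u, a, f]) (a := x) (fun hm => h6 (by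
      obtain ⟨α, β, γ, rfl⟩ := mem_sp_three.mp hm
      have a1 := h5 u (by simp)
      have a2 := h5 a (by simp)
      have a3 := h5 f (by simp)
      simp only [map_add, map_smul, hua, huf, haa, haf, hff, hfa, hsym u a, hsym u f, smul_eq_mul,
        mul_zero, mul_one, add_zero, zero_add, mul_eq_zero, huu, or_false] at a1 a2 a3
      simp [a1, a2, a3])) 1
    have := hc (x + y) fun w hw => by rw [map_add, h5 w hw, h7 w hw, add_zero]
    rw [quad_add, hc x h5, hc y h7, ← polarBilin_apply_apply, h8] at this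
    simp at this
  have hux := h5 u (by simp)
  have hax := h5 a (by simp)
  have hfx := h5 f (by simp)
  have hxx : polarBilin Q x x ≠ 0 := by rw [self]; exact mul_ne_zero h2 hx
  refine ⟨f, x, hf, huf, haf, hux, hax, hfx, hx, fun r r1 r2 r3 => ?_⟩
  by_contra hr
  refine dep5 hn u a f x r fun c₁ c₂ c₃ c₄ c₅ h0 => ?_
  have e2 := congrArg (polarBilin Q a) h0
  have e3 := congrArg (polarBilin Q f) h0
  have e4 := congrArg (polarBilin Q x) h0
  simp only [map_add, map_smul, hua, huf, haa, haf, hff, hfa, hsym u a, hsym u f, smul_eq_mul,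
    mul_zero, mul_one, add_zero, zero_add, mul_eq_zero, hxx, or_false, hax, hfx, hsym r a, hsym r f,
    hsym r x, r1, r2, r3, hsym u x, hsym a x, hsym f x, hux, map_zero] at e2 e3 e4
  subst e2 e3 e4
  have h5 : c₅ = 0 := by
    by_contra h5
    refine hr (mem_sp_one.mpr ⟨-c₁ / c₅, ?_⟩)
    have h6 : c₅ • r = (-c₁) • u := by
      rw [neg_smul, eq_neg_iff_add_eq_zero, add_comm]; simpa using h0
    rw [div_eq_inv_mul, mul_smul, ← h6, smul_smul, inv_mul_cancel₀ h5, one_smul]
  subst h5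
  have hu0 : u ≠ 0 := by rintro rfl; simp at hu
  simpa [hu0] using h0

theorem slo_irr (h2 : (2 : F) ≠ 0) (h : RF (σ := RingHom.id F) (polarBilin Q))
    (hn : finrank F V = 4) {u : V} (hu : Q u ≠ 0)
    {Z : Submodule F V} (hZ : ∀ a x, Q a = 0 → polarBilin Q u a = 0 → polarBilin Q u x = 0 →
      polarBilin Q a x = 0 → ∀ y ∈ Z, Ef (polarBilin Q) (-1) a x (-Q x) y ∈ Z)
    {p r : V} (hp : p ∈ Z) (hpu : p ∉ sp F [u]) (hr : r ∉ sp F [u]) :
    ∃ z ∈ Z, polarBilin Q u z = 0 ∧ polarBilin Q r z ≠ 0 := by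
  have self : ∀ x, polarBilin Q x x = 2 * Q x := fun x => polar_self_eq Q x
  have ext : ∀ a, Q a = 0 → polarBilin Q u a = 0 → ∀ y ∈ Z, polarBilin Q y a ≠ 0 → a ∈ Z := by
    intro a ha hua y hy hya
    obtain ⟨f, x, -, -, -, h1, h3, -, hx, -⟩ := slo_frame h2 h hn hu ha hua
      (by rintro rfl; simp at hya)
    have h5 := Z.sub_mem (hZ a x ha hua h1 h3 y hy) hy
    have h6 := Z.sub_mem (hZ a x ha hua h1 h3 _ h5) h5
    rw [← Z.smul_mem_iff (neg_ne_zero.mpr (mul_ne_zero (mul_ne_zero h2 hx) (h.refl_ne hya)))]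
    convert h6 using 1
    simp only [Ef, map_add, map_sub, map_smul, h3, self a, self x, ha, h.refl _ _ h3, smul_eq_mul]
    module
  obtain ⟨a, ha, h1, ha0⟩ := exists_singular_perp Q [u] [] (by simp; omega)
  rw [mem_sp_nil] at ha0
  have hua := h1 u (by simp)
  obtain ⟨f, x, hf, huf, haf, hux, hax, hfx, hx, hsp⟩ := slo_frame h2 h hn hu ha hua ha0
  have hfa : polarBilin Q f a = 1 := (polar_comm Q f a).trans haf
  set s := a + x + (-Q x) • f with hs
  have hQs : Q s = 0 := by
    rw [hs, quad_add_smul, quad_add, ha, hf, ← polarBilin_apply_apply, ← polarBilin_apply_apply,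
      map_add, LinearMap.add_apply, haf, hax, h.refl _ _ hfx]; ring
  have hus : polarBilin Q u s = 0 := by simp only [hs, map_add, map_smul, hua, hux, huf]; simp
  have has : polarBilin Q a s ≠ 0 := by
    simp only [hs, map_add, map_smul, self a, ha, hax, haf]; simpa using hx
  have hfs : polarBilin Q f s ≠ 0 := by
    simp only [hs, map_add, map_smul, self f, hf, hfx, hfa]; simp
  have tri : ∀ r, r ∉ sp F [u] →
      polarBilin Q r a ≠ 0 ∨ polarBilin Q r f ≠ 0 ∨ polarBilin Q r s ≠ 0 := by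
    intro r hr
    by_contra hc
    push Not at hc
    obtain ⟨c1, c2, c3⟩ := hc
    refine hr (hsp r c1 c2 ?_)
    simpa only [hs, map_add, map_smul, c1, c2, smul_zero, add_zero, zero_add] using c3
  have haZ : a ∈ Z := by
    rcases tri p hpu with h3 | h3 | h3
    · exact ext a ha hua p hp h3
    · exact ext a ha hua f (ext f hf huf p hp h3) (by rw [hfa]; exact one_ne_zero)
    · exact ext a ha hua s (ext s hQs hus p hp h3) (h.refl_ne has)
  rcases tri r hr with h3 | h3 | h3
  · exact ⟨a, haZ, hua, h3⟩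
  · exact ⟨f, ext f hf huf a haZ (by rw [haf]; exact one_ne_zero), huf, h3⟩
  · exact ⟨s, ext s hQs hus a haZ has, hus, h3⟩

theorem slo_prop (h2 : (2 : F) ≠ 0) (h : RF (σ := RingHom.id F) (polarBilin Q))
    (hn : finrank F V = 4) (R : QuadraticForm F V) (hR : ∀ v, Q v = 0 → R v = 0) :
    ∃ c, ∀ v, R v = c * Q v := by
  have self : ∀ x, polarBilin Q x x = 2 * Q x := fun x => polar_self_eq Q x
  have hsym : ∀ x y, polarBilin Q y x = polarBilin Q x y := fun x y => polar_comm Q y x
  have main : ∀ e f, Q e = 0 → Q f = 0 → polarBilin Q e f = 1 → ∀ w, polarBilin Q e w = 0 →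
      polarBilin Q f w = 0 → R w = polarBilin R e f * Q w ∧
        polarBilin R e w = Q w * polarBilin R f w := by
    intro e f he hf hef
    have k : ∀ w, polarBilin Q e w = 0 → polarBilin Q f w = 0 →
        R w + polarBilin R e w - Q w * (polarBilin R e f + polarBilin R f w) = 0 := by
      intro w h3 h4
      have := hR (e + w + (-Q w) • f) (by
        rw [quad_add_smul, quad_add, he, hf, ← polarBilin_apply_apply, ← polarBilin_apply_apply,
          map_add, LinearMap.add_apply, hef, h3, h.refl _ _ h4]; ring)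
      rw [quad_add_smul, quad_add, hR e he, hR f hf, ← polarBilin_apply_apply,
        ← polarBilin_apply_apply, map_add, LinearMap.add_apply,
        show polarBilin R w f = polarBilin R f w from polar_comm R w f] at this
      linear_combination this
    intro w h3 h4
    have k1 := k w h3 h4
    have k2 := k (-w) (by rw [map_neg, h3, neg_zero]) (by rw [map_neg, h4, neg_zero])
    rw [Q.map_neg, R.map_neg, map_neg, map_neg] at k2
    exact ⟨mul_left_cancel₀ h2 (by linear_combination k1 + k2),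
      mul_left_cancel₀ h2 (by linear_combination k1 - k2)⟩
  have dec : ∀ e f, Q e = 0 → Q f = 0 → polarBilin Q e f = 1 → ∀ x, ∃ (α β : F) (w : V),
      polarBilin Q e w = 0 ∧ polarBilin Q f w = 0 ∧ x = w + α • e + β • f := by
    intro e f he hf hef x
    refine ⟨polarBilin Q f x, polarBilin Q e x, x - polarBilin Q f x • e - polarBilin Q e x • f,
      ?_, ?_, by abel⟩
    · simp only [map_sub, map_smul, self e, he, hef]; simp
    · simp only [map_sub, map_smul, self f, hf, hsym e f, hef]; simp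
  have van : ∀ e f, Q e = 0 → Q f = 0 → polarBilin Q e f = 1 → ∀ w, polarBilin Q e w = 0 →
      polarBilin Q f w = 0 → polarBilin R f w = 0 := by
    intro e f he hf hef w h3 h4
    by_contra h5
    obtain ⟨w1, a1, a2, a3⟩ : ∃ w1, polarBilin Q e w1 = 0 ∧ polarBilin Q f w1 = 0 ∧
        polarBilin R f w1 = 1 :=
      ⟨(polarBilin R f w)⁻¹ • w, by rw [map_smul, h3, smul_zero], by rw [map_smul, h4, smul_zero],
        by rw [map_smul, smul_eq_mul, inv_mul_cancel₀ h5]⟩
    have k : ∀ w0, polarBilin Q e w0 = 0 → polarBilin Q f w0 = 0 → polarBilin R f w0 = 0 →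
        Q w0 = 0 ∧ polarBilin Q w1 w0 = 0 := by
      intro w0 b1 b2 b3
      have c0 := (main e f he hf hef w0 b1 b2).2
      have c1 := (main e f he hf hef w1 a1 a2).2
      have c2 := fun t : F => (main e f he hf hef (w1 + t • w0)
        (by rw [map_add, map_smul, a1, b1]; simp) (by rw [map_add, map_smul, a2, b2]; simp)).2
      have c3 := c2 1
      have c4 := c2 (-1)
      rw [b3, mul_zero] at c0
      rw [a3, mul_one] at c1
      rw [quad_add_smul, ← polarBilin_apply_apply, LinearMap.map_add, LinearMap.map_add,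
        LinearMap.map_smul, LinearMap.map_smul, c0, c1, a3, b3] at c3 c4
      simp only [smul_zero, add_zero, mul_one] at c3 c4
      exact ⟨mul_left_cancel₀ h2 (by linear_combination -c3 - c4),
        mul_left_cancel₀ h2 (by linear_combination c4 - c3)⟩
    obtain ⟨p, hp⟩ := h.rep (polarBilin R f)
    obtain ⟨w0, b0, b4⟩ := exists_perp_not_mem (polarBilin Q) [e, f, p] [] (by simp; omega)
    have b1 := b0 e (by simp)
    have b2 := b0 f (by simp)
    have b3 : polarBilin R f w0 = 0 := by rw [← hp]; exact b0 p (by simp)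
    refine b4 (mem_sp_nil.mpr (h.nd _ fun y => ?_))
    obtain ⟨α, β, w', d1, d2, rfl⟩ := dec e f he hf hef y
    have d3 : polarBilin Q e (w' - polarBilin R f w' • w1) = 0 := by
      simp only [map_sub, map_smul, d1, a1]; simp
    have d4 : polarBilin Q f (w' - polarBilin R f w' • w1) = 0 := by
      simp only [map_sub, map_smul, d2, a2]; simp
    have d5 : polarBilin R f (w' - polarBilin R f w' • w1) = 0 := by
      simp only [map_sub, map_smul, a3]; simp
    have d6 := (k (w0 + (w' - polarBilin R f w' • w1)) (by rw [map_add, b1, d3, add_zero])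
      (by rw [map_add, b2, d4, add_zero]) (by rw [map_add, b3, d5, add_zero])).1
    rw [quad_add, (k _ b1 b2 b3).1, (k _ d3 d4 d5).1, ← polarBilin_apply_apply, map_sub, map_smul,
      hsym w1 w0, (k _ b1 b2 b3).2] at d6
    simp only [map_add, map_smul, hsym e w0, hsym f w0, b1, b2]
    simpa using d6
  obtain ⟨e, he, -, he0⟩ := exists_singular_perp Q [] [] (by simp; omega)
  obtain ⟨z, -, h4⟩ := h.exists_perp he0 1
  obtain ⟨f, hf, hef⟩ : ∃ f, Q f = 0 ∧ polarBilin Q e f = 1 :=
    ⟨z + (-Q z) • e, by rw [quad_add_smul, he, polar_comm, ← polarBilin_apply_apply, h4]; ring,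
      by rw [map_add, map_smul, h4, self e, he]; simp⟩
  refine ⟨polarBilin R e f, fun v => ?_⟩
  obtain ⟨α, β, w, d1, d2, rfl⟩ := dec e f he hf hef v
  have k1 := van e f he hf hef w d1 d2
  have k2 := van f e hf he ((hsym e f).trans hef) w d2 d1
  simp only [quad_add_smul, ← polarBilin_apply_apply, map_add, map_smul, LinearMap.add_apply,
    LinearMap.smul_apply, hR e he, hR f hf, he, hf, hef, hsym e w, hsym f w, d1, d2,
    show polarBilin R w f = polarBilin R f w from polar_comm R w f,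
    show polarBilin R w e = polarBilin R e w from polar_comm R w e, k1, k2,
    (main e f he hf hef w d1 d2).1, smul_eq_mul]
  ring

theorem slo_SLV_le (h2 : (2 : F) ≠ 0) (h : RF (σ := RingHom.id F) (polarBilin Q))
    (hn : finrank F V = 4) (hE : ∀ a x, Q a = 0 → polarBilin Q a x = 0 →
      Has H (Ef (polarBilin Q) (-1) a x (-Q x))) {g₀ : V ≃ₗ[F] V} (hg₀ : g₀ ∈ H)
    (hg : ∀ c : F, ¬ ∀ x y, polarBilin Q x y = c * polarBilin Q (g₀ x) (g₀ y)) : SLV F V ≤ H := by
  have self : ∀ x, Q x = 0 → polarBilin Q x x = 0 := fun x hx => by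
    rw [polarBilin_apply_apply, polar_self_eq, hx, mul_zero]
  have hsym : ∀ x y, polarBilin Q y x = polarBilin Q x y := fun x y => polar_comm Q y x
  have hiso : ∀ a x (k : V ≃ₗ[F] V), Q a = 0 → polarBilin Q a x = 0 →
      (∀ t, k t = Ef (polarBilin Q) (-1) a x (-Q x) t) →
      ∀ s t, polarBilin Q (k s) (k t) = polarBilin Q s t := by
    intro a x k ha hax hk s t
    have hxx : polarBilin Q x x = 2 * Q x := polar_self_eq Q x
    simp only [hk, Ef, map_add, map_smul, LinearMap.add_apply, LinearMap.smul_apply, self a ha,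
      hax, hsym a x, hxx, hsym a s, hsym x s, smul_eq_mul]
    ring
  obtain ⟨g, hgH, u, hu, hw⟩ : ∃ g ∈ H, ∃ u, Q u = 0 ∧ Q (g u) ≠ 0 := by
    by_contra hc
    push Not at hc
    obtain ⟨c, hc'⟩ := slo_prop h2 h hn (Q.comp g₀.toLinearMap) (hc g₀ hg₀)
    have h3 : ∀ x y, polarBilin Q (g₀ x) (g₀ y) = c * polarBilin Q x y := fun x y => by
      have hc'' : ∀ x, Q (g₀ x) = c * Q x := hc'
      rw [polarBilin_apply_apply, polarBilin_apply_apply, polar, polar, ← map_add, hc'', hc'', hc'']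
      ring
    have hc0 : c ≠ 0 := by
      rintro rfl
      obtain ⟨a, -, -, ha⟩ := exists_singular_perp Q [] [] (by simp; omega)
      rw [mem_sp_nil] at ha
      exact h.ne_zero (g₀.map_ne_zero_iff.mpr ha) (LinearMap.ext fun y => by
        simpa [le_apply_inv] using h3 a (g₀⁻¹ y))
    exact hg c⁻¹ fun x y => by rw [h3, inv_mul_cancel_left₀ hc0]
  let Q' : QuadraticForm F V := Q.comp (g⁻¹ : V ≃ₗ[F] V).toLinearMap
  have hB' : ∀ x y, polarBilin Q' x y = polarBilin Q (g⁻¹ x) (g⁻¹ y) := fun x y => by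
    simp [Q', polar]
  have h' : RF (σ := RingHom.id F) (polarBilin Q') := rf_polar fun x hx =>
    (g⁻¹).map_eq_zero_iff.mp (h.nd _ fun y => by rw [← le_inv_apply g y, ← hB', hx])
  set w := g u with hwdef
  have hu0 : u ≠ 0 := by rintro rfl; simp [hwdef] at hw
  have hw0 : w ≠ 0 := g.map_ne_zero_iff.mpr hu0
  have hww : polarBilin Q' w w = 0 := by rw [hB', le_inv_apply, self u hu]
  have hs : ∀ x, polarBilin Q' w x = 0 → Has H (Ef (polarBilin Q') (-1) w x (-Q' x)) := by
    intro x hx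
    rw [hB', le_inv_apply] at hx
    refine ((hE u _ hu hx).conj hgH).congr fun t => ?_
    simp only [Ef, map_add, map_smul, le_apply_inv, hB', hwdef, le_inv_apply]
    rfl
  obtain ⟨p, hp⟩ := h.rep (polarBilin Q' w)
  have hBw : polarBilin Q w w ≠ 0 := by
    rw [polarBilin_apply_apply, polar_self_eq]; exact mul_ne_zero h2 hw
  have hpw : p ∉ sp F [w] := fun hm => by
    obtain ⟨d, rfl⟩ := mem_sp_one.mp hm
    have := hp ▸ hww
    rw [map_smul, LinearMap.smul_apply, smul_eq_zero] at this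
    rw [this.resolve_right hBw, zero_smul, map_zero] at hp
    exact h'.ne_zero hw0 hp.symm
  obtain ⟨k₀, hk₀, k₀w, k₀i, k₀p⟩ : ∃ k₀ ∈ H, k₀ w = w ∧
      (∀ s t, polarBilin Q (k₀ s) (k₀ t) = polarBilin Q s t) ∧ k₀ p ∉ sp F [p] := by
    by_contra hc
    push Not at hc
    obtain ⟨r, h3, h4⟩ := exists_perp_not_mem (polarBilin Q) [p] [w] (by simp; omega)
    obtain ⟨z, hz, -, h5⟩ := slo_irr h2 h hn hw (Z := sp F [p]) (fun a x ha h5 h6 h7 y hy => by
      obtain ⟨k, hk, hkf⟩ := hE a x ha h7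
      obtain ⟨d, rfl⟩ := mem_sp_one.mp hy
      rw [← hkf, map_smul]
      exact Submodule.smul_mem _ _ (hc k hk (by
        rw [hkf, Ef_fix _ (h.refl _ _ h5) (h.refl _ _ h6)]) (hiso a x k ha h7 hkf)))
      (mem_sp (by simp)) hpw h4
    obtain ⟨d, rfl⟩ := mem_sp_one.mp hz
    simp [h.refl _ _ (h3 p (by simp))] at h5
  obtain ⟨y, hy, hyw⟩ := exists_perp_not_mem (polarBilin Q) [p, k₀ p] [w] (by simp; omega)
  have hφy : polarBilin Q' w y = 0 := by rw [← hp]; exact hy p (by simp)
  have hψy : polarBilin Q (k₀ p) y = 0 := hy _ (by simp)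
  have hψw : polarBilin Q (k₀ p) w = 0 := by rw [← k₀w, k₀i, hp, hww]
  have hψ : ∀ t, polarBilin Q' w (k₀⁻¹ t) = polarBilin Q (k₀ p) t := fun t => by
    rw [← hp, ← k₀i, le_apply_inv]
  obtain ⟨k, hk, hkw, hkf⟩ : ∃ k ∈ H, k w = w ∧
      ∀ t, ∃ χ : F, k t = t + polarBilin Q (k₀ p) t • y + χ • w := by
    have h3 : polarBilin Q' w (k₀⁻¹ y) = 0 := by rw [hψ, hψy]
    obtain ⟨k, hk, hkf⟩ := (hs (k₀⁻¹ y) h3).conj hk₀
    beta_reduce at hkf
    refine ⟨k, hk, ?_, fun t => ⟨_, by
      rw [hkf, Ef, map_add, map_add, map_smul, map_smul, le_apply_inv, le_apply_inv, k₀w, hψ]⟩⟩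
    rw [hkf, show k₀⁻¹ w = w by rw [← k₀w, le_inv_apply, k₀w], Ef_fix _ hww (h'.refl _ _ h3), k₀w]
  have hφk : ∀ t, polarBilin Q' w (k t) = polarBilin Q' w t := fun t => by
    obtain ⟨χ, h3⟩ := hkf t
    simp only [h3, map_add, map_smul, hφy, hww, smul_zero, add_zero]
  obtain ⟨x, t₀, hx, ht₀, hxt⟩ : ∃ x t, polarBilin Q' w x = 0 ∧ polarBilin Q' w t = 0 ∧
      polarBilin Q' (k x) (k t) ≠ polarBilin Q' x t := by
    by_contra hc
    push Not at hc
    obtain ⟨x, h3, h4⟩ := h.exists_perp k₀p 1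
    have hx : polarBilin Q' w x = 0 := by rw [← hp]; exact h3 p (by simp)
    have key : ∀ t, polarBilin Q' w t = 0 → polarBilin Q' y t + polarBilin Q (k₀ p) t *
        (polarBilin Q' x y + polarBilin Q' y y) = 0 := by
      intro t ht
      have := hc x t hx ht
      obtain ⟨χ, h5⟩ := hkf x
      obtain ⟨χ', h6⟩ := hkf t
      rw [h5, h6] at this
      simp only [map_add, map_smul, LinearMap.add_apply, LinearMap.smul_apply, h4, ht, hφy, hww,
        h'.refl _ _ hx, h'.refl _ _ hφy, smul_eq_mul] at this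
      linear_combination this
    have h5 := key y hφy
    have h6 := key x hx
    rw [hψy, zero_mul, add_zero] at h5
    rw [h4, h5, show polarBilin Q' y x = polarBilin Q' x y from polar_comm Q' y x] at h6
    have h7 : polarBilin Q' x y = 0 := mul_left_cancel₀ h2 (by linear_combination h6)
    obtain ⟨t, h8, h9⟩ := h'.exists_perp hyw 1
    have := key t (h8 w (by simp))
    rw [h5, h7, h9] at this
    simp at this
  have hφk' : ∀ t, polarBilin Q' w (k⁻¹ t) = polarBilin Q' w t := fun t => by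
    rw [← hφk, le_apply_inv]
  let ω : Dual F V := polarBilin Q' (k x) - polarBilin Q' x ∘ₗ (k⁻¹ : V ≃ₗ[F] V).toLinearMap -
    (Q' (k x) + Q' x - polarBilin Q' x x) • polarBilin Q' w
  have hω : ∀ t, ω t = polarBilin Q' (k x) t - polarBilin Q' x (k⁻¹ t) -
    (Q' (k x) + Q' x - polarBilin Q' x x) * polarBilin Q' w t := fun _ => rfl
  have hkw' : k⁻¹ w = w := by rw [← hkw, le_inv_apply, hkw]
  have hωw : ω w = 0 := by
    rw [hω, hkw', hww, h'.refl _ _ hx, h'.refl _ _ ((hφk x).trans hx)]; simp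
  have hT : T1 H w ω :=
    (((hs x hx).conj hk).comp (hs (-k x) (by rw [map_neg, hφk, hx, neg_zero]))).congr fun t => by
      simp only [Ef, map_add, map_smul, map_neg, le_apply_inv, le_inv_apply, hkw, hkw', hφk', hww,
        hx, h'.refl _ _ hx, hω, LinearMap.neg_apply, Q'.map_neg, smul_eq_mul]
      module
  have hD : polarBilin Q p ∈ Dset H w := by
    rw [hp]
    refine ⟨hww, fun c => ?_⟩
    have h3 : ω (k t₀) ≠ 0 := by
      rw [hω, le_inv_apply, hφk, ht₀, mul_zero, sub_zero]; exact sub_ne_zero.mpr hxt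
    obtain ⟨s, hsH, hsf⟩ := hs ((c / ω (k t₀)) • k t₀) (by simp [hφk, ht₀])
    have h4 : s⁻¹ w = w := by
      apply s.injective
      rw [le_apply_inv, hsf, Ef_fix _ hww (h'.refl _ _ (by simp [hφk, ht₀]))]
    have h5 := hT.conj' hsH
    rw [h4] at h5
    convert h5.sub_right hT (by rw [LinearMap.comp_apply, LinearEquiv.coe_coe, ← h4,
      le_apply_inv, hωw]) hωw using 1
    ext t
    simp only [LinearMap.sub_apply, LinearMap.comp_apply, LinearEquiv.coe_coe, hsf, Ef, map_add,
      map_smul, hωw, LinearMap.smul_apply, smul_eq_mul]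
    field_simp
    ring
  have hA : w ∈ Aset H := mem_Aset_of_Dset fun r hr => by
    obtain ⟨z, hz, -, h3⟩ := slo_irr h2 h hn hw (Z := (Dset H w).comap (polarBilin Q))
      (fun a x ha h5 h6 h7 y hy => by
        obtain ⟨k, hk, hkf⟩ := hE a x ha h7
        have h8 : k⁻¹ w = w := by
          apply k.injective
          rw [le_apply_inv, hkf, Ef_fix _ (h.refl _ _ h5) (h.refl _ _ h6)]
        have := Dset_comp hy (H.inv_mem hk) h8
        rwa [show polarBilin Q y ∘ₗ (k⁻¹ : V ≃ₗ[F] V).toLinearMap = polarBilin Q (k y) from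
          LinearMap.ext fun t => by
            rw [← le_apply_inv k t, hiso a x k ha h7 hkf]; simp [le_inv_apply], hkf] at this)
      hD hpw hr
    exact ⟨_, hz, h.refl_ne h3⟩
  refine SLV_le_of_Aset (h.eq_top fun r hr => ?_)
  obtain ⟨a, ha, h3, h4⟩ := exists_singular_perp Q [w] [] (by simp; omega)
  rw [mem_sp_nil] at h4
  obtain ⟨f, x, hf, h5, h6, h7, h8, h9, hx, -⟩ := slo_frame h2 h hn hw ha (h3 w (by simp)) h4
  have key : ∀ u, Q u ≠ 0 → polarBilin Q w u = 0 → r ∉ sp F [u] →
      ∃ z ∈ Aset H, polarBilin Q r z ≠ 0 := by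
    intro u hu hwu hru
    obtain ⟨z, hz, -, h3⟩ := slo_irr h2 h hn hu (Z := Aset H) (fun a x ha _ _ h7 y hy => by
      obtain ⟨k, hk, hkf⟩ := hE a x ha h7
      rw [← hkf]; exact Aset_apply hy hk) hA
      (not_mem_sp_of (polarBilin Q w) (by simpa using hwu) hBw) hru
    exact ⟨z, hz, h3⟩
  by_cases hrx : r ∈ sp F [x]
  · refine key (a + f) ?_ (by rw [map_add, h3 w (by simp), h5, add_zero]) fun hm => hr ?_
    · rw [quad_add, ha, hf, ← polarBilin_apply_apply, h6]; simp
    · obtain ⟨d, rfl⟩ := mem_sp_one.mp hm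
      have := map_eq_zero_of_mem_sp (polarBilin Q a) (l := [x]) (by simpa using h8) hrx
      rw [map_smul, map_add, self a ha, h6] at this
      simp [show d = 0 by simpa using this]
  · exact key x hx h7 hrx

end Core

theorem sl_o4 {F : Type*} [Field F] [Fintype F] :
    Odd (Fintype.card F) → ∀ Q : (Fin 4 → F) → F, Cfsg.Geo.IsNondegenerateQuadraticForm Q → Cfsg.Geo.IsMaximalIn (Cfsg.Geo.specialLinear (Fin 4) F) (Cfsg.Geo.quadSimilarityGroup Q ⊓ Cfsg.Geo.specialLinear (Fin 4) F) := by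
  intro hodd Q hQ
  have h2 : (2 : F) ≠ 0 := two_ne_zero_of_odd_card hodd
  have hR := rf_toQF hQ
  refine isMaximalIn_sl_of (H99.not_sl_le_quadSim (by simp) hQ)
    fun H hH g hg hgH => slo_SLV_le h2 hR (by simp) (fun x y hx hxy => ?_) hgH
    fun c hc => hg ?_
  · obtain ⟨e, he, h1⟩ := has_Ef_GG' (σ := RingHom.id F) (B := polarBilin (toQF hQ)) (c := -1)
      (Or.inr rfl) (fun _ => rfl) (fun x y => by simp [polar_comm]) (u := x) (x := y)
      (by rw [polarBilin_apply_apply, polar_self_eq, hx, mul_zero]) hxy (δ := -toQF hQ y)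
      (by rw [polarBilin_apply_apply, polar_self_eq, RingHom.id_apply]; ring)
    obtain ⟨A, rfl⟩ := (toLE (Fin 4) F).surjective e
    refine ⟨_, hH A ⟨1, fun v => ?_⟩ he.2, h1⟩
    have := he.1 v v
    rw [polarBilin_apply_apply, polarBilin_apply_apply, polar_self_eq, polar_self_eq] at this
    rw [Units.val_one, one_mul]
    exact mul_left_cancel₀ h2 this
  · have hc0 : c ≠ 0 := by
      rintro rfl
      haveI : Nontrivial (Fin 4 → F) :=
        Module.nontrivial_of_finrank_pos (R := F) (by simp)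
      obtain ⟨a, ha⟩ := exists_ne (0 : Fin 4 → F)
      exact hR.ne_zero ha (LinearMap.ext fun y => by simpa using hc a y)
    refine ⟨(Units.mk0 c hc0)⁻¹, fun v => ?_⟩
    have := hc v v
    rw [polarBilin_apply_apply, polarBilin_apply_apply, polar_self_eq, polar_self_eq,
      mul_left_comm] at this
    have h3 : Q v = c * Q (toLE (Fin 4) F g v) := mul_left_cancel₀ h2 this
    rw [h3]
    simp [toLE_apply, hc0]

end Cfsg.Agent.K4
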