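import Cfsg.Agent.H77.Mono6
import Cfsg.Agent.H27.FinField

/-! The stabiliser of a decomposition of `F⁴` into two planes. -/

set_option autoImplicit false

namespace Cfsg.Agent.K4

open Cfsg.Agent.H27

theorem exists_sq_ne_one {F : Type*} [Field F] [Fintype F] (h : 4 ≤ Fintype.card F) :
    ∃ a : F, a ≠ 0 ∧ a * a ≠ 1 := by
  classical
  obtain ⟨a, ha⟩ := exists_not_mem_list (ι := F) [0, 1, -1] (by simp; omega)
  simp only [List.mem_cons, List.not_mem_nil, or_false, not_or] at ha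
  exact ⟨a, ha.1, fun h => (mul_self_eq_one_iff.1 h).elim ha.2.1 ha.2.2⟩

theorem sl_planes {F : Type*} [Field F] [Fintype F] :
    4 ≤ Fintype.card F → ∀ D : Fin 2 → Submodule F (Fin 4 → F), Cfsg.Geo.IsMDecomposition 2 D → Cfsg.Geo.IsMaximalIn (Cfsg.Geo.specialLinear (Fin 4) F) (Cfsg.Geo.decompositionStabilizer D ⊓ Cfsg.Geo.specialLinear (Fin 4) F) := by
  intro hq D hD
  have h := isMaximalIn_dstab_SLV hD.indep hD.iSup_eq_top hD.finrank_eq hD.pos
    (by simp) (fun hm => by omega) (fun _ => Or.inr (exists_sq_ne_one hq))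
  have := isMaximalIn_comap (toLE (Fin 4) F) h
  rwa [Subgroup.comap_inf, comap_SLV, comap_dstab] at this

end Cfsg.Agent.K4
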