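import Cfsg.Agent.K4.SLsp

/-! The unitary similarity group in `SL₄`. -/

set_option autoImplicit false

namespace Cfsg.Agent.K4

open Cfsg.Agent.H77

theorem sl_u4 {F : Type*} [Field F] [Fintype F] :
    ∀ (σ : F ≃+* F) (f : (Fin 4 → F) → (Fin 4 → F) → F), Cfsg.Geo.IsUnitaryForm σ f → Cfsg.Geo.IsMaximalIn (Cfsg.Geo.specialLinear (Fin 4) F) (Cfsg.Geo.similarityGroup f ⊓ Cfsg.Geo.specialLinear (Fin 4) F) := by
  intro σ f hf
  obtain ⟨e, he⟩ : ∃ e, σ e ≠ e := by
    by_contra h
    push Not at h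
    exact hf.ne_refl (RingEquiv.ext h)
  set d := e - σ e with hd
  have hd0 : d ≠ 0 := sub_ne_zero.mpr he.symm
  have hd1 : σ d = -d := by rw [hd, map_sub, hf.involutive]; ring
  let B : (Fin 4 → F) →ₛₗ[(σ : F →+* F)] (Fin 4 → F) →ₗ[F] F :=
    LinearMap.mk₂'ₛₗ (σ : F →+* F) (RingHom.id F) (fun x y => d * f y x)
      (fun x y v => by
        rw [hf.herm v, hf.add_left, map_add, ← hf.herm, ← hf.herm, mul_add])
      (fun c x v => by
        rw [hf.herm v, hf.smul_left, map_mul, ← hf.herm, smul_eq_mul]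
        exact mul_left_comm _ _ _)
      (fun x y v => by rw [hf.add_left, mul_add])
      (fun c x v => by rw [hf.smul_left, smul_eq_mul, RingHom.id_apply, mul_left_comm])
  have hB : ∀ x y, B x y = d * f y x := fun _ _ => rfl
  have hs : ∀ x y, B y x = -(σ : F →+* F) (B x y) := fun x y => by
    rw [hB, hB, hf.herm x y]
    show _ = -σ _
    rw [map_mul, hd1]; ring
  have hR : RF B := ⟨hf.involutive, fun x hx => by
    by_contra h0
    obtain ⟨y, hy⟩ := (hf.nondegenerate x h0).1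
    exact mul_ne_zero hd0 hy (hx y), fun x y h => by rw [hs, h, map_zero, neg_zero]⟩
  have hσ : (σ : F →+* F) ≠ RingHom.id F := fun h => he (RingHom.congr_fun h e)
  exact slsp_isMaximalIn
    (Cfsg.Agent.H99.not_sl_le_similarity (by simp) hf.add_left
      hf.smul_left hf.nondegenerate) hd0 hB hR hs
    (fun z => exists_sub_sig hR.inv hσ (neg_eq_iff_eq_neg.mp (hs z z).symm))
    (solv_skew2 hR hs hσ (by simp)) (by simp)

end Cfsg.Agent.K4
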