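import Cfsg.Agent.K4.Defs

/-! Orthonormal frames in `SU₄(2)`. -/

set_option autoImplicit false
set_option linter.unusedSectionVars false
set_option linter.unusedSimpArgs false
set_option linter.unusedVariables false

namespace Cfsg.Agent.K4

open Module Cfsg.Agent.H27 Cfsg.Agent.H98

variable {F : Type*} [Field F] [Fintype F] {σ : F →+* F}
variable {ι : Type*} [Fintype ι] [DecidableEq ι]
variable {B : (ι → F) →ₛₗ[σ] (ι → F) →ₗ[F] F} {ζ : F} {H : Subgroup ((ι → F) ≃ₗ[F] (ι → F))}

theorem fr2_card {x : ι → F} (hx : ¬ Two x) [Nonempty ι] : 3 ≤ (supp x).card := by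
  obtain ⟨i, j, k, h1, h2, h3, h4, h5, h6⟩ := exists_three_of_not_two hx
  exact Finset.two_lt_card_iff.2 ⟨i, j, k, mem_supp.2 h4, mem_supp.2 h5, mem_supp.2 h6, h1, h2, h3⟩

theorem su_fr_two (S : UF B ζ 2) (h4 : Fintype.card ι = 4) (hH : FR F ι ⊓ GG B ≤ H)
    (hG : H ≤ GG B) {g : (ι → F) ≃ₗ[F] (ι → F)} (hg : g ∈ H) (hg' : g ∉ FR F ι) :
    GG B ≤ H := by
  have two := S.qf.two
  have : Nontrivial ι := Fintype.one_lt_card_iff_nontrivial.1 (by omega)
  have ev : ∀ x, B x x = 0 → Even (supp x).card := fun x hx => by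
    by_contra h
    rw [S.B_self, cast_of_odd two (Nat.not_even_iff_odd.1 h)] at hx
    exact one_ne_zero hx
  have le4 : ∀ x : ι → F, (supp x).card ≤ 4 := fun x => h4 ▸ Finset.card_le_univ _
  have A2 : ∀ x, B x x = 0 → Two x → AS B H x := fun x hx h => by
    obtain ⟨i, j, hij, e⟩ := h.exists_eq
    rw [e, S.B_two_two hij, S.z1, one_mul] at hx
    rw [e]
    by_cases hi : x i = 0
    · have hj : x j = 0 := by simpa [hi] using hx
      simpa [hi, hj] using as_zero
    have hj : x j ≠ 0 := fun hj => hi (by simpa [hj] using hx)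
    exact S.as_iff_dt.2 (S.dt_two two hH hij (by rw [mul_comm, S.qf.norm1 hi])
      (by rw [mul_comm, S.qf.norm1 hj]))
  have full : ∀ x, B x x = 0 → ¬ Two x → ∀ i, x i ≠ 0 := fun x hx h i => by
    obtain ⟨r, hr⟩ := ev x hx
    have h1 := fr2_card h
    have h2 := le4 x
    exact mem_supp.1 (Finset.eq_univ_of_card _ (by omega : (supp x).card = Fintype.card ι) ▸
      Finset.mem_univ i)
  obtain ⟨k, i, j, hij, hi, hj⟩ := exists_two_FR hg'
  have hx : B (g (ee F k)) (g (ee F k)) = 1 := by rw [(hG hg).1, S.B_ee, S.z1]; simp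
  have hv : ∀ u, B (g (ee F k)) u = 0 → B u u = 0 → AS B H u := fun u h1 h2 => by
    obtain ⟨v, rfl⟩ := g.surjective u
    rw [(hG hg).1] at h1 h2
    refine (A2 v h2 (by_contra fun h => full v h2 h k ?_)).conj hg (hG hg).1
    simpa [S.B_ee, S.z0] using h1
  generalize g (ee F k) = x at hi hj hx hv
  obtain ⟨l, hl⟩ : ∃ l, l ≠ i ∧ l ≠ j ∧ x l ≠ 0 := by
    by_contra h
    push Not at h
    have e : supp x = {i, j} := by
      ext m
      simp only [mem_supp, Finset.mem_insert, Finset.mem_singleton]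
      exact ⟨fun hm => by_contra fun h' => hm (h m (fun e => h' (Or.inl e)) fun e => h' (Or.inr e)),
        by rintro (rfl | rfl) <;> assumption⟩
    rw [S.B_self, e, Finset.card_pair hij] at hx
    exact one_ne_zero (α := F) (by rw [← hx]; exact_mod_cast two)
  obtain ⟨m, hm⟩ : ∃ m, x m = 0 := by
    by_contra h
    push Not at h
    rw [S.B_self, Finset.eq_univ_of_forall fun m => mem_supp.2 (h m), Finset.card_univ, h4] at hx
    exact one_ne_zero (α := F) (by rw [← hx]; push_cast; linear_combination 2 * two)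
  have mi : m ≠ i := by rintro rfl; exact hi hm
  have mj : m ≠ j := by rintro rfl; exact hj hm
  have ml : m ≠ l := by rintro rfl; exact hl.2.2 hm
  obtain ⟨w, w1, w2⟩ := S.qf.exists_omega
  obtain ⟨u, hu⟩ : ∃ u, u = x i • ee F i + (w * x j) • ee F j + (σ w * x l) • ee F l + ee F m :=
    ⟨_, rfl⟩
  have u0 : ∀ r, u r ≠ 0 := fun r => by
    have : r ∈ ({i, j, l, m} : Finset ι) := by
      rw [Finset.eq_univ_of_card {i, j, l, m}]
      · exact Finset.mem_univ r
      rw [h4]
      exact Finset.card_eq_four.2 ⟨i, j, l, m, hij, hl.1.symm, mi.symm, hl.2.1.symm, mj.symm,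
        ml.symm, rfl⟩
    simp only [Finset.mem_insert, Finset.mem_singleton] at this
    rcases this with rfl | rfl | rfl | rfl
    · simpa [hu, hij, hl.1.symm, mi.symm] using hi
    · simpa [hu, hij.symm, hl.2.1.symm, mj.symm, ne_zero_of_mu w1] using hj
    · simpa [hu, hl.1, hl.2.1, ml.symm, ne_zero_of_mu w1] using hl.2.2
    · simp [hu, mi, mj, ml]
  have au := hv u (by
    simp only [hu, map_add, map_smul, S.B_ee', S.z1, hm, map_zero, smul_eq_mul]
    linear_combination S.qf.norm1 hi + w * S.qf.norm1 hj + σ w * S.qf.norm1 hl.2.2 + w2 + two) (by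
    rw [S.B_self, Finset.eq_univ_of_forall fun m => mem_supp.2 (u0 m), Finset.card_univ, h4]
    push_cast; linear_combination 2 * two)
  refine S.sk.gen H fun y hy => And.right (?_ : AS B H y)
  by_cases h : Two y
  · exact A2 y hy h
  have y0 := full y hy h
  have p0 : ∏ r, y r / u r ≠ 0 := Finset.prod_ne_zero_iff.2 fun r _ => div_ne_zero (y0 r) (u0 r)
  obtain ⟨d, d1, d2, d3⟩ := S.exists_diag (fun r => (∏ r, y r / u r)⁻¹ * (y r / u r)) fun r => by
    rw [mul_comm]; exact S.qf.norm1 (mul_ne_zero (inv_ne_zero p0) (div_ne_zero (y0 r) (u0 r)))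
  have h5 := au.conj (hH ⟨d1.1, d1.2, mem_SLV.2 (by
    have := FiniteField.pow_card_sub_one_eq_one _ (inv_ne_zero p0)
    rw [S.qf.cF] at this
    rw [d2, Finset.prod_mul_distrib, Finset.prod_const, Finset.card_univ, h4, pow_succ,
      mul_assoc, inv_mul_cancel₀ p0, mul_one]
    exact this)⟩) d1.2
  refine S.sk.as_of_smul (inv_ne_zero p0) ?_
  convert h5 using 1
  funext r
  rw [d3, mul_assoc, div_mul_cancel₀ _ (u0 r)]; rfl

end Cfsg.Agent.K4
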