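import Cfsg.Agent.K4.SUfrO
import Cfsg.Agent.K4.SUfr2
import Cfsg.Agent.K4.FrS

/-! The stabiliser of an orthogonal frame is maximal in `SU₄(q)`, `q ≠ 3`. -/

set_option autoImplicit false
set_option linter.unusedSectionVars false
set_option linter.unusedSimpArgs false
set_option linter.unusedVariables false

namespace Cfsg.Agent.K4

open Module Cfsg.Agent.H27 Cfsg.Agent.H98 Cfsg.Geo

section

variable {F : Type*} [Field F] [Fintype F] {σ : F →+* F} {q : ℕ}
variable {ι : Type*} [Fintype ι] [DecidableEq ι]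
variable {B : (ι → F) →ₛₗ[σ] (ι → F) →ₗ[F] F} {ζ : F} {H : Subgroup ((ι → F) ≃ₗ[F] (ι → F))}

theorem fr_le_FR (S : UF B ζ q) (h4 : Fintype.card ι = 4) (hq : 4 ≤ q) (P : PH B H)
    {g : (ι → F) ≃ₗ[F] (ι → F)} (hg : g ∈ H) : g ∈ FR F ι := by
  have Q := S.qf
  obtain ⟨a, a1, a4, a3⟩ : ∃ a : F, a * σ a = 1 ∧ a ^ 4 ≠ 1 ∧ a * a + a + 1 ≠ 0 := by
    by_cases two : (2 : F) = 0
    · obtain ⟨a, a1, a2⟩ := fr_exists_pow Q (n := 3) (by omega) (by omega)
      refine ⟨a, a1, fun h => a2 ?_, fun h => a2 (by linear_combination (a - 1) * h)⟩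
      have : (a - 1) ^ 4 = 0 := by
        linear_combination h + (-2 * a ^ 3 + 3 * a ^ 2 - 2 * a + 1) * two
      rw [sub_eq_zero.1 (pow_eq_zero_iff (by norm_num) |>.1 this), one_pow]
    obtain ⟨a, a1, a2⟩ := fr_exists_pow Q (n := 4) (by omega) hq
    by_cases h : a * a + a + 1 = 0
    · exact ⟨-a, by simpa using a1, fun h' => a2 (by linear_combination h'), fun h' =>
        mul_ne_zero two (ne_zero_of_mu a1) (by linear_combination h - h')⟩
    · exact ⟨a, a1, a2, h⟩
  have a0 := ne_zero_of_mu a1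
  have P' : P4 H (Pi.basisFun F ι) a := by
    refine ⟨h4, a0, a4, a3, fun n hn => ?_, fun h hh i j e => P.part h hh i j fun m hm => ?_⟩
    · obtain ⟨d, d1, d2, d3⟩ := S.exists_diag (fun i => a ^ n i) fun i => by
        rw [map_zpow₀, ← mul_zpow, a1, one_zpow]
      refine ⟨d, P.le ⟨d1.1, d1.2, mem_SLV.2 ?_⟩, by simpa only [bf_coord] using d3⟩
      have : ∀ s : Finset ι, ∏ i ∈ s, a ^ n i = a ^ ∑ i ∈ s, n i := fun s => by
        induction s using Finset.induction_on with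
        | empty => simp
        | insert i s hi ih => rw [Finset.prod_insert hi, Finset.sum_insert hi, ih, zpow_add₀ a0]
      rw [d2, this, hn, zpow_zero]
    · obtain ⟨c, hc⟩ := mem_frame.1 e
      rw [← bf_eq, ← hc, bf_eq]; simp [hm]
  have hS : ∀ g ∈ H, g ∉ FR F ι → ∀ i k, g (ee F k) i ≠ 0 := fun g hg hg' i k => by
    simpa only [bf_coord, bf_eq] using P'.ne_zero hg hg' i k
  by_cases two : (2 : F) = 0
  · exact su_fr_even S two hq h4 P.le P.gg hS hg
  by_cases h7 : q = 7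
  · subst h7
    exact su_fr_seven S h4 P.le P.gg hS hg
  obtain ⟨b, b1, b8⟩ : ∃ b : F, b * σ b = 1 ∧ b ^ 8 ≠ 1 := by
    by_cases h8 : 8 ≤ q
    · exact fr_exists_pow Q (by omega) h8
    have h0 := fr_cast Q
    have h1 := fr_mu_pow Q a1
    have : q = 4 ∨ q = 5 ∨ q = 6 := by omega
    rcases this with rfl | rfl | rfl
    · exact absurd (by push_cast at h0; linear_combination h0) (mul_ne_zero two two)
    · exact ⟨a, a1, fun h => a4 (by
        linear_combination (a ^ 2 + 1) * h - a ^ 2 * (a ^ 2 + 1) * h1)⟩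
    · exact ⟨a, a1, fun h => a4 (by
        rw [show a = 1 by linear_combination h - a * h1, one_pow])⟩
  exact su_fr_odd S two h4 P.le P.gg hS b1 (fun h => b8 (by
    linear_combination (b ^ 4 + 1) * h)) b8 hg

theorem isMaximalIn_FR4 (S : UF B ζ q) (h4 : Fintype.card ι = 4) (hq3 : q ≠ 3) :
    IsMaximalIn (GG B) (FR F ι ⊓ GG B) := by
  have : Nontrivial ι := Fintype.one_lt_card_iff_nontrivial.1 (by omega)
  refine isMaximalIn_of inf_le_right ?_ fun M hM hM' g hg hg' => ?_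
  · obtain ⟨i, -⟩ := exists_not_mem_list (ι := ι) [] (by simp; omega)
    obtain ⟨j, h1⟩ := exists_not_mem_list [i] (by simp; omega)
    obtain ⟨k, h2⟩ := exists_not_mem_list [i, j] (by simp; omega)
    obtain ⟨l, h3⟩ := exists_not_mem_list [i, j, k] (by simp; omega)
    simp only [List.mem_cons, List.not_mem_nil, or_false, not_or] at h1 h2 h3
    obtain ⟨s, hs⟩ := exists_norm_eq S.uh.ne S.qf.inv (t := -1) (by simp)
    have s0 : s ≠ 0 := by rintro rfl; simp at hs
    obtain ⟨g, hg, hgf⟩ := S.sk.exists_tvS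
      (v := (1 : F) • ee F i + s • ee F j + ((1 : F) • ee F k + s • ee F l)) (by
        rw [S.B_split (Ne.symm h1) (by simp [Ne.symm h2.1, Ne.symm h3.1])
          (by simp [Ne.symm h2.2, Ne.symm h3.2.1]), S.B_two_two (Ne.symm h3.2.2), hs]
        simp) (map_one σ)
    refine ⟨g, hg, fun h => ?_⟩
    obtain ⟨π, hπ⟩ := exists_of_mem_FR h.1
    obtain ⟨c, -, hc⟩ := hπ i
    rw [hgf, one_smul, S.B_ee'] at hc
    by_cases e : k = π i
    · simpa [← e, h1, Ne.symm h1, Ne.symm h2.1, Ne.symm h3.1, Ne.symm h2.2, Ne.symm h3.2.1, S.z0,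
        s0] using congrFun hc j
    · simpa [e, Ne.symm h1, h2.1, h2.2, Ne.symm h2.1, Ne.symm h3.1, Ne.symm h3.2.2, S.z0]
        using congrFun hc k
  have hg'' : g ∉ FR F ι := fun h => hg' ⟨h, hM' hg⟩
  by_cases h2 : q = 2
  · subst h2
    exact su_fr_two S h4 hM hM' hg hg''
  have hq : 4 ≤ q := by have := S.qf.two_le; omega
  by_contra hc
  exact hg'' (fr_le_FR S h4 hq ⟨hM, hM', fun h hh i j e => by_contra fun h' =>
    hc (S.GG_le_of_fix (by omega) (by omega) hM hM' hh h' e)⟩ hg)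

theorem isMaximalIn_frame4 (S : UF B ζ q) (h4 : Fintype.card ι = 4) (hq3 : q ≠ 3)
    (b : Basis ι F (ι → F)) (hb : ∀ i j, B (b i) (b j) = if i = j then ζ else 0) :
    IsMaximalIn (GG B) (dstab (frame b) ⊓ GG B) := by
  let e : (ι → F) ≃ₗ[F] (ι → F) := b.equivFun
  have he : ∀ i, e (b i) = ee F i := fun i => funext fun j => by
    simp [e, H98.ee_apply, Finsupp.single_apply, eq_comm]
  have he' : ∀ i, e⁻¹ (ee F i) = b i := fun i => by rw [← he, le_inv_apply]
  have hI : e ∈ Iso B := fun x y => by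
    have h1 : ∀ i, B (b i) = B (ee F i) ∘ₗ (e : (ι → F) →ₗ[F] (ι → F)) := fun i =>
      b.ext fun j => by
        rw [hb, LinearMap.comp_apply, LinearEquiv.coe_coe, he, S.B_ee, H98.ee_apply]
        simp [eq_comm]
    nth_rw 2 [← b.sum_repr x]
    rw [S.hB, map_sum, LinearMap.sum_apply, Finset.mul_sum]
    refine Finset.sum_congr rfl fun i _ => ?_
    rw [LinearMap.map_smulₛₗ, LinearMap.smul_apply, h1, LinearMap.comp_apply, S.B_ee, smul_eq_mul,
      mul_left_comm]
    rfl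
  have h := isMaximalIn_comap (MulAut.conj e) (isMaximalIn_FR4 S h4 hq3)
  have h1 : (GG B).comap (MulAut.conj e : _ →* _) = GG B := by
    ext g
    change e * g * e⁻¹ ∈ Iso B ⊓ SLV F _ ↔ g ∈ Iso B ⊓ SLV F _
    rw [Subgroup.mem_inf, Subgroup.mem_inf, (Iso B).mul_mem_cancel_right ((Iso B).inv_mem hI),
      (Iso B).mul_mem_cancel_left hI]
    exact and_congr_right' ((MonoidHom.normal_ker _).mem_comm_iff.trans (by simp [SLV]))
  have h2 : (FR F ι).comap (MulAut.conj e : _ →* _) = dstab (frame b) := by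
    ext g
    change e * g * e⁻¹ ∈ FR F ι ↔ _
    constructor
    · intro h
      obtain ⟨π, hπ⟩ := exists_of_mem_FR h
      refine mem_dstab_frame fun i => ⟨π i, ?_⟩
      obtain ⟨c, -, hc⟩ := hπ i
      rw [le_mul_apply, le_mul_apply, he', ← he, ← map_smul] at hc
      exact mem_frame.2 ⟨c, (e.injective hc).symm⟩
    · intro h
      obtain ⟨π, hπ⟩ := exists_of_mem_dstab_frame h
      refine mem_FR fun i => ⟨π i, fun m hm => ?_⟩
      obtain ⟨c, -, hc⟩ := hπ i
      rw [le_mul_apply, le_mul_apply, he', hc, map_smul, he]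
      simp [hm]
  rwa [Subgroup.comap_inf, h1, h2] at h

end

open H10 in
theorem su_frame4 {F : Type*} [Field F] [Fintype F] (q : ℕ) (hF : Fintype.card F = q ^ 2) :
    q ≠ 3 → ∀ D : Fin 4 → Submodule F (Fin 4 → F), Cfsg.Geo.IsNondegenerateMDecomposition (Cfsg.hermForm 4 F q) 1 D → Cfsg.Geo.IsMaximalIn (Cfsg.GU 4 F q ⊓ Cfsg.Geo.specialLinear (Fin 4) F) (Cfsg.Geo.decompositionStabilizer D ⊓ (Cfsg.GU 4 F q ⊓ Cfsg.Geo.specialLinear (Fin 4) F)) := by
  intro hq D hD
  have : Fact (Fintype.card F = q ^ 2) := ⟨hF⟩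
  obtain ⟨ζ, h0, hζ⟩ := H10.exists_skew F q
  have S : UF (suB 4 q ζ) ζ q := ⟨uH_su (by omega) h0 hζ, qf_cj, h0, fun x y => by
    simp only [suB_apply, Cfsg.hermForm, H10.cj_apply, mul_comm]⟩
  obtain ⟨d⟩ := exists_dec hD.decomp.indep hD.decomp.iSup_eq_top
  obtain ⟨b, rfl⟩ := exists_basis_frame d hD.decomp.finrank_eq
  have h1 : ∀ i, suB 4 q ζ (b i) (b i) ≠ 0 := fun i h => by
    obtain ⟨y, hy, hy'⟩ := (hD.nondegenerate i _ (self_mem_frame b i) (b.ne_zero i)).1
    obtain ⟨c, rfl⟩ := mem_frame.1 hy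
    exact hy' ((suB_eq_zero h0).1 (by simp [h]))
  choose c hc using fun i => S.uh.exists_scale (h1 i) hζ
  have c0 : ∀ i, c i ≠ 0 := fun i h => h0 (by rw [← hc i, h]; simp)
  have := isMaximalIn_comap (toLE (Fin 4) F) (isMaximalIn_frame4 S (by simp) hq
    (b.unitsSMul fun i => Units.mk0 _ (c0 i)) fun i j => by
      simp only [Basis.unitsSMul_apply, Units.smul_def, Units.val_mk0]
      split_ifs with h
      · rw [← h, hc]
      · have := (suB_eq_zero h0).2
          (hD.orthogonal j i (Ne.symm h) _ (self_mem_frame b j) _ (self_mem_frame b i))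
        simp [this])
  rwa [frame_unitsSMul, Subgroup.comap_inf, comap_GG_su h0, comap_dstab] at this

end Cfsg.Agent.K4
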