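import Cfsg.Agent.K4.Defs

/-! Orthonormal frames in `SU₄(q)`: even `q` and `q = 7`. -/

set_option autoImplicit false
set_option linter.unusedSectionVars false
set_option linter.unusedSimpArgs false
set_option linter.unusedVariables false

namespace Cfsg.Agent.K4

open Module Cfsg.Agent.H27 Cfsg.Agent.H98

variable {F : Type*} [Field F] [Fintype F] {σ : F →+* F} {q : ℕ}
variable {ι : Type*} [Fintype ι] [DecidableEq ι]
variable {B : (ι → F) →ₛₗ[σ] (ι → F) →ₗ[F] F} {ζ : F} {H : Subgroup ((ι → F) ≃ₗ[F] (ι → F))}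

theorem fr_mu_pow (Q : QF σ q) {a : F} (h : a * σ a = 1) : a ^ (q + 1) = 1 := by
  classical
  have h1 : ∏ x ∈ Finset.univ.filter fun x : F => x * σ x = 1, a * x =
      ∏ x ∈ Finset.univ.filter fun x : F => x * σ x = 1, x :=
    Finset.prod_nbij' (a * ·) (σ a * ·)
      (fun x hx => by
        simp only [Finset.mem_filter, Finset.mem_univ, true_and, map_mul] at hx ⊢
        linear_combination x * σ x * h + hx)
      (fun x hx => by
        simp only [Finset.mem_filter, Finset.mem_univ, true_and, map_mul, Q.inv] at hx ⊢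
        linear_combination x * σ x * h + hx)
      (fun x _ => by linear_combination x * h) (fun x _ => by linear_combination x * h)
      fun _ _ => rfl
  rw [Finset.prod_mul_distrib, Finset.prod_const, Q.cm'] at h1
  exact mul_right_cancel₀ (Finset.prod_ne_zero_iff.2 fun x hx =>
    ne_zero_of_mu (Finset.mem_filter.1 hx).2) (h1.trans (one_mul _).symm)

theorem fr_cast (Q : QF σ q) : (q : F) = 0 := by
  have := FiniteField.cast_card_eq_zero F
  rw [Q.cF] at this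
  simpa using this

theorem fr_exists_pow (Q : QF σ q) {n : ℕ} (h0 : 0 < n) (h : n ≤ q) :
    ∃ a : F, a * σ a = 1 ∧ a ^ n ≠ 1 := by
  obtain ⟨a, h1, h2⟩ := Q.exists_mu (Polynomial.nthRoots n (1 : F)).toList (by
    rw [Multiset.length_toList]; exact (Polynomial.card_nthRoots n 1).trans h)
  exact ⟨a, h1, fun e => h2 (by rw [Multiset.mem_toList, Polynomial.mem_nthRoots h0]; exact e)⟩

theorem fr_entry (S : UF B ζ q) {g d : (ι → F) ≃ₗ[F] (ι → F)} (hg : g ∈ Iso B) {t : ι → F}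
    (hd : ∀ x i, d x i = t i * x i) (k : ι) :
    (g⁻¹ * d * g) (ee F k) k = ∑ i, σ (g (ee F k) i) * g (ee F k) i * t i := by
  refine mul_left_cancel₀ S.z0 ?_
  rw [← S.B_ee, ← hg, le_mul_apply, le_mul_apply, le_apply_inv, S.hB]
  congr 1
  exact Finset.sum_congr rfl fun i _ => by rw [hd]; ring

theorem fr_sum (S : UF B ζ q) {g : (ι → F) ≃ₗ[F] (ι → F)} (hg : g ∈ Iso B) (k : ι) :
    ∑ i, σ (g (ee F k) i) * g (ee F k) i = 1 :=
  mul_left_cancel₀ S.z0 (by rw [← S.hB, hg, S.B_ee]; simp)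

theorem fr_sum4 (e : Fin 4 ≃ ι) (f : ι → F) : ∑ i, f i = f (e 0) + f (e 1) + f (e 2) + f (e 3) := by
  rw [← e.sum_comp, Fin.sum_univ_four]

theorem fr_rank_one (S : UF B ζ q) (h4 : Fintype.card ι = 4) (hH : FR F ι ⊓ GG B ≤ H)
    (hG : H ≤ GG B) {g : (ι → F) ≃ₗ[F] (ι → F)} (hg : g ∈ H) (k : ι)
    (h0 : ∀ i, g (ee F k) i ≠ 0) {a : F} (ha : a * σ a = 1) (a4 : a ^ 4 ≠ 1) :
    ∃ G ∈ H, G ∉ FR F ι ∧ ∀ i j, G (ee F j) i =
      a * (ee F j i + (σ a ^ 4 - 1) * σ (g (ee F k) j) * g (ee F k) i) := by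
  have z0 := S.z0
  obtain ⟨d, d1, d2, d3⟩ := S.exists_diag (Function.update (fun _ => a) k (σ a ^ 3)) fun i => by
    by_cases h : i = k
    · simp only [h, Function.update_self, map_pow, S.qf.inv, ← mul_pow, mul_comm (σ a), ha, one_pow]
    · simp [h, ha]
  have dH : d ∈ H := hH ⟨d1.1, d1.2, mem_SLV.2 (by
    rw [d2, Finset.prod_update_of_mem (Finset.mem_univ _), Finset.prod_const,
      Finset.card_univ_sdiff, h4, Finset.card_singleton, ← mul_pow, mul_comm, ha, one_pow])⟩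
  have hd : ∀ x, d x = a • x + ((σ a ^ 3 - a) * x k) • ee F k := fun x => funext fun i => by
    rw [d3]
    by_cases h : i = k
    · simp [h]; ring
    · simp [h]
  have hf : ∀ i j, (g * d * g⁻¹) (ee F j) i =
      a * (ee F j i + (σ a ^ 4 - 1) * σ (g (ee F k) j) * g (ee F k) i) := fun i j => by
    have h1 : g⁻¹ (ee F j) k = σ (g (ee F k) j) := mul_left_cancel₀ z0 (by
      rw [← S.B_ee, ← (hG hg).1, le_apply_inv, S.B_ee'])
    rw [le_mul_apply, le_mul_apply, hd, map_add, map_smul, map_smul, le_apply_inv, h1]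
    simp only [Pi.add_apply, Pi.smul_apply, smul_eq_mul]
    linear_combination (-σ a ^ 3 * σ (g (ee F k) j) * g (ee F k) i) * ha
  refine ⟨_, H.mul_mem (H.mul_mem hg dH) (H.inv_mem hg), fun h => ?_, hf⟩
  obtain ⟨π, hπ⟩ := exists_of_mem_FR h
  obtain ⟨c, -, hc⟩ := hπ k
  obtain ⟨i, hi⟩ := exists_not_mem_list [k, π k] (by simp [h4])
  simp only [List.mem_cons, List.not_mem_nil, or_false, not_or] at hi
  have := congrFun hc i
  rw [hf] at this
  simp [hi.1, hi.2, h0, ne_zero_of_mu ha, sub_eq_zero] at this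
  exact a4 (by rw [← S.qf.inv a, map_pow σ (σ a) 4 |>.symm, this, map_one])

theorem su_fr_even (S : UF B ζ q) (two : (2 : F) = 0) (hq : 4 ≤ q) (h4 : Fintype.card ι = 4)
    (hH : FR F ι ⊓ GG B ≤ H) (hG : H ≤ GG B)
    (hS : ∀ g ∈ H, g ∉ FR F ι → ∀ i k, g (ee F k) i ≠ 0) {g : (ι → F) ≃ₗ[F] (ι → F)}
    (hg : g ∈ H) : g ∈ FR F ι := by
  classical
  by_contra hg'
  have Q := S.qf
  obtain ⟨e⟩ : Nonempty (Fin 4 ≃ ι) := ⟨(Fintype.equivFinOfCardEq h4).symm⟩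
  have g0 := hS g hg hg'
  have hs := fr_sum S (hG hg).1 (e 0)
  rw [fr_sum4 e] at hs
  set n : Fin 4 → F := fun r => σ (g (ee F (e 0)) (e r)) * g (ee F (e 0)) (e r) with hn
  have n0 : ∀ r, n r ≠ 0 := fun r => norm_eq_zero.not.2 (g0 _ _)
  have n1 : ∀ r, σ (n r) = n r := fun r => Q.norm_fix _
  change n 0 + n 1 + n 2 + n 3 = 1 at hs
  have sq1 : ∀ x : F, x * x = 1 → x = 1 := fun x h => by
    have : (x - 1) ^ 2 = 0 := by linear_combination h + (1 - x) * two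
    exact sub_eq_zero.1 (pow_eq_zero_iff two_ne_zero |>.1 this)
  obtain ⟨α, β, L⟩ : ∃ α β : ι → F, ∀ θ θ' : F, θ * σ θ = 1 → θ' * σ θ' = 1 →
      n 0 ^ 2 + n 1 ^ 2 + n 0 * n 1 * (θ + σ θ) = n 2 ^ 2 + n 3 ^ 2 + n 2 * n 3 * (θ' + σ θ') →
      ∃ l, l ≠ e 0 ∧ θ = α l ∧ θ' = β l := by
    refine ⟨fun l => g (ee F l) (e 1) * g (ee F (e 0)) (e 0) /
      (g (ee F l) (e 0) * g (ee F (e 0)) (e 1)), fun l => g (ee F l) (e 3) * g (ee F (e 0)) (e 2) /
      (g (ee F l) (e 2) * g (ee F (e 0)) (e 3)), fun θ θ' h1 h2 h3 => ?_⟩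
    obtain ⟨η, h5, h6⟩ := Q.exists_rot (x := n 2 + θ' * n 3) (y := n 0 + θ * n 1) (by
      simp only [map_add, map_mul, n1]
      linear_combination n 3 ^ 2 * h2 - n 1 ^ 2 * h1 - h3)
    have h7 : (θ * η * η * θ') * σ (θ * η * η * θ') = 1 := by
      simp only [map_mul]
      linear_combination (η * σ η) ^ 2 * θ' * σ θ' * h1 + θ' * σ θ' * (η * σ η + 1) * h5 + h2
    obtain ⟨c', hc'⟩ := exists_sq_eq_of_two_eq_zero two (σ (θ * η * η * θ'))
    obtain ⟨c, rfl⟩ := exists_sq_eq_of_two_eq_zero two c'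
    have h8 : c * σ c = 1 := sq1 _ (sq1 _ (by
      have := congrArg σ hc'
      rw [Q.inv] at this
      simp only [map_pow, map_mul] at this hc' h7
      linear_combination -σ c ^ 4 * hc' - σ θ * σ η * σ η * σ θ' * this + h7))
    obtain ⟨d, d1, d2, d3⟩ := S.exists_diag (fun i => c * ![1, θ, η, η * θ'] (e.symm i)) fun i => by
      obtain ⟨r, rfl⟩ := e.surjective i
      fin_cases r <;> simp
      · exact h8
      · linear_combination θ * σ θ * h8 + h1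
      · linear_combination η * σ η * h8 + h5
      · linear_combination η * σ η * θ' * σ θ' * h8 + θ' * σ θ' * h5 + h2
    have dH : d ∈ H := hH ⟨d1.1, d1.2, mem_SLV.2 (by
      rw [d2, ← e.prod_comp, Fin.prod_univ_four]
      simp
      linear_combination -θ * η * η * θ' * hc' + h7)⟩
    have y0 : (g⁻¹ * d * g) (ee F (e 0)) (e 0) = 0 := by
      rw [fr_entry S (hG hg).1 d3, fr_sum4 e]
      change n 0 * _ + n 1 * _ + n 2 * _ + n 3 * _ = 0
      simp
      linear_combination c * h6 + c * η * (n 2 + θ' * n 3) * two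
    obtain ⟨π, hπ⟩ := exists_of_mem_FR (by_contra fun h =>
      hS _ (H.mul_mem (H.mul_mem (H.inv_mem hg) dH) hg) h _ _ y0)
    obtain ⟨s, s0, hs⟩ := hπ (e 0)
    have k : ∀ r, c * ![1, θ, η, η * θ'] r * g (ee F (e 0)) (e r) =
        s * g (ee F (π (e 0))) (e r) := fun r => by
      have := congrFun (congrArg g hs) (e r)
      rwa [le_mul_apply, le_mul_apply, le_apply_inv, d3, map_smul, e.symm_apply_apply] at this
    refine ⟨π (e 0), fun h => s0 (by simpa [hs, h] using y0), ?_, ?_⟩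
    · rw [eq_div_iff (mul_ne_zero (g0 _ _) (g0 _ _))]
      have k0 := k 0
      have k1 := k 1
      simp at k0 k1
      exact mul_left_cancel₀ (ne_zero_of_mu h8) (by
        linear_combination g (ee F (π (e 0))) (e 0) * k1 - g (ee F (π (e 0))) (e 1) * k0)
    · rw [eq_div_iff (mul_ne_zero (g0 _ _) (g0 _ _))]
      have k2 := k 2
      have k3 := k 3
      simp at k2 k3
      exact mul_left_cancel₀ (mul_ne_zero (ne_zero_of_mu h8) (ne_zero_of_mu h5)) (by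
        linear_combination g (ee F (π (e 0))) (e 2) * k3 - g (ee F (π (e 0))) (e 3) * k2)
  obtain ⟨r, hr⟩ : Even q := by
    by_contra h
    exact one_ne_zero (α := F) (by rw [← cast_of_odd two (Nat.not_even_iff_odd.1 h), fr_cast Q])
  set U := Finset.univ.filter fun x : F => x * σ x = 1 with hU
  have hA : ∀ x y : F, y ≠ 0 → q + 1 ≤ 2 * (U.image fun θ => x + y * (θ + σ θ)).card :=
    fun x y y0 => by
      rw [← Q.cm']
      refine Finset.card_le_mul_card_image U 2 fun s _ => ?_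
      by_contra h
      obtain ⟨a, ha, b, hb, c, hc, hab, hac, hbc⟩ := Finset.two_lt_card.1 (not_le.1 h)
      simp only [hU, Finset.mem_filter, Finset.mem_univ, true_and] at ha hb hc
      have f1 : y * (a + b) + (x - s) = 0 := mul_left_cancel₀ (sub_ne_zero.2 hab) (by
        linear_combination a * ha.2 - b * hb.2 - y * ha.1 + y * hb.1)
      have f2 : y * (a + c) + (x - s) = 0 := mul_left_cancel₀ (sub_ne_zero.2 hac) (by
        linear_combination a * ha.2 - c * hc.2 - y * ha.1 + y * hc.1)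
      exact mul_ne_zero y0 (sub_ne_zero.2 hbc) (by linear_combination f1 - f2)
  have a1 := hA (n 0 ^ 2 + n 1 ^ 2) _ (mul_ne_zero (n0 0) (n0 1))
  have a2 := hA (n 2 ^ 2 + n 3 ^ 2) _ (mul_ne_zero (n0 2) (n0 3))
  have a3 := Finset.card_union_add_card_inter
    (U.image fun θ => n 0 ^ 2 + n 1 ^ 2 + n 0 * n 1 * (θ + σ θ))
    (U.image fun θ => n 2 ^ 2 + n 3 ^ 2 + n 2 * n 3 * (θ + σ θ))
  have a4 := Finset.card_le_card (show U.image (fun θ => n 0 ^ 2 + n 1 ^ 2 + n 0 * n 1 * (θ + σ θ))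
    ∪ U.image (fun θ => n 2 ^ 2 + n 3 ^ 2 + n 2 * n 3 * (θ + σ θ)) ⊆
      Finset.univ.filter fun x : F => σ x = x from fun z hz => by
    rcases Finset.mem_union.1 hz with hz | hz <;>
    · obtain ⟨θ, -, rfl⟩ := Finset.mem_image.1 hz
      simp [n1, Q.inv, add_comm])
  rw [Q.cf'] at a4
  obtain ⟨s, hs1, s', hs2, ss⟩ := Finset.one_lt_card.1 (show 1 < (U.image (fun θ =>
    n 0 ^ 2 + n 1 ^ 2 + n 0 * n 1 * (θ + σ θ)) ∩ U.image (fun θ =>
      n 2 ^ 2 + n 3 ^ 2 + n 2 * n 3 * (θ + σ θ))).card by omega)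
  simp only [Finset.mem_inter, Finset.mem_image, hU, Finset.mem_filter, Finset.mem_univ,
    true_and] at hs1 hs2
  obtain ⟨⟨θ, t1, rfl⟩, θ', t2, t3⟩ := hs1
  obtain ⟨⟨φ, p1, rfl⟩, φ', p2, p3⟩ := hs2
  have pair : ∀ θ θ' : F, θ * σ θ = 1 → θ' * σ θ' = 1 →
      n 2 ^ 2 + n 3 ^ 2 + n 2 * n 3 * (θ' + σ θ') = n 0 ^ 2 + n 1 ^ 2 + n 0 * n 1 * (θ + σ θ) →
      ∃ l l', l ≠ e 0 ∧ l' ≠ e 0 ∧ l ≠ l' ∧ α l + σ (α l) = θ + σ θ ∧
        α l' + σ (α l') = θ + σ θ := fun θ θ' h1 h2 h3 => by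
    obtain ⟨l, b1, b2, b3⟩ := L θ θ' h1 h2 h3.symm
    obtain ⟨l', c1, c2, c3⟩ := L (σ θ) (σ θ') (Q.mu_conj h1) (Q.mu_conj h2) (by
      rw [Q.inv, Q.inv]; linear_combination -h3)
    refine ⟨l, l', b1, c1, ?_, by rw [b2], by rw [← c2, Q.inv, add_comm]⟩
    rintro rfl
    obtain rfl : θ = 1 := sq1 _ (by rw [← h1, c2, ← b2])
    obtain rfl : θ' = 1 := sq1 _ (by rw [← h2, c3, ← b3])
    rw [map_one] at h3
    exact one_ne_zero (α := F) (by
      linear_combination -(n 0 + n 1 + n 2 + n 3 + 1) * hs + h3 + (n 0 ^ 2 + n 1 ^ 2 +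
        2 * n 0 * n 1 + n 0 * n 2 + n 0 * n 3 + n 1 * n 2 + n 1 * n 3) * two)
  obtain ⟨l1, l2, b1, b2, b3, b4, b5⟩ := pair θ θ' t1 t2 t3
  obtain ⟨l3, l4, c1, c2, c3, c4, c5⟩ := pair φ φ' p1 p2 p3
  have ne : ∀ l l', α l + σ (α l) = θ + σ θ → α l' + σ (α l') = φ + σ φ → l ≠ l' := by
    rintro l _ h1 h2 rfl
    exact ss (by rw [← h1, h2])
  have := List.Nodup.length_le_card (l := [l1, l2, l3, l4, e 0]) (by
    simp [b1, b2, b3, c1, c2, c3, ne _ _ b4 c4, ne _ _ b4 c5, ne _ _ b5 c4, ne _ _ b5 c5])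
  simp [h4] at this

theorem fr7_k1 : ∀ x : ZMod 7, x ≠ 0 ∧ x ≠ 4 ∧ (1 - 2 * x) ^ 2 ≠ 4 → x = 1 ∨ x = 2 ∨ x = 6 := by
  decide

theorem fr7_k2 : ∀ x y z w : ZMod 7, (x = 1 ∨ x = 2 ∨ x = 6) → (y = 1 ∨ y = 2 ∨ y = 6) →
    (z = 1 ∨ z = 2 ∨ z = 6) → (w = 1 ∨ w = 2 ∨ w = 6) → x * y ≠ 1 → x * z ≠ 1 → x * w ≠ 1 →
    y * z ≠ 1 → y * w ≠ 1 → z * w ≠ 1 → x + y + z + w = 1 → x = 2 ∧ y = 2 ∧ z = 2 ∧ w = 2 := by
  rintro x y z w (rfl | rfl | rfl) (rfl | rfl | rfl) (rfl | rfl | rfl) (rfl | rfl | rfl) <;> decide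

theorem su_fr_seven (S : UF B ζ 7) (h4 : Fintype.card ι = 4)
    (hH : FR F ι ⊓ GG B ≤ H) (hG : H ≤ GG B)
    (hS : ∀ g ∈ H, g ∉ FR F ι → ∀ i k, g (ee F k) i ≠ 0) {g : (ι → F) ≃ₗ[F] (ι → F)}
    (hg : g ∈ H) : g ∈ FR F ι := by
  classical
  by_contra hg'
  have Q := S.qf
  have h7 : (7 : F) = 0 := by exact_mod_cast fr_cast Q
  have : Fact (Nat.Prime 7) := ⟨by norm_num⟩
  have : CharP F 7 := (CharP.charP_iff_prime_eq_zero this.out).2 (fr_cast Q)
  let φ := ZMod.castHom (dvd_refl 7) F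
  have hφ : ∀ x, σ x = x → ∃ m, φ m = x := fun x hx => by
    have h1 : Finset.univ.image φ = Finset.univ.filter fun x : F => σ x = x :=
      Finset.eq_of_subset_of_card_le (fun z hz => by
        obtain ⟨m, -, rfl⟩ := Finset.mem_image.1 hz
        simpa using RingHom.congr_fun (Subsingleton.elim (σ.comp φ) φ) m) (by
        rw [Q.cf', Finset.card_image_of_injective _ φ.injective]; simp)
    simpa using (h1.ge (Finset.mem_filter.2 ⟨Finset.mem_univ x, hx⟩))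
  obtain ⟨a, a1, a4⟩ := fr_exists_pow Q (n := 4) (by omega) (by omega)
  have a5 : a ^ 4 = -1 := (mul_self_eq_one_iff.1 (by rw [← pow_add]; exact fr_mu_pow Q a1)).resolve_left a4
  have a6 : σ a ^ 4 = -1 := by rw [← map_pow, a5]; simp
  have a0 := ne_zero_of_mu a1
  have R1 : ∀ g ∈ H, g ∉ FR F ι → ∀ i k, σ (g (ee F k) i) * g (ee F k) i ≠ 4 := by
    intro g hg hg' i k h
    obtain ⟨G, G1, G2, G3⟩ := fr_rank_one S h4 hH hG hg k (fun i => hS g hg hg' i k) a1 a4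
    refine hS G G1 G2 i i ?_
    rw [G3, a6, H98.ee_self]
    linear_combination -2 * a * h - a * h7
  obtain ⟨e⟩ : Nonempty (Fin 4 ≃ ι) := ⟨(Fintype.equivFinOfCardEq h4).symm⟩
  have hs := fr_sum S (hG hg).1 (e 0)
  rw [fr_sum4 e] at hs
  obtain ⟨G, G1, G2, G3⟩ := fr_rank_one S h4 hH hG hg (e 0) (fun i => hS g hg hg' i _) a1 a4
  choose m hm using fun i => hφ _ (Q.norm_fix (g (ee F (e 0)) i))
  have m1 : ∀ i, m i ≠ 0 ∧ m i ≠ 4 ∧ (1 - 2 * m i) ^ 2 ≠ 4 := fun i => by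
    refine ⟨fun h => norm_eq_zero.not.2 (hS g hg hg' i (e 0)) (by rw [← hm, h, map_zero]),
      fun h => R1 g hg hg' i (e 0) (by rw [← hm, h, map_ofNat]), fun h => R1 G G1 G2 i i ?_⟩
    have := congrArg φ h
    simp only [map_pow, map_sub, map_mul, map_ofNat, map_one, hm] at this
    simp only [G3, a6, H98.ee_self, map_mul, map_add, map_sub, map_neg, map_one, Q.inv]
    linear_combination this + (1 - 2 * (σ (g (ee F (e 0)) i) * g (ee F (e 0)) i)) ^ 2 * a1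
  have m2 : ∀ i j, i ≠ j → m i * m j ≠ 1 := fun i j hij h => R1 G G1 G2 i j (by
    have := congrArg φ h
    simp only [map_mul, map_one, hm] at this
    simp only [G3, a6, ee_ne hij, map_mul, map_add, map_sub, map_neg, map_one, Q.inv, map_zero]
    linear_combination 4 * this + 4 * (σ (g (ee F (e 0)) i) * g (ee F (e 0)) i) *
      (σ (g (ee F (e 0)) j) * g (ee F (e 0)) j) * a1)
  have m3 : m (e 0) + m (e 1) + m (e 2) + m (e 3) = 1 := φ.injective (by
    simp only [map_add, hm, map_one, hs])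
  have k1 := fr7_k1
  have k2 := fr7_k2
  obtain ⟨n0, n1, n2, n3⟩ := k2 _ _ _ _ (k1 _ (m1 _)) (k1 _ (m1 _)) (k1 _ (m1 _)) (k1 _ (m1 _))
    (m2 _ _ (by simp)) (m2 _ _ (by simp)) (m2 _ _ (by simp)) (m2 _ _ (by simp)) (m2 _ _ (by simp))
    (m2 _ _ (by simp)) m3
  obtain ⟨θ, t1, t2⟩ : ∃ θ : F, θ * σ θ = 1 ∧ θ + σ θ = -3 := by
    have : (a + σ a - 3) * (a + σ a + 3) = 0 := mul_left_cancel₀ (pow_ne_zero 2 a0) (by
      linear_combination a5 + (2 * a ^ 2 + a * σ a + 1) * a1 - a ^ 2 * h7)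
    rcases mul_eq_zero.1 this with h | h
    · exact ⟨-a, by simpa using a1, by rw [map_neg]; linear_combination -h⟩
    · exact ⟨a, a1, by linear_combination h⟩
  obtain ⟨d, d1, d2, d3⟩ := S.exists_diag (fun i => ![1, 1, θ, σ θ] (e.symm i)) fun i => by
    obtain ⟨r, rfl⟩ := e.surjective i
    fin_cases r <;> simp [t1, Q.mu_conj t1]
  have dH : d ∈ H := hH ⟨d1.1, d1.2, mem_SLV.2 (by
    rw [d2, ← e.prod_comp, Fin.prod_univ_four]; simp [t1])⟩
  have y0 : (g⁻¹ * d * g) (ee F (e 0)) (e 0) = -2 := by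
    rw [fr_entry S (hG hg).1 d3, fr_sum4 e]
    simp only [← hm, n0, n1, n2, n3, map_ofNat]
    simp
    linear_combination 2 * t2
  have yH := H.mul_mem (H.mul_mem (H.inv_mem hg) dH) hg
  generalize g⁻¹ * d * g = y at y0 yH
  have y1 : σ (y (ee F (e 0)) (e 0)) * y (ee F (e 0)) (e 0) = 4 := by
    rw [y0, map_neg, map_ofNat]; ring
  obtain ⟨π, hπ⟩ := exists_of_mem_FR (by_contra fun h => R1 y yH h _ _ y1)
  obtain ⟨s, s0, hs⟩ := hπ (e 0)
  have y2 := (hG yH).1 (ee F (e 0)) (ee F (e 0))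
  rw [hs] at y1 y2
  by_cases h : e 0 = π (e 0)
  · simp [← h, S.B_ee] at y1 y2
    exact one_ne_zero (α := F) (mul_left_cancel₀ S.z0 (by
      linear_combination 2 * ζ * y1 - 2 * y2 + ζ * h7))
  · simp [h] at y1
    exact one_ne_zero (α := F) (by linear_combination -2 * y1 - h7)

end Cfsg.Agent.K4
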