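import Cfsg.Agent.K4.SUfrE

/-! Orthonormal frames in `SU₄(q)`: odd `q`. -/

set_option autoImplicit false
set_option linter.unusedSectionVars false
set_option linter.unusedSimpArgs false
set_option linter.unusedVariables false

namespace Cfsg.Agent.K4

open Module Cfsg.Agent.H27 Cfsg.Agent.H98

theorem fr_sz {G : Type*} [Group G] [Finite G] {H N : Subgroup G} {d ε : G} (dH : d ∈ H)
    (dN : d ∈ N) (d2 : d * d = 1) (εN : ε ∈ N) (hε : ∀ x, ε * x = x * ε)
    (U : ∀ h ∈ H, h * d * h⁻¹ ∈ N → h ∈ N)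
    (W : ∀ n ∈ H, n ∈ N → ∀ w, w * d = n * d * n⁻¹ → w = 1 ∨ w = ε ∨
      ∀ h ∈ H, h * w * h⁻¹ ∈ N → h ∈ N) {g : G} (hg : g ∈ H) :
    g ∈ N ∨ ∃ n ∈ H, n ∈ N ∧ g * n * (g * n) = 1 := by
  classical
  have yH : g * d * g⁻¹ ∈ H := H.mul_mem (H.mul_mem hg dH) (H.inv_mem hg)
  have y2 : g * d * g⁻¹ * (g * d * g⁻¹) = 1 := by simp [mul_assoc, ← mul_assoc d d, d2]
  obtain ⟨y, hy⟩ : ∃ y, y = g * d * g⁻¹ := ⟨_, rfl⟩
  rw [← hy] at yH y2
  have xH : ∀ r, (d * y) ^ r ∈ H := fun r => H.pow_mem (H.mul_mem dH yH) r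
  have ex : ∃ m, 0 < m ∧ ((d * y) ^ m = 1 ∨ (d * y) ^ m = ε) :=
    ⟨_, orderOf_pos _, Or.inl (pow_orderOf_eq_one _)⟩
  obtain ⟨m0, hm⟩ := Nat.find_spec ex
  have zN : (d * y) ^ Nat.find ex ∈ N := by
    rcases hm with h | h <;> rw [h]
    exacts [N.one_mem, εN]
  have zc : ∀ x, (d * y) ^ Nat.find ex * x = x * (d * y) ^ Nat.find ex := fun x => by
    rcases hm with h | h <;> rw [h]
    exacts [by simp, hε x]
  rcases Nat.even_or_odd (Nat.find ex) with ⟨r, hr⟩ | ⟨r, hr⟩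
  · left
    have h1 := Nat.find_min ex (m := r) (by omega)
    rw [hr] at zN zc
    have wN := U _ (xH r) (by rw [← dihedral_even d2 y2]; exact N.mul_mem zN dN)
    have h2 : (d * y) ^ r * y * ((d * y) ^ r)⁻¹ = (d * y) ^ (r + r) * y := by
      have := dihedral_conj y2 d2 r
      rw [← inv_pow, mul_inv_rev, inv_eq_of_mul_eq_one_right y2, inv_eq_of_mul_eq_one_right d2]
        at this
      rw [← inv_pow, mul_inv_rev, inv_eq_of_mul_eq_one_right y2, inv_eq_of_mul_eq_one_right d2,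
        pow_add, mul_assoc, mul_assoc]
      nth_rw 3 [← this]
      rw [mul_assoc, mul_assoc, y2, mul_one]
    have h3 : g⁻¹ * (d * y) ^ r * g⁻¹⁻¹ ∈ N :=
      U _ (H.mul_mem (H.mul_mem (H.inv_mem hg) (xH r)) (H.inv_mem (H.inv_mem hg))) (by
        have : g⁻¹ * (d * y) ^ r * g⁻¹⁻¹ * d * (g⁻¹ * (d * y) ^ r * g⁻¹⁻¹)⁻¹ =
            (d * y) ^ (r + r) * d := by
          calc _ = g⁻¹ * ((d * y) ^ r * (g * d * g⁻¹) * ((d * y) ^ r)⁻¹) * g := by group
            _ = g⁻¹ * (d * y) ^ (r + r) * (g * d * g⁻¹) * g := by rw [← hy, h2, ← mul_assoc]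
            _ = _ := by rw [← zc]; group
        rw [this]
        exact N.mul_mem zN dN)
    obtain ⟨n, nH, hn⟩ : ∃ n ∈ H, (d * y) ^ r * d = n * d * n⁻¹ := by
      obtain ⟨h, hh, e | e⟩ := dihedral_cases dH yH d2 y2 r
      · exact ⟨h, hh, e⟩
      · exact ⟨h * g, H.mul_mem hh hg, by rw [e, hy]; group⟩
    rcases W n nH (U n nH (hn ▸ N.mul_mem wN dN)) _ hn with h | h | h
    · exact absurd ⟨by omega, Or.inl h⟩ h1
    · exact absurd ⟨by omega, Or.inr h⟩ h1
    · exact N.inv_mem_iff.1 (h _ (H.inv_mem hg) h3)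
  · have vH := H.mul_mem (H.mul_mem (xH r) dH) hg
    have h1 := dihedral_odd d2 y2 r
    refine Or.inr ⟨_, H.inv_mem vH, N.inv_mem (U _ vH ?_), ?_⟩
    · have : (d * y) ^ r * d * g * d * ((d * y) ^ r * d * g)⁻¹ = (d * y) ^ (2 * r + 1) * d := by
        rw [h1]; nth_rw 4 [hy]; group
      rw [this, ← hr]
      exact N.mul_mem zN dN
    · have := dihedral_conj d2 y2 r
      generalize (d * y) ^ r = w at this
      calc _ = (w * (d * w * d))⁻¹ := by group
        _ = 1 := by rw [this]; group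

variable {F : Type*} [Field F] [Fintype F] {σ : F →+* F} {q : ℕ}
variable {ι : Type*} [Fintype ι] [DecidableEq ι]
variable {B : (ι → F) →ₛₗ[σ] (ι → F) →ₗ[F] F} {ζ : F} {H : Subgroup ((ι → F) ≃ₗ[F] (ι → F))}

theorem fr_ext {f g : (ι → F) ≃ₗ[F] (ι → F)} (h : ∀ i, f (ee F i) = g (ee F i)) : f = g :=
  (Pi.basisFun F ι).ext' fun i => by rw [bf_eq, h]

variable (S : UF B ζ q) (two : (2 : F) ≠ 0) (h4 : Fintype.card ι = 4)
  (hH : FR F ι ⊓ GG B ≤ H) (hG : H ≤ GG B)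
  (hS : ∀ g ∈ H, g ∉ FR F ι → ∀ i k, g (ee F k) i ≠ 0) {a : F} (ha : a * σ a = 1) (a4 : a ^ 4 ≠ 1)
include S two h4 hH hG hS ha a4

theorem fr_U {y : (ι → F) ≃ₗ[F] (ι → F)} (hy : y ∈ H) (y2 : y * y = 1) {i j : ι}
    (hi : y (ee F i) = ee F i) (hj : y (ee F j) = -ee F j) (h : (ι → F) ≃ₗ[F] (ι → F))
    (hh : h ∈ H) (e : h * y * h⁻¹ ∈ FR F ι) : h ∈ FR F ι := by
  by_contra hn
  have yi := S.coord_of_fix (hG hy).1 (c := 1) (by rw [hi, one_smul])
  have yj := S.coord_of_fix (hG hy).1 (c := -1) (by rw [hj, neg_one_smul])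
  obtain ⟨π, hπ⟩ := exists_of_mem_FR e
  choose c c0 hc using hπ
  have h0 := hS _ (H.inv_mem hh) fun h' => hn ((FR F ι).inv_mem_iff.1 h')
  have p1 : ∀ r, π r ≠ r := fun r hr => by
    have h1 : y (h⁻¹ (ee F r)) = c r • h⁻¹ (ee F r) := h.injective (by
      rw [map_smul, le_apply_inv]
      exact (hc r).trans (by rw [hr]))
    have h2 := yi (h⁻¹ (ee F r))
    have h3 := yj (h⁻¹ (ee F r))
    rw [h1, Pi.smul_apply, smul_eq_mul] at h2 h3
    exact two (by linear_combination mul_right_cancel₀ (h0 j r) h3 - mul_right_cancel₀ (h0 i r) h2)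
  have p2 : ∀ r, π (π r) = r := fun r => by
    have h1 : h * y * h⁻¹ * (h * y * h⁻¹) = 1 := by simp [mul_assoc, ← mul_assoc y y, y2]
    have h2 := congrFun (LinearEquiv.congr_fun h1 (ee F r)) r
    rw [le_mul_apply, hc, map_smul, hc, le_one_apply] at h2
    by_contra h3
    simp [Ne.symm h3] at h2
  obtain ⟨t, t1, t2, t3⟩ := S.exists_diag (fun k => if k ∈ ({i, π i} : Finset ι) then a else σ a)
    fun k => by split_ifs <;> simp [ha, S.qf.mu_conj ha]
  have tH : t ∈ H := hH ⟨t1.1, t1.2, mem_SLV.2 (by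
    rw [t2, ← Finset.prod_mul_prod_compl {i, π i}, Finset.prod_eq_pow_card (b := a)
      (fun k hk => if_pos hk), Finset.prod_eq_pow_card (b := σ a)
      (fun k hk => if_neg (Finset.mem_compl.1 hk)), Finset.card_compl, h4,
      Finset.card_pair (p1 i).symm, ← mul_pow, ha, one_pow])⟩
  have te : ∀ k, t (ee F k) = (if k ∈ ({i, π i} : Finset ι) then a else σ a) • ee F k :=
    fun k => funext fun m => by
      rw [t3]
      by_cases h1 : m = k <;> simp [h1]
  have h1 : h * y * h⁻¹ * t = t * (h * y * h⁻¹) := fr_ext fun k => by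
    rw [le_mul_apply _ t, le_mul_apply t, te, map_smul, hc, map_smul, te, smul_comm]
    congr 2
    refine if_congr ?_ rfl rfl
    simp only [Finset.mem_insert, Finset.mem_singleton, π.injective.eq_iff]
    rw [or_comm]
    exact or_congr_left ⟨fun e => by rw [e, p2], fun e => by rw [← e, p2]⟩
  have h2 : y * (h⁻¹ * t * h) = h⁻¹ * t * h * y := by
    calc _ = h⁻¹ * (h * y * h⁻¹ * t) * h := by group
      _ = _ := by rw [h1]; group
  have h3 : (h⁻¹ * t * h) (ee F i) j = 0 := by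
    have := yj ((h⁻¹ * t * h) (ee F i))
    rw [← le_mul_apply, h2, le_mul_apply _ y, hi] at this
    exact mul_left_cancel₀ two (by linear_combination this)
  obtain ⟨ρ, hρ⟩ := exists_of_mem_FR (by_contra fun h' =>
    hS _ (H.mul_mem (H.mul_mem (H.inv_mem hh) tH) hh) h' _ _ h3)
  have h5 : ∀ x, h ((h⁻¹ * t * h) x) = t (h x) := fun x => le_apply_inv _ _
  generalize h⁻¹ * t * h = m at hρ h5
  obtain ⟨s, s0, hs⟩ := hρ i
  by_cases h6 : ρ i = i
  · obtain ⟨l, hl⟩ := exists_not_mem_list [i, π i] (by simp [h4])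
    have e1 := congrFun (h5 (ee F i)) i
    have e2 := congrFun (h5 (ee F i)) l
    rw [hs, h6, map_smul, t3, Pi.smul_apply, smul_eq_mul] at e1 e2
    rw [if_pos (by simp)] at e1
    rw [if_neg (by simpa using hl)] at e2
    have e3 := (mul_right_cancel₀ (hS h hh hn i i) e1).symm.trans
      (mul_right_cancel₀ (hS h hh hn l i) e2)
    exact a4 (by linear_combination (a * σ a + 1) * ha + a ^ 2 * (a + σ a) * e3)
  · have e1 : m (m (ee F i)) = (a + σ a) • m (ee F i) - ee F i := h.injective (funext fun l => by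
      rw [h5, h5, map_sub, map_smul, h5, Pi.sub_apply, Pi.smul_apply, t3, t3, smul_eq_mul]
      split_ifs
      · linear_combination -h (ee F i) l * ha
      · linear_combination -h (ee F i) l * ha)
    obtain ⟨s', -, hs'⟩ := hρ (ρ i)
    have e2 := congrFun e1 (ρ i)
    rw [hs, map_smul, hs'] at e2
    simp [h6, (ρ.injective.ne h6).symm, s0] at e2
    exact a4 (by linear_combination a * (a ^ 2 - 1) * e2 - (a ^ 2 - 1) * ha)

theorem fr_sz' {g : (ι → F) ≃ₗ[F] (ι → F)} (hg : g ∈ H) :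
    g ∈ FR F ι ∨ ∃ n ∈ H, n ∈ FR F ι ∧ g * n * (g * n) = 1 := by
  have := finite_lequiv (F := F) (V := ι → F)
  obtain ⟨i, -⟩ := exists_not_mem_list (ι := ι) [] (by simp [h4])
  obtain ⟨j, hj⟩ := exists_not_mem_list [i] (by simp [h4])
  obtain ⟨k, hk⟩ := exists_not_mem_list [i, j] (by simp [h4])
  simp only [List.mem_cons, List.not_mem_nil, or_false, not_or] at hj hk
  obtain ⟨d, d1, hd⟩ := S.exists_isD (Ne.symm hj)
  have d2 := hd.sq (Ne.symm hj)
  have de : ∀ m, ∃ s : F, (s = 1 ∨ s = -1) ∧ d (ee F m) = s • ee F m := fun m => by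
    by_cases h : m = i ∨ m = j
    · exact ⟨-1, Or.inr rfl, by rw [hd.neg (Ne.symm hj) h, neg_one_smul]⟩
    · push Not at h
      exact ⟨1, Or.inl rfl, by rw [hd.pos h.1 h.2, one_smul]⟩
  refine fr_sz (ε := LinearEquiv.neg F) (hH d1) d1.1 d2
    (mem_FR fun m => ⟨m, fun l hl => by simp [hl]⟩)
    (fun x => LinearEquiv.ext fun v => by simp [le_mul_apply])
    (fr_U S two h4 hH hG hS ha a4 (hH d1) d2 (hd.pos hk.1 hk.2) (hd.neg (Ne.symm hj) (Or.inl rfl)))
    (fun n nH nN w hw => ?_) hg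
  obtain rfl : w = n * d * n⁻¹ * d := by rw [← hw, mul_assoc, d2, mul_one]
  have h1 : ∀ m, (n * d * n⁻¹ * d) (ee F m) = ee F m ∨ (n * d * n⁻¹ * d) (ee F m) = -ee F m :=
    fun m => by
      obtain ⟨π, hπ⟩ := exists_of_mem_FR nN
      obtain ⟨m, rfl⟩ := π.surjective m
      obtain ⟨c, c0, hc⟩ := hπ m
      obtain ⟨s, s1, hs⟩ := de m
      obtain ⟨s', s1', hs'⟩ := de (π m)
      rw [le_mul_apply, hs', map_smul, conj_ee c0 hc hs]
      rcases s1 with rfl | rfl <;> rcases s1' with rfl | rfl <;> simp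
  have wH := H.mul_mem (H.mul_mem (H.mul_mem nH (hH d1)) (H.inv_mem nH)) (hH d1)
  generalize n * d * n⁻¹ * d = w at h1 wH
  by_cases h2 : ∃ m, w (ee F m) = -ee F m
  swap
  · exact Or.inl (fr_ext fun m => (h1 m).resolve_right fun h => h2 ⟨m, h⟩)
  by_cases h3 : ∃ m, w (ee F m) = ee F m
  swap
  · exact Or.inr (Or.inl (fr_ext fun m => (h1 m).resolve_left fun h => h3 ⟨m, h⟩))
  obtain ⟨l, hl⟩ := h2
  obtain ⟨m, hm⟩ := h3
  exact Or.inr (Or.inr (fr_U S two h4 hH hG hS ha a4 wH (fr_ext fun m => by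
    rcases h1 m with h | h <;> simp [le_mul_apply, h, le_one_apply]) hm hl))

theorem su_fr_odd (a8 : a ^ 8 ≠ 1) {g : (ι → F) ≃ₗ[F] (ι → F)} (hg : g ∈ H) : g ∈ FR F ι := by
  by_contra hg'
  have Q := S.qf
  obtain ⟨k, -⟩ := exists_not_mem_list (ι := ι) [] (by simp [h4])
  have c0 := fun i => hS g hg hg' i k
  obtain ⟨G, G1, G2, G3⟩ := fr_rank_one S h4 hH hG hg k c0 ha a4
  generalize g (ee F k) = c at c0 G3
  have c0' : ∀ i, σ (c i) ≠ 0 := fun i => (map_ne_zero σ).2 (c0 i)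
  obtain ⟨n, nH, nN, hn⟩ := (fr_sz' S two h4 hH hG hS ha a4 G1).resolve_left G2
  obtain ⟨π, hπ⟩ := exists_of_mem_FR nN
  choose ν ν0 hν using hπ
  have ν1 : ∀ j, σ (ν j) * ν j = 1 := fun j => by
    have := (hG nH).1 (ee F j) (ee F j)
    simp only [hν, map_smulₛₗ, LinearMap.smul_apply, S.B_ee, H98.ee_self, smul_eq_mul,
      RingHom.id_apply] at this
    exact mul_left_cancel₀ S.z0 (by linear_combination this)
  have δ0 : σ a ^ 4 - 1 ≠ 0 := fun h => a4 (by
    rw [← Q.inv a, ← map_pow, sub_eq_zero.1 h, map_one])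
  suffices h : σ (σ a ^ 4 - 1) = σ a ^ 4 - 1 by
    rw [map_sub, map_pow, Q.inv, map_one] at h
    exact a8 (by linear_combination a ^ 4 * h + ((a * σ a) ^ 3 + (a * σ a) ^ 2 + a * σ a + 1) * ha)
  generalize σ a ^ 4 - 1 = δ at G3 δ0
  obtain ⟨ρ, hρ⟩ : ∃ ρ : ι → F, ∀ j, ρ j * σ (c j) = ν j * a * δ * σ (c (π j)) :=
    ⟨fun j => ν j * a * δ * σ (c (π j)) / σ (c j), fun j => div_mul_cancel₀ _ (c0' j)⟩
  have ρ0 : ∀ j, ρ j ≠ 0 := fun j h => mul_ne_zero (mul_ne_zero (mul_ne_zero (ν0 j)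
    (ne_zero_of_mu ha)) δ0) (c0' (π j)) (by rw [← hρ, h, zero_mul])
  have E : ∀ i j, (G * n) (ee F j) i = ν j * a * ee F (π j) i + ρ j * σ (c j) * c i := fun i j => by
    rw [le_mul_apply, hν, map_smul, Pi.smul_apply, G3, hρ, smul_eq_mul]; ring
  have He : ∀ i j, ν j * a * ee F (π j) i + ρ j * σ (c j) * c i =
      σ (ν i * a) * ee F (π i) j + σ (ρ i) * c i * σ (c j) := fun i j => by
    have := (hG (H.mul_mem G1 nH)).1 (ee F i) ((G * n) (ee F j))
    rw [← le_mul_apply (G * n) (G * n), hn, le_one_apply, S.B_ee, S.B_ee', E, E] at this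
    rw [← mul_left_cancel₀ S.z0 this]
    by_cases h : j = π i <;> simp [h, Q.inv]
  have R : ∀ i j, i ≠ π j → j ≠ π i → ρ j = σ (ρ i) := fun i j h1 h2 => by
    have := He i j
    rw [ee_ne h1, ee_ne h2] at this
    exact mul_right_cancel₀ (mul_ne_zero (c0 i) (c0' j)) (by linear_combination this)
  by_cases h : ∀ j, π (π j) = j
  · have R' : ∀ i j, ρ j = σ (ρ i) := fun i j => by
      obtain ⟨l, hl⟩ := exists_not_mem_list [π j] (by simp [h4])
      obtain ⟨m, hm⟩ := exists_not_mem_list [π l, π i] (by simp [h4])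
      simp only [List.mem_cons, List.not_mem_nil, or_false, not_or] at hl hm
      rw [R l j hl (fun e => hl (by rw [e, h])), R m l hm.1 (fun e => hm.1 (by rw [e, h])), Q.inv,
        R i m (fun e => hm.2 (by rw [e, h])) hm.2]
    have e1 := He (π k) k
    have e2 := hρ (π k)
    rw [h] at e1 e2
    rw [H98.ee_self, H98.ee_self, ← R' (π k) k, map_mul] at e1
    rw [R' k (π k), ← R' k k] at e2
    have e3 : (δ - ρ k) * (δ + ρ k) = 0 := mul_left_cancel₀ (mul_ne_zero (c0' k) (c0' (π k))) (by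
      linear_combination -(ρ k * σ (c (π k))) * hρ k - ν k * a * δ * σ (c (π k)) * e2
        - δ ^ 2 * σ (c k) * σ (c (π k)) * (ν (π k) * a * e1 + a * σ a * ν1 (π k) + ha))
    rcases mul_eq_zero.1 e3 with e | e
    · rw [sub_eq_zero.1 e, ← R' k k]
    · rw [eq_neg_of_add_eq_zero_left e, map_neg, ← R' k k]
  · push Not at h
    obtain ⟨j, hj⟩ := h
    have h1 : π j ≠ j := fun e => hj (by rw [e, e])
    have r1 := R j j h1.symm h1.symm
    have r2 := R (π j) (π j) (π.injective.ne h1).symm (π.injective.ne h1).symm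
    have e1 := He (π j) j
    rw [H98.ee_self, ee_ne hj.symm, ← r2] at e1
    have e2 : δ * ((ρ (π j) - ρ j) * (σ (c (π j)) * c (π j))) = ρ j :=
      mul_right_cancel₀ (c0' j) (by linear_combination -hρ j - δ * σ (c (π j)) * e1)
    have e3 := congrArg σ e2
    rw [map_mul, map_mul, Q.norm_fix, map_sub, ← r1, ← r2] at e3
    exact mul_right_cancel₀ (right_ne_zero_of_mul (e2 ▸ ρ0 j)) (e3.trans e2.symm)

end Cfsg.Agent.K4
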