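import Cfsg.Agent.H98.RowSU

set_option autoImplicit false
set_option linter.unusedSectionVars false
set_option linter.unusedSimpArgs false
set_option linter.style.haveILetI false

namespace Cfsg.Agent.K4

section Nd

open Module Cfsg.Geo Cfsg.Agent.H27

variable {F V : Type*} [Field F] [AddCommGroup V] [Module F V] {σ : F →+* F}
variable [FiniteDimensional F V] [Finite F] {B : V →ₛₗ[σ] V →ₗ[F] F}
variable {τ : Type*} [Fintype τ] [DecidableEq τ] {D : τ → Submodule F V}

theorem sund_refl (S : UH B) (o : Orth B D) {k : τ} {r : V} (hr : r ∈ D k) (hrr : B r r ≠ 0)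
    {l : F} (hl : l * σ l = 1) : ∃ g ∈ Iso B, LinearMap.det (g : V →ₗ[F] V) = l ∧
      (∀ m, g ∈ stab (D m)) ∧ ∀ x, g x = x + ((l - 1) / B r r * B r x) • r := by
  obtain ⟨s, hs, h1, h2⟩ := S.exists_refl hrr hl
  refine ⟨s, hs, h1, fun m => mem_stab_of_mapsTo fun x hx => ?_, h2⟩
  rw [h2]
  by_cases hk : k = m
  · exact (D m).add_mem hx ((D m).smul_mem _ (hk ▸ hr))
  · simpa [o k m hk r hr x hx] using hx

theorem sund_pairTrans (S : UH B) (d : Dec D) (o : Orth B D) {i j : τ} (hij : i ≠ j)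
    (h2i : 2 ≤ finrank F (D i)) (hq : ∃ c : F, σ c = c ∧ c ≠ 0 ∧ c ≠ -1)
    (hl : ∃ l : F, l * σ l = 1 ∧ σ l ≠ l) : PairTrans B D i j := by
  intro H hH
  have oo : ∀ w ∈ D i, ∀ u ∈ D j, ∀ w' ∈ D i, ∀ u' ∈ D j, B (w + u) (w' + u') = B w w' + B u u' :=
    fun w hw u hu w' hw' u' hu' => by
      simp [o i j hij w hw u' hu', o j i hij.symm u hu w' hw']
  have mv : ∀ w ∈ D i, ∀ u ∈ D j, w ≠ 0 → u ≠ 0 → AS B H (w + u) → ∀ w' ∈ D i, ∀ u' ∈ D j,
      B w' w' ≠ 0 → u' ≠ 0 → B (w' + u') (w' + u') = 0 → B w w = B w' w' → AS B H (w' + u') := by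
    intro w hw u hu hw0 hu0 h w' hw' u' hu' hw0' hu0' h1 h2
    have h3 := h.1
    rw [oo _ hw _ hu _ hw _ hu] at h3
    rw [oo _ hw' _ hu' _ hw' _ hu'] at h1
    obtain ⟨r, hr, r1, r2⟩ := S.exists_noniso_perp d o hw' (Or.inr ⟨hw0', h2i⟩)
    have hs : Spare B D (w' + u') := S.spare_of o hr r2 (by
      rw [map_add, S.zero_symm r1, o i j hij r hr u' hu', add_zero])
    simpa using S.move2 d o hH hij hw hw' hu hu' (map_zero _) (map_zero _) hw0
      (by rintro rfl; simp at hw0') hu0 hu0' h2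
      (by linear_combination h3 - h1 - h2) (by simpa using hs) (by simpa using h)
  have nn : ∀ w ∈ D i, ∀ u ∈ D j, B w w ≠ 0 → AS B H (w + u) → ∀ w' ∈ D i, ∀ u' ∈ D j,
      B w' w' ≠ 0 → B (w' + u') (w' + u') = 0 → AS B H (w' + u') := by
    intro w hw u hu hw0 h w' hw' u' hu' hw0' h1
    obtain ⟨c, hc⟩ := S.exists_scale hw0 (S.norm_skew w')
    have h2 := S.as_smul h c
    rw [smul_add] at h2
    have h3 := h2.1
    have h4 := h1
    rw [oo _ ((D i).smul_mem c hw) _ ((D j).smul_mem c hu) _ ((D i).smul_mem c hw) _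
      ((D j).smul_mem c hu), hc] at h3
    rw [oo _ hw' _ hu' _ hw' _ hu'] at h4
    exact mv _ ((D i).smul_mem c hw) _ ((D j).smul_mem c hu)
      (fun h => hw0' (by rw [← hc, h]; simp)) (fun h => hw0' (by simpa [h] using h3)) h2 _ hw' _ hu'
      hw0' (by rintro rfl; simp at h4; exact hw0' h4) h1 hc
  intro w hw u hu hw0 hu0 h w' hw' u' hu' hw0' hu0' h1
  obtain ⟨w, hw, u, hu, hw0, h⟩ : ∃ w ∈ D i, ∃ u ∈ D j, B w w ≠ 0 ∧ AS B H (w + u) := by
    by_cases hww : B w w = 0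
    swap
    · exact ⟨w, hw, u, hu, hww, h⟩
    have huu : B u u = 0 := by rw [← h.1, oo _ hw _ hu _ hw _ hu, hww, zero_add]
    obtain ⟨l, hl, hl'⟩ := hl
    have hm : σ (l - σ l) = -(l - σ l) := by rw [map_sub, S.inv]; ring
    have hm0 : l - σ l ≠ 0 := sub_ne_zero.2 hl'.symm
    obtain ⟨r, hr, e1, e2⟩ := S.exists_R d o hw hw0 h2i (β := 1) hm (by simp)
    obtain ⟨r', hr', e1', e2'⟩ := S.exists_R d o hu hu0 (S.two_le_of_iso d o hu hu0 huu)
      (β := 1) hm (by simp)
    obtain ⟨s, hs, s1, s2, s3⟩ := sund_refl S o hr (e2 ▸ hm0) hl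
    obtain ⟨t, ht, t1, t2, t3⟩ := sund_refl S o hr' (e2' ▸ hm0) (l := σ l)
      (by rw [S.inv, mul_comm, hl])
    have hi := (Iso B).mul_mem hs ht
    have h2 := h.conj (hH _ ⟨hi, mem_SLV.2 (by rw [det_mul', s1, t1, hl])⟩ fun m =>
      (stab _).mul_mem (s2 m) (t2 m)) hi
    set a := (l - 1) / (l - σ l) with ha
    set b := (σ l - 1) / (l - σ l) with hb
    have e3 : (s * t) (w + u) = (w - a • r) + (u - b • r') := by
      rw [le_mul_apply, t3, s3, e2, e2']
      simp only [map_add, map_smul, o j i hij.symm r' hr' w hw, S.one_symm e1', S.one_symm e1,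
        o i j hij r hr u hu, o i j hij r hr r' hr', smul_eq_mul]
      module
    rw [e3] at h2
    have hy1 := (D i).sub_mem hw ((D i).smul_mem a hr)
    have hy2 := (D j).sub_mem hu ((D j).smul_mem b hr')
    have h3 := S.as_move h2 h (map_one σ)
    have sa : σ a = -b := by rw [ha, hb, map_div₀, hm, map_sub, map_one, div_neg]
    have sb : σ b = -a := by rw [ha, hb, map_div₀, hm, map_sub, map_one, S.inv, div_neg]
    have e4 : B (w - a • r + (u - b • r')) (w + u) = -(a + b) := by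
      rw [oo _ hy1 _ hy2 _ hw _ hu]
      simp only [map_sub, LinearMap.sub_apply, LinearMap.map_smulₛₗ, LinearMap.smul_apply, hww, huu,
        S.one_symm e1', S.one_symm e1, sa, sb, smul_eq_mul]
      ring
    rw [e4, one_mul, smul_add, add_add_add_comm] at h3
    refine ⟨_, (D i).add_mem hw ((D i).smul_mem _ hy1), _, (D j).add_mem hu ((D j).smul_mem _ hy2),
      ?_, h3⟩
    simp only [map_add, map_sub, map_smul, map_neg, LinearMap.add_apply, LinearMap.sub_apply,
      LinearMap.map_smulₛₗ, LinearMap.smul_apply, hww, e1, e2, S.one_symm e1, sa, sb, smul_eq_mul]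
    have k1 : a - b = 1 := by rw [ha, hb]; field_simp; ring
    have k2 : a * b * (l - σ l) = -(a + b) := by
      rw [ha, hb]; field_simp; linear_combination hl
    have k3 : a + b ≠ 0 := by
      intro k
      have k4 : l + σ l - 2 = 0 := by
        rw [ha, hb, ← add_div, div_eq_zero_iff] at k
        linear_combination k.resolve_right hm0
      have k5 : (l - 1) ^ 2 = 0 := by linear_combination l * k4 - hl
      have k6 : l = 1 := sub_eq_zero.1 (pow_eq_zero_iff two_ne_zero |>.1 k5)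
      exact hl' (by rw [k6, map_one])
    intro k
    refine k3 ?_
    linear_combination k - (a + b) * k1 - (a + b) ^ 2 * k2
  by_cases hww : B w' w' = 0
  swap
  · exact nn w hw u hu hw0 h w' hw' u' hu' hww h1
  have huu : B u' u' = 0 := by rw [← h1, oo _ hw' _ hu' _ hw' _ hu', hww, zero_add]
  obtain ⟨c, hc, hc2, hc1⟩ := hq
  obtain ⟨x, hx, e1, e2⟩ := S.exists_R d o hw' hw0' (S.two_le_of_iso d o hw' hw0' hww) (β := 1)
    (S.norm_skew w) (by simp)
  obtain ⟨y, hy, e1', e2'⟩ := S.exists_R d o hu' hu0' (S.two_le_of_iso d o hu' hu0' huu) (β := c)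
    (μ := -B w w) (by rw [map_neg, S.norm_skew]) (Or.inr (Or.inl hc2))
  have h2 : B (x + y) (x + y) = 0 := by rw [oo _ hx _ hy _ hx _ hy, e2, e2']; ring
  have h3 : B (w' + u') (x + y) = 1 + c := by rw [oo _ hw' _ hu' _ hx _ hy, e1, e1']
  have h3' : B (x + y) (w' + u') = -(1 + c) := by rw [S.skew, h3, map_add, map_one, hc]
  have e : w' - x + (u' - y) = w' + u' - (x + y) := by abel
  have h4 := nn w hw u hu hw0 h _ ((D i).sub_mem hw' hx) _ ((D j).sub_mem hu' hy) (by
    simp only [map_sub, LinearMap.sub_apply, e1, e2, hww, S.one_symm e1]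
    intro h; exact hw0 (by linear_combination h)) (by
    rw [e, map_sub B, map_sub, LinearMap.sub_apply, LinearMap.sub_apply, h1, h2, h3, h3']; ring)
  have := S.as_add (nn w hw u hu hw0 h x hx y hy (e2 ▸ hw0) h2) h4 (by
    rw [e, map_sub, h2, h3']
    intro h; exact hc1 (by linear_combination -h)) (by rwa [e, sub_add_cancel])
  rwa [e, sub_add_cancel] at this

theorem sund_max [Nontrivial τ] (S : UH B) (d : Dec D) (o : Orth B D)
    (hd : ∀ i, finrank F (D i) = 2) (hq : ∃ c : F, σ c = c ∧ c ≠ 0 ∧ c ≠ -1)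
    (hl : ∃ l : F, l * σ l = 1 ∧ σ l ≠ l) : IsMaximalIn (GG B) (dstab D ⊓ GG B) := by
  have h2 : ∀ i, 2 ≤ finrank F (D i) := fun i => by rw [hd]
  have h0 : ∀ i, D i ≠ ⊥ := fun i => ne_bot_of_finrank_pos (by have := h2 i; omega)
  have hd' : ∀ i j, finrank F (D i) = finrank F (D j) := fun i j => by rw [hd, hd]
  refine S.isMaximalIn_dstab_of d o hd' h0 (fun i => S.exists_iso_ne d o (h2 i)) ?_
    (S.exists_iso_map d o hd') (fun i x hx h β μ hμ => S.exists_R d o hx (by rintro rfl; simp at h)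
      (h2 i) hμ (Or.inl h)) (fun H hH a i j ha hij hi hj => ?_)
    fun i j hij => sund_pairTrans S d o hij (h2 i) hq hl
  · obtain ⟨i, -⟩ := exists_pair_ne τ
    obtain ⟨r, hr, hrr⟩ := S.exists_noniso d o (h0 i)
    exact S.spare_of o hr hrr (map_zero _)
  · obtain ⟨c, hc, hc0, hc1⟩ := hq
    exact S.reduce_tv d o hH (map_one σ) hc one_ne_zero hc0
      (fun h => hc1 (by linear_combination h)) (fun i => S.exists_iso_ne d o (h2 i)) ha hij hi hj

end Nd

open Cfsg.Agent.H27 Cfsg.Agent.H98 in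
theorem su_nd_planes {F : Type*} [Field F] [Fintype F] (q : ℕ) (hF : Fintype.card F = q ^ 2) :
    3 ≤ q → ∀ D : Fin 2 → Submodule F (Fin 4 → F), Cfsg.Geo.IsNondegenerateMDecomposition (Cfsg.hermForm 4 F q) 2 D → Cfsg.Geo.IsMaximalIn (Cfsg.GU 4 F q ⊓ Cfsg.Geo.specialLinear (Fin 4) F) (Cfsg.Geo.decompositionStabilizer D ⊓ (Cfsg.GU 4 F q ⊓ Cfsg.Geo.specialLinear (Fin 4) F)) := by
  classical
  intro hq D hD
  haveI : Fact (Fintype.card F = q ^ 2) := ⟨hF⟩
  obtain ⟨ζ, h0, hζ⟩ := H10.exists_skew F q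
  obtain ⟨d⟩ := exists_dec hD.decomp.indep hD.decomp.iSup_eq_top
  have := isMaximalIn_comap (toLE (Fin 4) F)
    (sund_max (uH_su (n := 4) (by omega) h0 hζ) d
      (fun i j hij x hx y hy => (suB_eq_zero h0).2 (hD.orthogonal j i hij.symm y hy x hx))
      hD.decomp.finrank_eq (by
        obtain ⟨c, c1, c2⟩ := (qf_cj (F := F) (q := q)).exists_fix [0, -1] (by
          simp only [List.length_cons, List.length_nil]; omega)
        exact ⟨c, c1, by simpa using c2⟩) (qf_cj (F := F) (q := q)).exists_mu_ne)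
  rwa [Subgroup.comap_inf, comap_GG_su h0, comap_dstab] at this

end Cfsg.Agent.K4
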