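import Cfsg.Agent.K4.OMax

/-! The orthogonal subfield subgroups of `SU₄(q)` are maximal. -/

set_option autoImplicit false
set_option linter.unusedSectionVars false
set_option linter.unusedSimpArgs false
set_option linter.unusedVariables false

namespace Cfsg.Agent.K4

open Module Cfsg.Agent.H27 Cfsg.Agent.H77

section

variable {F V : Type*} [Field F] [AddCommGroup V] [Module F V] {σ : F →+* F}

/-- The coordinatewise conjugation. -/
def cjv (σ : F →+* F) (ι : Type*) : (ι → F) →ₛₗ[σ] (ι → F) where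
  toFun x i := σ (x i)
  map_add' x y := funext fun i => map_add σ _ _
  map_smul' c x := funext fun i => map_mul σ _ _

theorem rat_decomp (hinv : ∀ a, σ (σ a) = a) {τ : V →ₛₗ[σ] V} (tt : ∀ x, τ (τ x) = x) {θ : F}
    (hθ : σ θ ≠ θ) (x : V) : ∃ a b, τ a = a ∧ τ b = b ∧ x = a + θ • b := by
  have h1 : θ - σ θ ≠ 0 := sub_ne_zero.2 hθ.symm
  have h2 : σ θ - θ ≠ 0 := sub_ne_zero.2 hθ
  have h3 : τ ((θ - σ θ)⁻¹ • (x - τ x)) = (θ - σ θ)⁻¹ • (x - τ x) := by
    rw [map_smulₛₗ, map_inv₀, map_sub, map_sub, tt, hinv]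
    match_scalars <;> field_simp <;> ring
  refine ⟨x - θ • (θ - σ θ)⁻¹ • (x - τ x), _, ?_, h3, (sub_add_cancel _ _).symm⟩
  rw [map_sub, map_smulₛₗ, h3]
  match_scalars <;> field_simp <;> ring

theorem cjg_fix_iff [Fintype F] {ι : Type} [Fintype ι] [DecidableEq ι] {K : Subfield F}
    (hK : ∀ c, c ∈ K ↔ σ c = c) (P : GL ι F) (x : ι → F) :
    cjg (cjv σ ι) (toLE ι F P) x = x ↔ ∃ y, x = jP K P y := by
  obtain ⟨x, rfl⟩ := (toLE ι F P).surjective x
  rw [cjg_apply, le_inv_apply, (toLE ι F P).injective.eq_iff]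
  refine ⟨fun h => ⟨fun i => ⟨x i, (hK _).2 (congrFun h i)⟩, rfl⟩, fun ⟨y, hy⟩ => ?_⟩
  obtain rfl : x = fun i => (y i : F) := (toLE ι F P).injective hy
  exact funext fun i => (hK _).1 (y i).2

end

theorem su_sub_o {F : Type*} [Field F] [Fintype F] (q : ℕ) (hF : Fintype.card F = q ^ 2) :
    Odd q → 5 ≤ q → ∀ (F₀ : Subfield F) (P : Matrix.GeneralLinearGroup (Fin 4) F), Fintype.card F = Nat.card F₀ ^ 2 → Cfsg.Geo.IsFormRationalStructure (Cfsg.hermForm 4 F q) F₀ 1 P → Cfsg.Geo.IsMaximalIn (Cfsg.GU 4 F q ⊓ Cfsg.Geo.specialLinear (Fin 4) F) (Cfsg.Geo.subfieldSubgroup F₀ P ⊓ (Cfsg.GU 4 F q ⊓ Cfsg.Geo.specialLinear (Fin 4) F)) := by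
  intro hodd hq F₀ P hcard hP
  have : Fact (Fintype.card F = q ^ 2) := ⟨hF⟩
  have hd := subring_dichotomy Nat.prime_two hcard
  have h2 : (2 : F) ≠ 0 := two_ne_zero_of_odd_card (hF ▸ hodd.pow)
  have hfix : ∀ c ∈ F₀, H10.cj F q c = c := fun c hc => by
    have := Fintype.ofFinite F₀
    have hq : Fintype.card F₀ = q := by
      rw [← Nat.card_eq_fintype_card]
      exact Nat.pow_left_injective two_ne_zero (hcard.symm.trans hF)
    exact congrArg Subtype.val (hq ▸ FiniteField.pow_card (⟨c, hc⟩ : F₀))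
  obtain ⟨θ, hθ⟩ := H10.exists_cj_ne (F := F) (q := q)
  have hK : ∀ c, c ∈ F₀ ↔ H10.cj F q c = c := fun c => ⟨hfix c,
    (hd ((H10.cj F q).eqLocus (RingHom.id F)) hfix).resolve_right (fun h => hθ (h θ)) c⟩
  obtain ⟨ζ, hζ0, hζ⟩ := H10.exists_skew (F := F) (q := q)
  have S := uH_su (n := 4) (by omega) hζ0 hζ
  have Q := H98.qf_cj (F := F) (q := q)
  have hτ := cjg_fix_iff hK P
  have tt : ∀ x, cjg (cjv (H10.cj F q) (Fin 4)) (toLE (Fin 4) F P)
      (cjg (cjv (H10.cj F q) (Fin 4)) (toLE (Fin 4) F P) x) = x := fun x => by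
    rw [cjg_apply, cjg_apply, le_inv_apply]
    exact (congrArg _ (funext fun i => H10.cj_cj _)).trans (le_apply_inv _ _)
  generalize cjg (cjv (H10.cj F q) (Fin 4)) (toLE (Fin 4) F P) = τ at hτ tt
  have dec := rat_decomp S.inv tt hθ
  have sym : ∀ x y, τ x = x → τ y = y → suB 4 q ζ x y = suB 4 q ζ y x := fun x y hx hy => by
    obtain ⟨x, rfl⟩ := (hτ x).1 hx
    obtain ⟨y, rfl⟩ := (hτ y).1 hy
    have := hfix _ (hP _ _ (fun i => (y i).2) fun i => (x i).2)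
    rw [one_mul, H10.cj_herm] at this
    rw [suB_apply, suB_apply, jP_apply, jP_apply, this]
  have C : CJ (suB 4 q ζ) τ := by
    refine ⟨tt, fun x y => ?_, h2, by simp, ?_, fun a b c ha hb hc a0 b0 => ?_⟩
    · obtain ⟨a, b, ha, hb, rfl⟩ := dec x
      obtain ⟨c, d, hc, hd, rfl⟩ := dec y
      simp only [map_add, map_smulₛₗ, LinearMap.add_apply, LinearMap.smul_apply, ha, hb, hc, hd,
        S.inv, sym c a hc ha, sym c b hc hb, sym d a hd ha, sym d b hd hb, smul_eq_mul,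
        RingHom.id_apply]
      ring
    · obtain ⟨e, he, h⟩ := Q.exists_fix [0, 1, -1] (by simp; omega)
      simp only [List.mem_cons, List.not_mem_nil, or_false, not_or] at h
      exact ⟨e, he, h.1, fun h' => (mul_self_eq_one_iff.1 h').elim h.2.1 h.2.2⟩
    · have k : ∀ a : F, H10.cj F q a = -a → a / ζ ∈ F₀ := fun a ha =>
        (hK _).2 (by rw [map_div₀, ha, hζ, neg_div_neg_eq])
      obtain ⟨x, y, h⟩ := exists_mul_sq_add_mul_sq (F := F₀) (a := ⟨_, k a ha⟩) (b := ⟨_, k b hb⟩)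
        (fun h => div_ne_zero a0 hζ0 (congrArg Subtype.val h))
        (fun h => div_ne_zero b0 hζ0 (congrArg Subtype.val h)) (-⟨_, k c hc⟩)
      have h' : a / ζ * (x : F) ^ 2 + b / ζ * (y : F) ^ 2 = -(c / ζ) := congrArg Subtype.val h
      refine ⟨x, y, hfix _ x.2, hfix _ y.2, ?_⟩
      field_simp at h'
      linear_combination h'
  refine isMaximalIn_subfield (comap_GG_su hζ0) fun N hN => ?_
  obtain rfl : N = KT τ := by
    ext g
    rw [hN, mem_KT]
    constructor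
    · rintro ⟨c, c0, h⟩
      have h1 : ∀ x, τ x = x → τ (g x) = (H10.cj F q c / c) • g x := fun x hx => by
        obtain ⟨x, rfl⟩ := (hτ x).1 hx
        obtain ⟨y, hy⟩ := h x
        rw [hy, map_smulₛₗ, (hτ _).2 ⟨y, rfl⟩, smul_smul, div_mul_cancel₀ _ c0]
      refine ⟨H10.cj F q c / c, div_ne_zero ((map_ne_zero _).2 c0) c0, fun x => ?_⟩
      obtain ⟨a, b, ha, hb, rfl⟩ := dec x
      simp only [map_add, map_smulₛₗ, h1 a ha, h1 b hb, ha, hb, RingHom.id_apply]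
      module
    · rintro ⟨μ, μ0, h⟩
      obtain ⟨e, e0, he, -⟩ := C.exists_iso_perp S [] (by simp) (by simp)
      obtain ⟨ν, ν0, hν⟩ := C.h90 S (g.map_ne_zero_iff.2 e0) (c := μ) (by rw [h, he])
      refine ⟨ν⁻¹, inv_ne_zero ν0, fun x => ?_⟩
      obtain ⟨y, hy⟩ := (hτ (ν • g (jP F₀ P x))).1 (by
        rw [map_smulₛₗ, h, (hτ _).2 ⟨x, rfl⟩, smul_smul, hν])
      exact ⟨y, by rw [← hy, inv_smul_smul₀ ν0]⟩
  exact C.isMaximalIn S Q

end Cfsg.Agent.K4
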