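import Cfsg.Agent.H98.RowSU
import Cfsg.Agent.H77.LowC5

/-! Unitary subfield subgroups of odd prime index in `SU₄`. -/

set_option autoImplicit false
set_option linter.unusedSectionVars false

namespace Cfsg.Agent.K4

open Module Cfsg.Agent.H27 Cfsg.Agent.H77

section Core

variable {F V : Type*} [Field F] [AddCommGroup V] [Module F V] [FiniteDimensional F V]
  {σ : F →+* F} {B : V →ₛₗ[σ] V →ₗ[F] F} {H N : Subgroup (V ≃ₗ[F] V)}
  {K : Subfield F} {W : Type*} [AddCommGroup W] [Module K W] [FiniteDimensional K W]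
  {j : W →ₗ[K] V} {σ₀ : K →+* K} {B₀ : W →ₛₗ[σ₀] W →ₗ[K] K} {S : W → Prop}

/-- The stabiliser of an additive subgroup. -/
def suoddStab (A : AddSubgroup V) : Subgroup (V ≃ₗ[F] V) where
  carrier := {g | ∀ z, g z ∈ A ↔ z ∈ A}
  one_mem' _ := Iff.rfl
  mul_mem' {g h} hg hh z := (hg (h z)).trans (hh z)
  inv_mem' {g} hg z := by rw [← hg, le_apply_inv]

theorem suodd_t1 {A : AddSubgroup V} {u : V} {φ : Dual F V} (h : T1 H u φ) (hu : φ u = 0)
    (hA : ∀ z ∈ A, φ z • u ∈ A) : T1 (H ⊓ suoddStab A) u φ := by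
  obtain ⟨s, hs, hsf⟩ := h.exists
  refine ⟨s, ⟨hs, fun z => ⟨fun hz => ?_, fun hz => ?_⟩⟩, hsf⟩
  · simpa [hsf, hu] using A.sub_mem hz (hA _ hz)
  · rw [hsf]; exact A.add_mem hz (hA z hz)

theorem suodd_conj [Finite F] (h : SkH B) {u w : V} (h1 : T1 H u (B u)) (h2 : T1 H w (B w))
    (hu : B u u = 0) (hw : B w w = 0) (hwu : B w u ≠ 0) :
    ∃ k ∈ H, (∀ z, B u z = 0 → B w z = 0 → k z = z) ∧
      ∃ y : F, σ y = y ∧ y ≠ 0 ∧ k u = (y * B w u) • w := by
  let A : AddSubgroup V :=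
    { carrier := {z | ∃ x y : F, σ x = x ∧ σ y = y ∧ z = x • u + (y * B w u) • w}
      zero_mem' := ⟨0, 0, map_zero σ, map_zero σ, by simp⟩
      add_mem' := by
        rintro _ _ ⟨x, y, hx, hy, rfl⟩ ⟨x', y', hx', hy', rfl⟩
        exact ⟨x + x', y + y', by rw [map_add, hx, hx'], by rw [map_add, hy, hy'], by module⟩
      neg_mem' := by
        rintro _ ⟨x, y, hx, hy, rfl⟩
        exact ⟨-x, -y, by rw [map_neg, hx], by rw [map_neg, hy], by module⟩ }
  obtain ⟨k, hk, f, ε, hε, e⟩ := T1.exists_conj (suodd_t1 (A := A) h1 hu (by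
      rintro _ ⟨x, y, hx, hy, rfl⟩
      refine ⟨-(y * (B w u * σ (B w u))), 0, by
        rw [map_neg, map_mul, map_mul, hy, h.inv, mul_comm (σ _)], map_zero σ, ?_⟩
      simp only [map_add, map_smul, hu, h.skew w u, smul_eq_mul]
      module))
    (suodd_t1 (A := A) h2 hw (by
      rintro _ ⟨x, y, hx, hy, rfl⟩
      refine ⟨0, x, map_zero σ, hx, ?_⟩
      simp only [map_add, map_smul, hw, smul_eq_mul]
      module)) hu hw (h.ne_symm hwu) hwu
  obtain ⟨x, y, -, hy, e'⟩ := (hk.2 u).2 ⟨1, 0, map_one σ, map_zero σ, by simp⟩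
  have h3 := congrArg (B w) e'
  rw [e] at h3
  simp only [map_add, map_smul, hw, smul_eq_mul, mul_zero, add_zero] at h3
  rw [(mul_eq_zero.mp h3.symm).resolve_right hwu, zero_smul, zero_add] at e'
  refine ⟨k, hk.1, f, y, hy, ?_, e'⟩
  rintro rfl
  rw [zero_mul, zero_smul, k.map_eq_zero_iff] at e'
  simp [e'] at hwu

theorem suodd_nr [Finite F] (h : SkH B) (E : LC H B 1 j B₀ S) (hA : RatS H B 1 j B₀ S)
    (hT : ∀ u, S u → T1 H (j u) ((1 : F) • B (j u))) (hsq : ∀ x : F, x * x ∈ K → x ∈ K)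
    {g : V ≃ₗ[F] V} (hg : g ∈ H) : NR j g := by
  refine E.ps.nr_of_rat E.rs fun v hv _ => E.rat_of_ratio fun u u' hu hu' huu hn h1 h2 => ?_
  have hTw := t1_map hg (E.iso g hg) (hT v hv)
  have hw : B (g (j v)) (g (j v)) = 0 := by rw [E.iso g hg, E.sf hv]
  set w := g (j v)
  have hu0 : u ≠ 0 := by rintro rfl; simp at h1
  have hu0' : u' ≠ 0 := by rintro rfl; simp at h2
  rw [one_smul] at hTw
  obtain ⟨k₁, hk₁, f₁, y, hy, hy0, e₁⟩ :=
    suodd_conj h (by simpa using hT u hu) hTw (E.sf hu) hw h1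
  obtain ⟨k₂, hk₂, f₂, y', hy', hy0', e₂⟩ :=
    suodd_conj h (by simpa using hT u' hu') hTw (E.sf hu') hw h2
  set k := k₂⁻¹ * k₁ with hk
  have hkH : k ∈ H := H.mul_mem (H.inv_mem hk₂) hk₁
  obtain ⟨μ, hμd⟩ : ∃ μ, μ = y * B w (j u) / (y' * B w (j u')) := ⟨_, rfl⟩
  have ku : k (j u) = μ • j u' := by
    apply k₂.injective
    rw [hk, le_mul_apply, le_apply_inv, e₁, map_smul, e₂, smul_smul, hμd,
      div_mul_cancel₀ _ (mul_ne_zero hy0' h2)]
  have hμ : μ ≠ 0 := hμd ▸ div_ne_zero (mul_ne_zero hy0 h1) (mul_ne_zero hy0' h2)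
  obtain ⟨b, b3, b4⟩ := E.ps.rf.one' (not_mem_sp_one_symm hn hu0)
  have h6 : σ μ * (B w (j u') / B w (j u)) ∈ K := by
    have h3 := (E.su_rat hu huu).map hkH (E.iso k hkH)
    rw [ku] at h3
    have h4 := hA u' hu' hu0' _ (h3.of_smul E.rf hμ) b (b3 u' (by simp))
    have h5 : k (j u' - (B w (j u') / B w (j u)) • j u) =
        j u' - (B w (j u') / B w (j u)) • j u := by
      apply k₂.injective
      rw [hk, le_mul_apply, le_apply_inv, f₁ _ (by simp [E.z huu, E.sf hu]) (by simp [h1]),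
        f₂ _ (by simp [E.sf hu', E.z' huu]) (by simp [h1])]
    rw [map_sub, map_smul, ku, sub_eq_iff_eq_add] at h5
    simpa [h5, E.z' (b3 u' (by simp)), E.o b4] using K.neg_mem h4
  have h7 : σ μ * μ ∈ K := by
    have hμT := t1_map hkH (E.iso k hkH) (hT u hu)
    rw [ku] at hμT
    obtain ⟨x, a3, a4⟩ := E.ps.rf.exists_perp hn 1
    obtain ⟨e, a5, a6⟩ := E.ps.rf.one' hn
    simpa [E.o a4, E.o a6] using hA u hu hu0 _ ((E.su_rat hu (a3 u (by simp))).act E.rf E.iso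
      (E.sf hu) (has_Ef_zero.mpr hμT) (by simp [E.z' huu]) (by simp)) e (a5 u (by simp))
  generalize hρ : B w (j u') / B w (j u) = ρ at h6
  have hm : μ * ρ = y / y' := by rw [hμd, ← hρ]; field_simp
  have hm' : σ μ * σ ρ = μ * ρ := by rw [← map_mul, hm, map_div₀, hy, hy']
  have hσμ := (map_ne_zero σ).mpr hμ
  have h8 : μ * ρ ∈ K := hsq _ (by
    have := K.mul_mem h6 (E.sig_mem h6)
    rwa [map_mul, h.inv, show σ μ * ρ * (μ * σ ρ) = μ * ρ * (μ * ρ) by
      linear_combination (μ * ρ) * hm'] at this)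
  have hρ0 : ρ ≠ 0 := hρ ▸ div_ne_zero h2 h1
  have h9 : μ ∈ K := hsq _ (by
    have := K.div_mem (K.mul_mem h8 h7) h6
    rwa [show μ * ρ * (σ μ * μ) / (σ μ * ρ) = μ * μ by field_simp] at this)
  have := K.div_mem h8 h9
  rwa [mul_div_cancel_left₀ _ hμ] at this

theorem suodd_shear (E : LC H B 1 j B₀ S) {u a : W} (ha : S a) (hau : B₀ a u = 0)
    (hn : u ∉ sp K [a]) {s : F} (hs : s ∈ K) :
    ∃ k ∈ H, k (j u) = j u + s • j a ∧ k (j a) = j a := by
  obtain ⟨x, h1, h2⟩ := E.ps.rf.one' hn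
  have h3 : B₀ a ((⟨σ s, E.sig_mem hs⟩ : K) • x) = 0 := by rw [map_smul, h1 a (by simp), smul_zero]
  obtain ⟨-, δ, k, hk, hkf⟩ := E.su_rat ha h3
  refine ⟨k, hk, ?_, by rw [hkf, Ef_fix _ (E.sf ha) (E.z' h3)]⟩
  rw [hkf, Ef, j_smul]
  simp [E.z hau, E.o h2, E.rf.inv]

theorem suodd_ext (E : LC H B 1 j B₀ S) {θ : F} (hθK : θ ∈ K) (hθ : σ θ ≠ θ)
    (hT : ∀ u, S u → ∀ t ∈ K, σ t = t → T1 H (j u) (t • B (j u))) : Ext H B 1 j B₀ S := by
  obtain ⟨l, hlK, hl1, hl2⟩ : ∃ l ∈ K, σ l ≠ l ∧ σ l ≠ -l := by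
    by_cases h : σ θ = -θ
    · refine ⟨1 + θ, K.add_mem K.one_mem hθK, by simpa using hθ, fun h2 => hθ ?_⟩
      rw [map_add, map_one, h] at h2
      linear_combination h - θ * h2
    · exact ⟨θ, hθK, hθ, h⟩
  have hl0 : l ≠ 0 := by rintro rfl; simp at hl1
  have hl0' := (map_ne_zero σ).mpr hl0
  intro u a y t hu ha hua hy
  by_cases hu0 : u = 0
  · rw [hu0, map_zero]; exact su_zero _
  by_cases hn : a ∈ sp K [u]
  · obtain ⟨d, rfl⟩ := mem_sp_one.mp hn
    rw [j_smul, smul_smul]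
    exact su_self (E.sf hu) _
  have hn' := not_mem_sp_one_symm hn hu0
  have hau := E.ps.rf.refl _ _ hua
  have base : ∀ t ∈ K, σ t = t → Su H B 1 (j u) ((t * B (j a) y) • j a) := fun t ht ht' => by
    simpa using hy.act E.rf E.iso (E.sf hu) (has_Ef_zero.mpr (hT a ha t ht ht'))
      (E.z' hua) (by simp)
  have sc : ∀ γ : F, Su H B 1 (j u) (γ • j a) → Su H B 1 (j u) ((σ l / l * γ) • j a) := by
    intro γ hγ
    obtain ⟨k₁, hk₁, a1, a2⟩ := suodd_shear E ha hau hn' K.one_mem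
    obtain ⟨k₂, hk₂, a3, a4⟩ := suodd_shear E hu hua hn (K.sub_mem hlK K.one_mem)
    obtain ⟨k₃, hk₃, a5, a6⟩ := suodd_shear E ha hau hn' (K.neg_mem (K.inv_mem hlK))
    have h3 := ((hγ.map hk₁ (E.iso _ hk₁)).map hk₂ (E.iso _ hk₂)).map hk₃ (E.iso _ hk₃)
    rw [show k₃ (k₂ (k₁ (j u))) = l • j u by
      simp only [a1, a3, a4, a5, a6, map_add, map_smul]
      match_scalars <;> field_simp <;> ring] at h3
    convert (h3.of_smul E.rf hl0).sub E.rf (E.sf hu) (su_self (E.sf hu) (σ l * γ * (l - 1))) using 1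
    simp only [a2, a3, a5, a6, map_add, map_smul]
    match_scalars <;> field_simp <;> ring
  have hε : σ l / l - l / σ l ≠ 0 := fun h => mul_ne_zero (sub_ne_zero.2 hl1) (sub_ne_zero.2 hl2) (by
    field_simp at h; linear_combination h)
  have hε' : l / σ l - σ l / l ≠ 0 := fun h => hε (by linear_combination -h)
  have hεK : σ l / l ∈ K := K.div_mem (E.sig_mem hlK) hlK
  have h2K : (t - σ t) / (σ l / l - l / σ l) ∈ K := K.div_mem (K.sub_mem t.2 (E.sig_mem t.2))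
    (K.sub_mem hεK (K.div_mem hlK (E.sig_mem hlK)))
  have h2 : σ ((t - σ t) / (σ l / l - l / σ l)) = (t - σ t) / (σ l / l - l / σ l) := by
    simp only [map_div₀, map_sub, E.rf.inv]
    rw [div_eq_div_iff hε' hε]; ring
  have h3 : (t - σ t) / (σ l / l - l / σ l) * (σ l / l - l / σ l) = t - σ t := div_mul_cancel₀ _ hε
  generalize (t - σ t) / (σ l / l - l / σ l) = t₂ at h2K h2 h3
  convert (base (t - σ l / l * t₂) (K.sub_mem t.2 (K.mul_mem hεK h2K)) (by
    simp only [map_sub, map_mul, map_div₀, E.rf.inv, h2]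
    linear_combination h3)).add E.rf (E.sf hu) (sc _ (base t₂ h2K h2)) using 1
  module

theorem suodd_max [Finite F] (h : SkH B) (hj : RS j) (P : PS B₀ fun x => B₀ x x = 0)
    (hB : ∀ x y, B (j x) (j y) = B₀ x y) (hn : 2 < finrank K W) (hN : ∀ g, g ∈ N ↔ NR j g)
    (hK : K ≠ ⊤) (hd : ∀ M : Subring F, (∀ c ∈ K, c ∈ M) → (∀ c ∈ M, c ∈ K) ∨ ∀ c, c ∈ M)
    (hsq : ∀ x : F, x * x ∈ K → x ∈ K) {θ : F} (hθK : θ ∈ K) (hθ : σ θ ≠ θ) :
    Geo.IsMaximalIn (GG B) (N ⊓ GG B) := by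
  refine (lc_GG hj (rf_of_skH h) P hB (Or.inl rfl) fun x y => by rw [h.skew]; ring).maximal hn
    hN hK (fullS_skH h P hB) fun H _ E h1 => ?_
  have hT := fun u hu => t1_rat h hB h1 (u := u) hu K.one_mem (map_one σ)
  have hX := suodd_ext E hθK hθ fun u hu t ht ht' => t1_rat h hB h1 hu ht ht'
  obtain ⟨u, hu, hu0⟩ := P.exists_ne
  rcases hd
    { carrier := {m | ∀ β ∈ E.grp, m * β ∈ E.grp}
      one_mem' := fun β hβ => by rwa [one_mul]
      zero_mem' := fun β _ => by rw [zero_mul]; exact E.grp.zero_mem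
      mul_mem' := fun ha hb β hβ => by rw [mul_assoc]; exact ha _ (hb β hβ)
      add_mem' := fun ha hb β hβ => by rw [add_mul]; exact E.grp.add_mem (ha β hβ) (hb β hβ)
      neg_mem' := fun ha β hβ => by rw [neg_mul]; exact E.grp.neg_mem (ha β hβ) }
    (fun d hd β => E.mul_mem_grp hd) with hM | hM
  · have hNm : ∀ γ ∈ E.grp, γ * σ γ ∈ K := fun γ hγ => hM _ fun β hβ => by
      obtain ⟨a, ha, a1, a2⟩ := P.line u hu
      obtain ⟨x, a3, a4⟩ := P.rf.exists_perp a2 1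
      obtain ⟨x', a5, a6⟩ := P.rf.one' (not_mem_sp_one_symm a2 hu0)
      obtain ⟨e', a7, a8⟩ := P.rf.one' a2
      obtain ⟨-, δ, k, hk, hkf⟩ := E.su_of_grp hγ ha (a5 a (by simp))
      have b1 := t1_map hk (E.iso k hk) (hT u hu)
      rw [hkf, Ef] at b1
      have b2 : Has H (Ef B 1 (j a) (γ • j u) (γ * σ γ)) :=
        (Has.comp b1 ((hT u hu).neg_right (by simp [E.sf hu]))).congr fun t => by
          simp only [Ef, map_add, map_smulₛₗ, LinearMap.add_apply, LinearMap.smul_apply,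
            LinearMap.neg_apply, E.z' a1, E.z a1, E.sf hu, E.o a6, smul_eq_mul, RingHom.id_apply,
            map_zero, map_mul, map_one, h.inv, mul_zero, add_zero, mul_one, one_mul]
          module
      simpa [E.o a4, E.o a8, E.z' (a7 u (by simp)), E.z (a3 u (by simp))] using
        E.grp_of_su hX hu hu0 ((E.su_of_grp hβ hu (a3 u (by simp))).act E.rf E.iso (E.sf hu) b2
          (E.z' a1) (by simp [E.sf hu])) (a7 u (by simp))
    have hA : RatS H B 1 j B₀ fun x => B₀ x x = 0 := fun e he he0 y hy b hb => by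
      have hγ := E.grp_of_su hX he he0 hy hb
      generalize B (j b) y = γ at hγ
      have k : ∀ d ∈ K, γ * σ d + d * σ γ ∈ K := fun d hd => by
        have := K.sub_mem (K.sub_mem (hNm _ (E.grp.add_mem hγ (E.mul_mem_grp hd E.one_mem_grp)))
          (hNm γ hγ)) (K.mul_mem hd (E.sig_mem hd))
        convert this using 1
        rw [mul_one, map_add]; ring
      have := K.div_mem (K.sub_mem (k θ hθK) (K.mul_mem hθK (k 1 K.one_mem)))
        (K.sub_mem (E.sig_mem hθK) hθK)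
      convert this using 1
      rw [eq_div_iff (sub_ne_zero.2 hθ), map_one]; ring
    exact Or.inl fun g hg => suodd_nr h E hA hT hsq hg
  · exact Or.inr (h.gen H fun v hv t ht => E.all_tv
      (E.fullS_of fun β => by simpa using hM β 1 E.one_mem_grp) hT
      (norm_span h.inv one_ne_zero (by simp)) hv (by rw [ht, one_mul]))

end Core

open Cfsg.Agent.H10 Cfsg.Geo

theorem su_sub_odd {F : Type*} [Field F] [Fintype F] (q : ℕ) (hF : Fintype.card F = q ^ 2) :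
    ∀ (F₀ : Subfield F) (r : ℕ) (P : Matrix.GeneralLinearGroup (Fin 4) F), r.Prime → Odd r → Fintype.card F = Nat.card F₀ ^ r → Cfsg.Geo.IsFormRationalStructure (Cfsg.hermForm 4 F q) F₀ 1 P → Cfsg.Geo.IsMaximalIn (Cfsg.GU 4 F q ⊓ Cfsg.Geo.specialLinear (Fin 4) F) (Cfsg.Geo.subfieldSubgroup F₀ P ⊓ (Cfsg.GU 4 F q ⊓ Cfsg.Geo.specialLinear (Fin 4) F)) := by
  intro F₀ r P hr hro hcard hP
  haveI : Fact (Fintype.card F = q ^ 2) := ⟨hF⟩
  have hd := subring_dichotomy hr hcard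
  have hns : ∀ θ : F, ¬ ∀ x : F, ∃ a b : F₀, x = a + b * θ := fun θ hc => by
    have h1 := Nat.card_le_card_of_surjective (fun x : F₀ × F₀ => (x.1 : F) + x.2 * θ) fun x => by
      obtain ⟨a, b, h⟩ := hc x
      exact ⟨(a, b), h.symm⟩
    rw [Nat.card_prod, Nat.card_eq_fintype_card, hcard, ← pow_two,
      Nat.pow_le_pow_iff_right (Finite.one_lt_card (α := F₀))] at h1
    have := hr.two_le
    obtain rfl : r = 2 := by omega
    exact absurd hro (by decide)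
  have hsq : ∀ x : F, x * x ∈ F₀ → x ∈ F₀ := fun x hx => by
    refine (hd
      { carrier := {z | ∃ a b : F₀, z = a + b * x}
        one_mem' := ⟨1, 0, by simp⟩
        zero_mem' := ⟨0, 0, by simp⟩
        mul_mem' := by
          rintro _ _ ⟨a, b, rfl⟩ ⟨c, d, rfl⟩
          exact ⟨a * c + b * d * ⟨_, hx⟩, a * d + b * c, by push_cast; ring⟩
        add_mem' := by
          rintro _ _ ⟨a, b, rfl⟩ ⟨c, d, rfl⟩
          exact ⟨a + c, b + d, by push_cast; ring⟩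
        neg_mem' := by
          rintro _ ⟨a, b, rfl⟩
          exact ⟨-a, -b, by push_cast; ring⟩ }
      (fun c hc => ⟨⟨c, hc⟩, 0, by simp⟩)).elim (fun h => h x ⟨0, 1, by simp⟩)
      fun h => absurd h (hns x)
  obtain ⟨e, heK, he⟩ : ∃ e ∈ F₀, H10.cj F q e ≠ e := by
    by_contra hc
    push Not at hc
    obtain ⟨θ, hθ⟩ := exists_cj_ne (F := F) (q := q)
    exact hns θ (fix_decomp H10.cj_cj hθ hc hd)
  set ζ := e - H10.cj F q e with hζ
  have hζ0 : ζ ≠ 0 := sub_ne_zero.mpr he.symm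
  have hζ1 : H10.cj F q ζ = -ζ := by rw [hζ, map_sub, H10.cj_cj]; ring
  have hK : ∀ x y, suB 4 q ζ (jP F₀ P x) (jP F₀ P y) ∈ F₀ := fun x y =>
    F₀.mul_mem (F₀.sub_mem heK (F₀.pow_mem heK q))
      (by simpa [jP_apply] using hP _ _ (fun i => (y i).2) fun i => (x i).2)
  let σ₀ : F₀ →+* F₀ := (H10.cj F q).restrict F₀ F₀ fun x hx => F₀.pow_mem hx q
  have hS := skH_su (n := 4) (by omega) hζ0 hζ1
  have hinv : ∀ a, σ₀ (σ₀ a) = a := fun a => Subtype.ext (H10.cj_cj (q := q) a.1)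
  let B₀ := formK (jP F₀ P) (suB 4 q ζ) σ₀ (fun _ => rfl) hK
  have hR : RF B₀ := rf_of_rs (rs_jP F₀ P) (rf_of_skH hS) hinv fun _ _ => rfl
  have hs : ∀ x y, B₀ y x = -σ₀ (B₀ x y) := fun x y => Subtype.ext (hS.skew _ _)
  have hσ : σ₀ ≠ RingHom.id F₀ := fun h =>
    he (congrArg Subtype.val (RingHom.congr_fun h ⟨e, heK⟩))
  exact isMaximalIn_subfield (comap_GG_su hζ0) fun N hN => suodd_max hS (rs_jP F₀ P)
    (ps_skew hR hs (fun z => exists_sub_sig hinv hσ (neg_eq_iff_eq_neg.mp (hs z z).symm))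
      (solv_skew2 hR hs hσ (by simp)) (by simp))
    (fun _ _ => rfl) (by simp) hN (subfield_ne_top hr hcard) hd hsq heK he

end Cfsg.Agent.K4
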