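import Cfsg.Agent.H98.RowSU
import Cfsg.Agent.H77.LowC5

/-! The symplectic subfield subgroup of `SU₄`. -/

set_option autoImplicit false
set_option linter.unusedSectionVars false

namespace Cfsg.Agent.K4

open Module Cfsg.Agent.H27 Cfsg.Agent.H77

section Core

variable {F V : Type*} [Field F] [AddCommGroup V] [Module F V] [FiniteDimensional F V]
  {σ : F →+* F} {B : V →ₛₗ[σ] V →ₗ[F] F} {N : Subgroup (V ≃ₗ[F] V)}
  {K : Subfield F} {W : Type*} [AddCommGroup W] [Module K W] [FiniteDimensional K W]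
  {j : W →ₗ[K] V} {B₀ : W →ₗ[K] W →ₗ[K] K}

theorem susp_dec (hj : RS j) {θ : F} (h : ∀ x : F, ∃ a b : K, x = a + b * θ) (w : V) :
    ∃ x y, w = j x + θ • j y := by
  let A : Submodule F V :=
    { carrier := {w | ∃ x y, w = j x + θ • j y}
      zero_mem' := ⟨0, 0, by simp⟩
      add_mem' := by
        rintro _ _ ⟨x, y, rfl⟩ ⟨x', y', rfl⟩
        exact ⟨x + x', y + y', by simp only [map_add]; module⟩
      smul_mem' := by
        rintro d _ ⟨x, y, rfl⟩
        obtain ⟨a, b, h1⟩ := h d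
        obtain ⟨a', b', h2⟩ := h (d * θ)
        refine ⟨a • x + a' • y, b • x + b' • y, ?_⟩
        rw [smul_add, smul_smul, h2, h1]
        simp only [map_add, j_smul]
        module }
  show w ∈ A
  rw [hj.eq_top (A := A) fun x => ⟨x, 0, by simp⟩]; trivial

theorem susp_max (h : SkH B) (hj : RS j) (hA : ∀ x, B₀ x x = 0)
    (hB : ∀ x y, B (j x) (j y) = B₀ x y) (hn : 2 < finrank K W) (hN : ∀ g, g ∈ N ↔ NR j g)
    (hd : ∀ M : Subring F, (∀ c ∈ K, c ∈ M) → (∀ c ∈ M, c ∈ K) ∨ ∀ c, c ∈ M)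
    (hfix : ∀ c ∈ K, σ c = c) {θ : F} (hθ : σ θ ≠ θ) : Geo.IsMaximalIn (GG B) (N ⊓ GG B) := by
  have hR : RF B₀ := rf_of_rs (σ₀ := RingHom.id K) hj (rf_of_skH h) (fun _ => rfl) hB
  have P : PS (σ₀ := RingHom.id K) B₀ fun x => B₀ x x = 0 :=
    ps_skew hR (alt_skew hA) (fun z => ⟨0, by simp [hA]⟩) (solv_alt hA 2) hn
  have hk : ∀ c, σ c = c → c ∈ K :=
    (hd (σ.eqLocus (RingHom.id F)) hfix).resolve_right fun h => hθ (h θ)
  refine (lc_GG hj (rf_of_skH h) P hB (Or.inl rfl) fun x y => by rw [h.skew]; ring).maximal hn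
    hN (fun hK => hθ (hfix θ (by rw [hK]; trivial))) (fullS_skH h P hB) fun H hHG E h1 => ?_
  by_cases hr : ∀ g ∈ H, ∀ x, Rat j (g (j x))
  · have : Nontrivial W := Module.nontrivial_of_finrank_pos (R := K) (by omega)
    exact Or.inl fun g hg => hj.nr_of_rat_all (hr g hg)
  right
  push Not at hr
  obtain ⟨g, hg, x, hx⟩ := hr
  have hAS : ∀ u, AS B H (j u) := fun u =>
    ⟨E.sf (hA u), fun c hc => t1_rat (σ₀ := RingHom.id K) h hB h1 (hA u) (hk c hc) hc⟩
  have hz := (hAS x).conj hg (hHG hg).1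
  have hdec := susp_dec hj (fix_decomp h.inv hθ hfix hd)
  obtain ⟨a, b, hab⟩ := hdec (g (j x))
  rw [hab] at hz hx
  have key : ∀ a b, ¬ Rat j (j a + θ • j b) → B (j a + θ • j b) (j a + θ • j b) = 0 →
      LinearIndependent K ![a, b] ∧ ∀ r s, B₀ (![a, b] r) (![a, b] s) = 0 := by
    intro a b h2 h3
    refine ⟨LinearIndependent.pair_iff.mpr fun s t hst => ?_, ?_⟩
    · by_contra hc
      by_cases hs : s = 0
      · have ht : t ≠ 0 := fun ht => hc ⟨hs, ht⟩
        rw [hs, zero_smul, zero_add, smul_eq_zero] at hst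
        exact h2 ⟨1, a, by simp [hst.resolve_left ht]⟩
      · refine h2 ⟨θ - (t / s : K), b, ?_⟩
        have : a = (-(t / s)) • b := by
          rw [← smul_right_inj hs, smul_smul, eq_neg_of_add_eq_zero_left hst, ← neg_smul]
          congr 1
          field_simp
        rw [this, j_smul]
        push_cast
        module
    · have h4 : B₀ a b = 0 := by
        simp only [map_add, map_smulₛₗ, LinearMap.add_apply, LinearMap.smul_apply, hB, hA,
          alt_skew hA a b, smul_eq_mul, RingHom.id_apply] at h3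
        push_cast at h3
        exact Subtype.ext (mul_left_cancel₀ (sub_ne_zero.2 hθ.symm) (by
          push_cast; linear_combination h3))
      intro r s
      fin_cases r <;> fin_cases s <;> simp [hA, h4, alt_skew hA a b]
  let L : Subgroup (W ≃ₗ[K] W) :=
    { carrier := {g₀ | ∃ g ∈ H, ∀ x, g (j x) = j (g₀ x)}
      one_mem' := ⟨1, H.one_mem, fun _ => rfl⟩
      mul_mem' := by
        rintro _ _ ⟨g, hg, e⟩ ⟨g', hg', e'⟩
        exact ⟨g * g', H.mul_mem hg hg', fun x => by rw [le_mul_apply, le_mul_apply, e', e]⟩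
      inv_mem' := by
        rintro _ ⟨g, hg, e⟩
        exact ⟨g⁻¹, H.inv_mem hg, fun x => g.injective (by rw [le_apply_inv, e, le_apply_inv])⟩ }
  have hL : Iso B₀ ≤ L := iso_le_of_alt hA hR.nd L fun v c => by
    obtain ⟨k, hk, hkf⟩ := ((hAS v).2 c (hfix c c.2)).exists
    refine t1_of_tv (by simp [hA]) ⟨k, hk, fun x => ?_⟩
    rw [hkf, tv_apply, map_add, j_smul, LinearMap.smul_apply, LinearMap.smul_apply, hB]
    rfl
  refine h.gen H fun v hv => (?_ : AS B H v).2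
  obtain ⟨a', b', rfl⟩ := hdec v
  by_cases hv' : Rat j (j a' + θ • j b')
  · obtain ⟨c, y, e⟩ := hv'
    rw [e]
    exact h.as_smul (hAS y) c
  obtain ⟨k1, k2⟩ := key a b hx hz.1
  obtain ⟨k3, k4⟩ := key a' b' hv' hv
  obtain ⟨g₀, hg₀, e⟩ := (skH_alt hA hR.nd).witt_family k1 k3 fun r s => by rw [k2, k4]
  obtain ⟨g', hg', e'⟩ := hL hg₀
  have := hz.conj hg' (hHG hg').1
  rwa [map_add, map_smul, e', e', show g₀ a = a' from e 0, show g₀ b = b' from e 1] at this

end Core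

open Cfsg.Agent.H10 Cfsg.Geo

theorem su_sub_sp {F : Type*} [Field F] [Fintype F] (q : ℕ) (hF : Fintype.card F = q ^ 2) :
    ∀ (F₀ : Subfield F) (P : Matrix.GeneralLinearGroup (Fin 4) F) (ζ : F), Fintype.card F = Nat.card F₀ ^ 2 → ζ ≠ 0 → ζ + ζ ^ q = 0 → Cfsg.Geo.IsFormRationalStructure (Cfsg.hermForm 4 F q) F₀ ζ P → (∀ u : Fin 4 → F, (∀ i, u i ∈ F₀) → (Cfsg.hermForm 4 F q) (Matrix.mulVec (P : Matrix (Fin 4) (Fin 4) F) u) (Matrix.mulVec (P : Matrix (Fin 4) (Fin 4) F) u) = 0) → Cfsg.Geo.IsMaximalIn (Cfsg.GU 4 F q ⊓ Cfsg.Geo.specialLinear (Fin 4) F) (Cfsg.Geo.subfieldSubgroup F₀ P ⊓ (Cfsg.GU 4 F q ⊓ Cfsg.Geo.specialLinear (Fin 4) F)) := by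
  intro F₀ P ζ hcard hζ0 hζ hP halt
  haveI : Fact (Fintype.card F = q ^ 2) := ⟨hF⟩
  have hfix : ∀ c ∈ F₀, H10.cj F q c = c := fun c hc => by
    haveI := Fintype.ofFinite F₀
    have hq : Fintype.card F₀ = q := by
      rw [← Nat.card_eq_fintype_card]
      exact Nat.pow_left_injective two_ne_zero (hcard.symm.trans hF)
    exact congrArg Subtype.val (hq ▸ FiniteField.pow_card (⟨c, hc⟩ : F₀))
  obtain ⟨θ, hθ⟩ := exists_cj_ne (F := F) (q := q)
  have hK : ∀ x y, suB 4 q ζ (jP F₀ P x) (jP F₀ P y) ∈ F₀ := fun x y => by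
    rw [suB_apply, jP_apply, jP_apply]
    exact hP _ _ (fun i => (y i).2) fun i => (x i).2
  have hS := skH_su (n := 4) (by omega) hζ0 (eq_neg_of_add_eq_zero_right hζ)
  let B₀ := formK (jP F₀ P) (suB 4 q ζ) (RingHom.id F₀) (fun d => hfix d d.2) hK
  have hB : ∀ x y, suB 4 q ζ (jP F₀ P x) (jP F₀ P y) = B₀ x y := fun _ _ => rfl
  have hA : ∀ x, B₀ x x = 0 := fun x => Subtype.ext (by
    rw [← hB, suB_apply, jP_apply, halt _ fun i => (x i).2, mul_zero]; rfl)
  refine isMaximalIn_subfield (comap_GG_su hζ0) fun N hN => ?_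
  exact susp_max hS (rs_jP F₀ P) hA hB (by simp) hN (subring_dichotomy Nat.prime_two hcard) hfix hθ

end Cfsg.Agent.K4
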