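import Cfsg.Agent.H98.RowSU
import Cfsg.Agent.H77.Pair3
import Cfsg.Agent.H77.SubCore

/-! The stabiliser of a decomposition into two totally isotropic planes is maximal in `SU₄(q)`. -/

set_option autoImplicit false
set_option linter.unusedSectionVars false
set_option linter.unusedSimpArgs false

namespace Cfsg.Agent.K4

open Module Cfsg.Geo Cfsg.Agent.H27

section Core

variable {F V : Type*} [Field F] [AddCommGroup V] [Module F V] {σ : F →+* F}
variable {B : V →ₛₗ[σ] V →ₗ[F] F} {M : Subgroup (V ≃ₗ[F] V)} [FiniteDimensional F V]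
variable {D : Fin 2 → Submodule F V}

theorem suts_span {W : Submodule F V} (h2 : finrank F W = 2) {x w z : V} (hx : x ∈ W) (hw : w ∈ W)
    (hx0 : x ≠ 0) (hwx : w ∉ Submodule.span F {x}) (hz : z ∈ W) : ∃ α β : F, α • x + β • w = z := by
  rw [← Submodule.mem_span_pair]
  by_contra hc
  have h3 := Submodule.finrank_lt_finrank_of_lt (show Submodule.span F {x} < Submodule.span F {x, w}
    from lt_of_le_of_ne (Submodule.span_mono (by simp)) fun h => hwx (by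
      rw [h]; exact Submodule.subset_span (by simp)))
  have h4 := Submodule.finrank_lt_finrank_of_lt (show Submodule.span F {x, w} < W from
    lt_of_le_of_ne (Submodule.span_le.2 (by rintro _ (rfl | rfl); exacts [hx, hw])) fun h =>
      hc (by rwa [h]))
  rw [finrank_span_singleton hx0] at h3
  omega

/-- The standing hypotheses. -/
structure TS (B : V →ₛₗ[σ] V →ₗ[F] F) (D : Fin 2 → Submodule F V) (M : Subgroup (V ≃ₗ[F] V))
    (m : F) : Prop where
  sk : SkH B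
  ti : ∀ i, ∀ x ∈ D i, ∀ y ∈ D i, B x y = 0
  tr : ∀ t, σ t = t → ∃ d, t = d + σ d
  nm : ∀ t, σ t = t → ∃ r, σ r * r = t
  dim : ∀ i, finrank F (D i) = 2
  le : dstab D ⊓ GG B ≤ M
  ge : M ≤ GG B
  nas : ∀ i, ∀ u ∈ D i, u ≠ 0 → ¬ AS B M u
  fix : σ m = m
  m0 : m ≠ 0
  m1 : m * m ≠ 1

namespace TS

variable {m : F} (T : TS B D M m) (d : Dec D)
include T d

theorem mem_of_perp {i : Fin 2} {u : V} (h : ∀ v ∈ D i, B u v = 0) : u ∈ D i := by
  obtain ⟨j, hj⟩ := exists_ne i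
  have : d.π j u = 0 := T.sk.nd _ fun v => by
    rw [← T.sk.pair_π d T.ti hj.symm (d.mem j u)]
    apply T.sk.zero_symm
    rw [T.sk.pair_π d T.ti hj (d.mem i v)]
    exact T.sk.zero_symm (h _ (d.mem i v))
  rw [← d.add_two hj u, this, zero_add]
  exact d.mem i u

theorem uniq {i j : Fin 2} (hij : i ≠ j) {x y w : V} (hx : x ∈ D i) (hx0 : x ≠ 0) (hy : y ∈ D j)
    (hw : w ∈ D j) (hy0 : y ≠ 0) (h1 : B x y = 0) (h2 : B x w = 0) : ∃ b : F, b • y = w := by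
  rw [← Submodule.mem_span_singleton]
  by_contra hc
  refine hx0 (d.eq_zero_of_mem hij hx (T.mem_of_perp d fun v hv => ?_))
  obtain ⟨α, β, rfl⟩ := suts_span (T.dim j) hy hw hy0 hc hv
  simp [h1, h2]

omit d in
theorem ex (j : Fin 2) (x : V) : ∃ y ∈ D j, y ≠ 0 ∧ B x y = 0 := by
  obtain ⟨y, hy, h1, h2⟩ := exists_ker_list [B x] (W := D j) (S := ⊥) (by simp [T.dim])
  exact ⟨y, hy, by simpa using h2, h1 _ (by simp)⟩

theorem move {i : Fin 2} {x z : V} (hx : x ∈ D i) (hx0 : x ≠ 0) (hz : z ∈ D i)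
    (hzx : z ∉ Submodule.span F {x}) : ∃ s ∈ M, s x = z := by
  obtain ⟨j, hj⟩ := exists_ne i
  have hzx' : z - x ∉ Submodule.span F {x} := fun hc => hzx (by
    simpa using Submodule.add_mem _ hc (Submodule.mem_span_singleton_self x))
  have hm := (D i).sub_mem hz hx
  obtain ⟨y, hy, hy1, hy2⟩ := T.sk.pair_exists d T.ti hj.symm (W := Submodule.span F {z - x})
    ((Submodule.span_singleton_le_iff_mem _ _).2 hm) hx (not_mem_span_symm hzx' hx0)
  obtain ⟨s, hs, hsf⟩ := T.sk.pair_std d T.ti hj.symm hm hy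
    (T.sk.zero_symm (hy1 _ (Submodule.mem_span_singleton_self _)))
  exact ⟨s, T.le hs, by
    rw [hsf, T.ti i _ hm x hx, hy2, zero_smul, add_zero, one_smul, add_sub_cancel]⟩

theorem not_t1 {i : Fin 2} {x : V} (hx : x ∈ D i) (hx0 : x ≠ 0) {c : F} (hc : σ c = c)
    (h : T1 M x (c • B x)) : c = 0 := by
  by_contra hc0
  refine T.nas i x hx hx0 ⟨T.ti i x hx x hx, fun t ht => ?_⟩
  rcases eq_or_ne t 0 with rfl | ht0
  · simpa using t1_zero_right x
  obtain ⟨r, hr⟩ := T.nm (t / c) (by rw [map_div₀, ht, hc])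
  have hr0 : r ≠ 0 := by
    rintro rfl
    exact div_ne_zero ht0 hc0 (by rw [← hr, mul_zero])
  obtain ⟨w, hw, hwx⟩ := exists_not_mem_span_singleton (T.dim i).ge x
  obtain ⟨s, hs, e⟩ := T.move d hx hx0 hw hwx
  obtain ⟨s', hs', e'⟩ := T.move d hw (by rintro rfl; exact hwx (Submodule.zero_mem _))
    ((D i).smul_mem r hx) fun hm =>
      not_mem_span_symm hwx hx0 ((Submodule.smul_mem_iff _ hr0).1 hm)
  have := H77.t1_map hs' (T.ge hs').1 (H77.t1_map hs (T.ge hs).1 h)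
  rw [e, e', t1_smul, map_smulₛₗ, smul_smul, smul_smul] at this
  rwa [show r * c * σ r = t by field_simp at hr; linear_combination hr] at this

theorem tor {i j : Fin 2} (hij : i ≠ j) {e f : V} (he : e ∈ D j) (hf : f ∈ D i) (hfe : B f e = 1)
    {s : F} (hs : σ s = s) (s0 : s ≠ 0) :
    ∃ t ∈ M, ∀ z, t z = z + ((s - 1) * B f z) • e + ((1 - s⁻¹) * B e z) • f := by
  have hef := T.sk.one_symm hfe
  have hee := T.ti j e he e he
  have hff := T.ti i f hf f hf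
  have h1 : 1 + ((s - 1) • B f) e = s := by simp [hfe]
  have h2 : 1 + ((1 - s⁻¹) • B e) f = s⁻¹ := by simp [hef]
  have key : ∀ z, (dil e _ (h1 ▸ s0) * dil f _ (h2 ▸ inv_ne_zero s0)) z =
      z + ((s - 1) * B f z) • e + ((1 - s⁻¹) * B e z) • f := fun z => by
    simp only [le_mul_apply, dil_apply, LinearMap.smul_apply, map_add, map_smul, hff, smul_eq_mul]
    module
  refine ⟨_, T.le ⟨mem_dstab_of_stab fun k => mem_stab_of_mapsTo fun z hz => ?_,
    fun x y => ?_, mem_SLV.2 ?_⟩, key⟩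
  · rw [key]
    rcases fin2_cases hij k with rfl | rfl
    · rw [T.ti k f hf z hz, mul_zero, zero_smul, add_zero]
      exact (D k).add_mem hz ((D k).smul_mem _ hf)
    · rw [T.ti k e he z hz, mul_zero, zero_smul, add_zero]
      exact (D k).add_mem hz ((D k).smul_mem _ he)
  · rw [key, key]
    simp only [map_add, map_smulₛₗ, LinearMap.add_apply, LinearMap.smul_apply, hee, hff, hef, hfe,
      T.sk.skew e x, T.sk.skew f x, smul_eq_mul, RingHom.id_apply, map_mul, map_sub, map_one,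
      map_inv₀, hs]
    field_simp
    ring
  · rw [det_mul', det_dil, det_dil, h1, h2, mul_inv_cancel₀ s0]

theorem key {g : V ≃ₗ[F] V} (hg : g ∈ M) {i j k l : Fin 2} (hij : i ≠ j) (hkl : k ≠ l) {x y : V}
    (hx : x ∈ D i) (hx0 : x ≠ 0) (hgx : g x ∈ D k) (hy : y ∈ D j) (hxy : B x y = 0) : g y ∈ D l :=
  H77.pair_K T.sk d T.ti T.tr T.le hkl hgx (T.nas k _ hgx ((g.map_ne_zero_iff).2 hx0))
    (((T.ge hg).1 x y).trans hxy) fun c => by
      have := (T.sk.pair_es d T.ti T.le hij hx ((D j).smul_mem c hy) (by simp [hxy])).conj hg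
        (T.ge hg).1
      rwa [map_smul] at this

theorem prop {g : V ≃ₗ[F] V} (hg : g ∈ M) {i k : Fin 2} {x : V} (hx : x ∈ D i) (hx0 : x ≠ 0)
    (hgx : g x ∈ D k) : ∀ a ∈ D i, g a ∈ D k := by
  have hgi : ∀ x y, B (g x) (g y) = B x y := (T.ge hg).1
  obtain ⟨j, hj⟩ := exists_ne i
  obtain ⟨l, hl⟩ := exists_ne k
  obtain ⟨y, hy, hy0, hxy⟩ := T.ex j x
  have hY := T.key d hg hj.symm hl.symm hx hx0 hgx hy hxy
  obtain ⟨y', hy', -, h1⟩ := T.sk.pair_exists d T.ti hj (W := ⊥) bot_le hy (by simpa using hy0)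
  obtain ⟨b, hb⟩ := T.uniq d hl.symm hgx ((g.map_ne_zero_iff).2 hx0) hY (d.mem l (g y'))
    ((g.map_ne_zero_iff).2 hy0) (by rw [hgi, hxy])
    (by rw [T.sk.pair_π d T.ti hl hgx, hgi, T.ti i x hx y' hy'])
  have h2 := d.add_two hl.symm (g y')
  have hY' := d.mem k (g y')
  rw [← hb] at h2
  generalize d.π k (g y') = Y' at h2 hY'
  have hYY := T.ti l _ hY _ hY
  have h3 : B Y' (g y) = 1 := by
    have := hgi y' y
    rw [← h2] at this
    simpa [hYY, h1] using this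
  have h3' := T.sk.one_symm h3
  have hYY' := T.ti k _ hY' _ hY'
  have h4 : σ b = b := by
    have := hgi y' y'
    rw [← h2, T.ti i _ hy' _ hy'] at this
    simp only [map_add, map_smulₛₗ, LinearMap.add_apply, LinearMap.smul_apply, hYY, hYY', h3, h3',
      smul_eq_mul, RingHom.id_apply] at this
    linear_combination -this
  obtain ⟨t, ht, htf⟩ := T.tor d hj.symm hy hy' h1 (s := m⁻¹) (by rw [map_inv₀, T.fix])
    (inv_ne_zero T.m0)
  obtain ⟨t', ht', htf'⟩ := T.tor d hl.symm hY hY' h3 T.fix T.m0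
  have h5 : b * (1 - m * m) = 0 := T.not_t1 d hY ((g.map_ne_zero_iff).2 hy0)
    (by rw [map_mul, map_sub, map_mul, h4, T.fix, map_one]) ⟨t' * g * t * g⁻¹,
      M.mul_mem (M.mul_mem (M.mul_mem ht' hg) ht) (M.inv_mem hg), fun z => by
        obtain ⟨z, rfl⟩ := g.surjective z
        have h6 : B Y' (g z) = B y' z - b * B y z := by
          rw [← hgi y' z, ← hgi y z, ← h2]
          simp [h4]
        simp only [le_mul_apply, le_inv_apply, htf, htf', map_add, map_smul, ← h2, hYY, hYY', h3, h3',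
          h6, hgi y z, LinearMap.smul_apply, smul_eq_mul]
        have := T.m0
        match_scalars <;> field_simp <;> ring⟩
  rw [(mul_eq_zero.1 h5).resolve_right (sub_ne_zero.2 T.m1.symm), zero_smul, add_zero] at h2
  intro a ha
  obtain ⟨α, β, rfl⟩ := suts_span (T.dim i) hx hy' hx0 (fun hm => by
    obtain ⟨c, rfl⟩ := Submodule.mem_span_singleton.1 hm
    simp [hxy] at h1) ha
  rw [map_add, map_smul, map_smul, ← h2]
  exact (D k).add_mem ((D k).smul_mem _ hgx) ((D k).smul_mem _ hY')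

theorem memA {g : V ≃ₗ[F] V} (hg : g ∈ M) {i k : Fin 2} {x : V} (hx : x ∈ D i) (hx0 : x ≠ 0)
    (hgx : g x ∈ D k) : g ∈ dstab D := by
  obtain ⟨j, hj⟩ := exists_ne i
  obtain ⟨l, hl⟩ := exists_ne k
  obtain ⟨y, hy, hy0, hxy⟩ := T.ex j x
  refine d.mem_dstab_of (fun i j => by rw [T.dim, T.dim])
    (fun i => ne_bot_of_finrank_pos (by rw [T.dim]; omega)) fun r => ?_
  rcases fin2_cases hj r with rfl | rfl
  · exact ⟨l, T.prop d hg hy hy0 (T.key d hg hj.symm hl.symm hx hx0 hgx hy hxy)⟩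
  · exact ⟨k, T.prop d hg hx hx0 hgx⟩

theorem memB {g : V ≃ₗ[F] V} (hg : g ∈ M) {i j k l : Fin 2} (hij : i ≠ j) (hkl : k ≠ l)
    {x y X Y : V} (hx : x ∈ D i) (hx0 : x ≠ 0) (hy : y ∈ D j) (hy0 : y ≠ 0) (hxy : B x y = 0)
    (hX : X ∈ D k) (hX0 : X ≠ 0) (hY : Y ∈ D l) (hY0 : Y ≠ 0) (hXY : B X Y = 0)
    (h1 : g x ∈ Submodule.span F {X, Y}) (h2 : g y ∈ Submodule.span F {X, Y}) : g ∈ dstab D := by
  obtain ⟨α, β, h1⟩ := Submodule.mem_span_pair.1 h1
  obtain ⟨γ, δ, h2⟩ := Submodule.mem_span_pair.1 h2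
  by_cases hβ : β = 0
  · exact T.memA d hg hx hx0 (k := k) (by
      rw [← h1, hβ, zero_smul, add_zero]; exact (D k).smul_mem _ hX)
  by_cases hδ : δ = 0
  · exact T.memA d hg hy hy0 (k := k) (by
      rw [← h2, hδ, zero_smul, add_zero]; exact (D k).smul_mem _ hX)
  exfalso
  obtain ⟨e, he⟩ := T.tr 1 (map_one σ)
  have hβ' := (map_ne_zero σ).2 hβ
  have hδ' := (map_ne_zero σ).2 hδ
  obtain ⟨s, hs, hsf⟩ := ((T.sk.pair_es d T.ti T.le hij hx ((D j).smul_mem (e / (σ β * δ)) hy)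
    (by simp [hxy])).conj hg (T.ge hg).1).exists
  rw [map_smul, ← h1, ← h2] at hsf
  obtain ⟨Y', hY', -, h3⟩ := T.sk.pair_exists d T.ti hkl.symm (W := ⊥) bot_le hY (by simpa using hY0)
  have h4 := T.ti k Y' hY' _ (T.prop d hs hX hX0 (k := k) (by
    simpa [hsf, T.ti k X hX X hX, T.sk.zero_symm hXY] using hX) Y' hY')
  simp only [hsf, map_add, map_smulₛₗ, LinearMap.add_apply, LinearMap.smul_apply,
    T.ti k X hX Y' hY', T.ti k Y' hY' X hX, T.ti k Y' hY' Y' hY', h3, T.sk.one_symm h3, smul_eq_mul,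
    RingHom.id_apply, map_div₀, map_mul, T.sk.inv] at h4
  field_simp at h4
  exact mul_ne_zero (mul_ne_zero hβ' hδ) (mul_ne_zero hβ hδ') (by
    linear_combination (σ β * δ * β * σ δ) * he - h4)

theorem memC {g : V ≃ₗ[F] V} (hg : g ∈ M) {k l : Fin 2} (hkl : k ≠ l)
    {x y X Y : V} (hx : x ∈ D 0) (hx0 : x ≠ 0) (hy : y ∈ D 1) (hy0 : y ≠ 0) (hxy : B x y = 0)
    (hX : X ∈ D k) (hX0 : X ≠ 0) (hY : Y ∈ D l) (hY0 : Y ≠ 0) (hXY : B X Y = 0)
    (h : ∀ t, σ t = t → ∀ z ∈ Submodule.span F {x, y},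
      B X (g z) • t • g⁻¹ Y + B (t • Y) (g z) • g⁻¹ X ∈ Submodule.span F {x, y}) :
    g ∈ dstab D := by
  have h01 : (0 : Fin 2) ≠ 1 := by decide
  have hgi : ∀ x y, B (g x) (g y) = B x y := (T.ge hg).1
  have mx : x ∈ Submodule.span F {x, y} := Submodule.subset_span (by simp)
  have my : y ∈ Submodule.span F {x, y} := Submodule.subset_span (by simp)
  have ex : ∀ t, σ t = t → ∃ e ∈ M, (∃ r, ∀ v ∈ D 0, e v ∈ D r) ∧
      ∀ z, e z = z + (B X (g z) • t • g⁻¹ Y + B (t • Y) (g z) • g⁻¹ X) := by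
    intro t ht
    obtain ⟨s, hs, hsf⟩ := T.sk.pair_std d T.ti hkl hX ((D l).smul_mem t hY) (by simp [hXY])
    have he : g⁻¹ * s * g ∈ M := M.mul_mem (M.mul_mem (M.inv_mem hg) (T.le hs)) hg
    have hf : ∀ z, (g⁻¹ * s * g) z = z + (B X (g z) • t • g⁻¹ Y + B (t • Y) (g z) • g⁻¹ X) :=
      fun z => by simp only [le_mul_apply, hsf, map_add, map_smul, le_inv_apply, add_assoc]
    obtain ⟨ρ, hρ⟩ := T.memB d he h01 h01 hx hx0 hy hy0 hxy hx hx0 hy hy0 hxy
      (hf x ▸ Submodule.add_mem _ mx (h t ht x mx)) (hf y ▸ Submodule.add_mem _ my (h t ht y my))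
    exact ⟨_, he, ⟨ρ 0, fun v hv => by rw [← hρ]; exact ⟨v, hv, rfl⟩⟩, hf⟩
  obtain ⟨t, t0, e, he, h0, hf⟩ : ∃ t : F, t ≠ 0 ∧ ∃ e ∈ M, e x ∈ D 0 ∧
      ∀ z, e z = z + (B X (g z) • t • g⁻¹ Y + B (t • Y) (g z) • g⁻¹ X) := by
    obtain ⟨e, he, ⟨r, hr⟩, hf⟩ := ex 1 (map_one σ)
    obtain ⟨e', he', ⟨r', hr'⟩, hf'⟩ := ex m T.fix
    rcases fin2_cases h01 r with rfl | rfl
    · exact ⟨1, one_ne_zero, e, he, hr x hx, hf⟩
    rcases fin2_cases h01 r' with rfl | rfl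
    · exact ⟨m, T.m0, e', he', hr' x hx, hf'⟩
    refine ⟨1 + m, fun h => T.m1 (by linear_combination (m - 1) * h), e * e', M.mul_mem he he', ?_,
      fun z => ?_⟩
    · obtain ⟨w, hw, hw0, hxw⟩ := T.ex 1 x
      exact T.prop d he hw hw0 (T.key d he h01 h01.symm hx hx0 (hr x hx) hw hxw) _ (hr' x hx)
    · simp only [le_mul_apply, hf, hf', map_add, map_smulₛₗ, le_apply_inv, LinearMap.smul_apply,
        LinearMap.add_apply, hXY, T.sk.zero_symm hXY, T.ti k X hX X hX, T.ti l Y hY Y hY,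
        smul_eq_mul, RingHom.id_apply]
      module
  have main : ∀ r, (∀ v ∈ D r, e v ∈ D r) → g ∈ dstab D ∨
      ∃ v ∈ D r, v ≠ 0 ∧ g v ∈ Submodule.span F {X, Y} := by
    intro r hr
    by_cases hc : ∀ v ∈ D r, B X (g v) = 0
    · refine Or.inl (T.memA d hg (x := g⁻¹ X) (i := r) (k := k) (T.mem_of_perp d fun v hv => ?_)
        (((g⁻¹).map_ne_zero_iff).2 hX0) (by rwa [le_apply_inv]))
      rw [← hgi, le_apply_inv, hc v hv]
    push Not at hc
    obtain ⟨v, hv, hv'⟩ := hc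
    have h1 : g (e v - v) = B (t • Y) (g v) • X + (B X (g v) * t) • Y := by
      rw [hf, add_sub_cancel_left]
      simp only [map_add, map_smul, le_apply_inv]
      module
    refine Or.inr ⟨e v - v, (D r).sub_mem (hr v hv) hv, fun h0 => ?_,
      Submodule.mem_span_pair.2 ⟨_, _, h1.symm⟩⟩
    rw [h0, map_zero] at h1
    have := congrArg (d.π l) h1
    rw [map_zero, map_add, (d.π l).map_smul, (d.π l).map_smul, d.ne hkl.symm hX, d.self hY,
      smul_zero, zero_add] at this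
    exact smul_ne_zero (mul_ne_zero hv' t0) hY0 this.symm
  rcases main 0 (T.prop d he hx hx0 h0) with h | ⟨v, hv, hv0, hgv⟩
  · exact h
  rcases main 1 (T.prop d he hy hy0 (T.key d he h01 h01 hx hx0 h0 hy hxy)) with h | ⟨w, hw, hw0, hgw⟩
  · exact h
  refine T.memB d hg h01 hkl hv hv0 hw hw0 ?_ hX hX0 hY hY0 hXY hgv hgw
  obtain ⟨α, β, h1⟩ := Submodule.mem_span_pair.1 hgv
  obtain ⟨γ, δ, h2⟩ := Submodule.mem_span_pair.1 hgw
  rw [← hgi, ← h1, ← h2]
  simp [hXY, T.sk.zero_symm hXY, T.ti k X hX X hX, T.ti l Y hY Y hY]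

theorem memD {ζ : F} (hζ0 : ζ ≠ 0) (hζ : σ ζ = -ζ) {g : V ≃ₗ[F] V} (hg : g ∈ M) : g ∈ dstab D := by
  have h01 : (0 : Fin 2) ≠ 1 := by decide
  have hgi : ∀ x y, B (g x) (g y) = B x y := (T.ge hg).1
  obtain ⟨x, hx, hx0, -⟩ := T.ex 0 0
  obtain ⟨y, hy, hy0, hxy⟩ := T.ex 1 x
  have hl : ∀ z ∈ Submodule.span F {x, y}, ∀ z' ∈ Submodule.span F {x, y}, B (g z) (g z') = 0 := by
    intro z hz z' hz'
    obtain ⟨α, β, rfl⟩ := Submodule.mem_span_pair.1 hz
    obtain ⟨γ, δ, rfl⟩ := Submodule.mem_span_pair.1 hz'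
    rw [hgi]
    simp [hxy, T.sk.zero_symm hxy, T.ti 0 x hx x hx, T.ti 1 y hy y hy]
  have mx : x ∈ Submodule.span F {x, y} := Submodule.subset_span (by simp)
  have my : y ∈ Submodule.span F {x, y} := Submodule.subset_span (by simp)
  have herm : ∀ u w, B u w = 0 → B (d.π 0 u) (d.π 1 w) = σ (B (d.π 0 w) (d.π 1 u)) := by
    intro u w h
    rw [← d.add_two h01 u, map_add, LinearMap.add_apply,
      ← T.sk.pair_π d T.ti h01.symm (d.mem 0 u), ← T.sk.pair_π d T.ti h01 (d.mem 1 u),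
      T.sk.skew (d.π 0 w)] at h
    linear_combination h
  obtain ⟨z, hz, hz0, h1⟩ : ∃ z ∈ Submodule.span F {x, y}, z ≠ 0 ∧
      B (d.π 0 (g z)) (d.π 1 (g z)) = 0 := by
    by_cases ha : B (d.π 0 (g x)) (d.π 1 (g x)) = 0
    · exact ⟨x, mx, hx0, ha⟩
    have a1 := herm _ _ (hl x mx x mx)
    have a2 := herm _ _ (hl y my y my)
    have a3 := herm _ _ (hl x mx y my)
    obtain ⟨μ, hμ⟩ := T.nm (σ (B (d.π 0 (g y)) (d.π 1 (g x))) * B (d.π 0 (g y)) (d.π 1 (g x)) -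
      B (d.π 0 (g x)) (d.π 1 (g x)) * B (d.π 0 (g y)) (d.π 1 (g y))) (by
        rw [map_sub, map_mul, map_mul, T.sk.inv, ← a1, ← a2, mul_comm])
    refine ⟨y + ((μ - σ (B (d.π 0 (g y)) (d.π 1 (g x)))) / B (d.π 0 (g x)) (d.π 1 (g x))) • x,
      Submodule.add_mem _ my (Submodule.smul_mem _ _ mx), fun h => hy0 ?_, ?_⟩
    · simpa [d.self hy, d.ne h01.symm hx] using congrArg (d.π 1) h
    · simp only [map_add, map_smulₛₗ, LinearMap.add_apply, LinearMap.smul_apply, a3, smul_eq_mul,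
        RingHom.id_apply, map_div₀, map_sub, T.sk.inv, ← a1]
      field_simp
      linear_combination hμ
  have one : ∀ k l, k ≠ l → g z ∈ D k → g ∈ dstab D := by
    intro k l hkl hX
    obtain ⟨Y, hY, hY0, hXY⟩ := T.ex l (g z)
    refine T.memC d hg hkl hx hx0 hy hy0 hxy hX ((g.map_ne_zero_iff).2 hz0) hY hY0 hXY
      fun t _ z' hz' => ?_
    rw [hl z hz z' hz', zero_smul, zero_add, le_inv_apply]
    exact Submodule.smul_mem _ _ hz
  have h2 := d.add_two h01 (g z)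
  by_cases hX0 : d.π 0 (g z) = 0
  · exact one 1 0 h01.symm (by rw [← h2, hX0, zero_add]; exact d.mem 1 _)
  by_cases hY0 : d.π 1 (g z) = 0
  · exact one 0 1 h01 (by rw [← h2, hY0, add_zero]; exact d.mem 0 _)
  refine T.memC d hg h01 hx hx0 hy hy0 hxy (d.mem 0 (g z)) hX0 ((D 1).smul_mem ζ (d.mem 1 (g z)))
    (smul_ne_zero hζ0 hY0) (by simp [h1]) fun t ht z' hz' => ?_
  have h3 := hl z hz z' hz'
  rw [← h2, map_add, LinearMap.add_apply] at h3
  have h4 : z = g⁻¹ (d.π 0 (g z)) + g⁻¹ (d.π 1 (g z)) := by rw [← map_add, h2, le_inv_apply]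
  convert Submodule.smul_mem _ (B (d.π 0 (g z)) (g z') * t * ζ) hz using 1
  simp only [map_smulₛₗ, LinearMap.smul_apply, ht, hζ, eq_neg_of_add_eq_zero_right h3, smul_eq_mul,
    RingHom.id_apply]
  conv_rhs => rw [h4]
  rw [← h4]
  generalize g⁻¹ (d.π 0 (g z)) = a at h4 ⊢
  generalize g⁻¹ (d.π 1 (g z)) = b at h4 ⊢
  generalize B (d.π 0 (g z)) (g z') = c
  rw [h4]
  module

end TS

theorem suts_max (S : SkH B) (d : Dec D) (hD : ∀ i, ∀ x ∈ D i, ∀ y ∈ D i, B x y = 0)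
    (htr : ∀ t, σ t = t → ∃ d, t = d + σ d) (hN : ∀ t, σ t = t → ∃ r, σ r * r = t)
    (hm : ∀ i, finrank F (D i) = 2) {m : F} (m2 : σ m = m) (m0 : m ≠ 0) (m1 : m * m ≠ 1)
    {ζ : F} (hζ0 : ζ ≠ 0) (hζ : σ ζ = -ζ) : IsMaximalIn (GG B) (dstab D ⊓ GG B) := by
  have hd : ∀ i j, finrank F (D i) = finrank F (D j) := fun i j => by rw [hm, hm]
  have h0 : ∀ i, D i ≠ ⊥ := fun i => ne_bot_of_finrank_pos (by rw [hm]; omega)
  have h01 : (0 : Fin 2) ≠ 1 := by decide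
  refine isMaximalIn_of inf_le_right ?_ fun M hM hM' g hg hg' => ?_
  · obtain ⟨x, hx, hx0⟩ := Submodule.exists_mem_ne_zero_of_ne_bot (h0 0)
    obtain ⟨y, hy, -, hyx⟩ := S.pair_exists d hD h01 (W := ⊥) bot_le hx (by simpa using hx0)
    obtain ⟨g, hg, hgf⟩ := S.exists_tvS (hD 1 y hy y hy) (map_one σ)
    refine ⟨g, hg, fun h => ?_⟩
    obtain ⟨ρ, hρ⟩ := h.1
    have h1 : g x ∈ D (ρ 0) := by rw [← hρ]; exact ⟨x, hx, rfl⟩
    rw [hgf, one_smul, hyx, one_smul] at h1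
    rcases fin2_cases h01 (ρ 0) with h2 | h2 <;> rw [h2] at h1
    · have := hD 0 _ h1 x hx
      simp [hD 0 x hx x hx, hyx] at this
    · have := hD 1 y hy _ h1
      simp [hD 1 y hy y hy, hyx] at this
  by_cases hn : ∃ i, ∃ u ∈ D i, u ≠ 0 ∧ AS B M u
  · obtain ⟨i, z, hz, hz0, hzA⟩ := hn
    obtain ⟨j, hj⟩ := exists_ne i
    obtain ⟨s, hs, hs'⟩ := S.pair_swap d hD hd hj.symm
    refine S.pair_finish d hD fun l w hw => ?_
    rcases fin2_cases hj l with rfl | rfl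
    · exact S.pair_all d hD hM hj (hs' z hz) ((s.map_ne_zero_iff).2 hz0)
        (hzA.conj (hM hs) hs.2.1) hw
    · exact S.pair_all d hD hM hj.symm hz hz0 hzA hw
  push Not at hn
  exact absurd ⟨TS.memD ⟨S, hD, htr, hN, hm, hM, hM', hn, m2, m0, m1⟩ d hζ0 hζ hg, hM' hg⟩ hg'

end Core

theorem su_ts_planes {F : Type*} [Field F] [Fintype F] (q : ℕ) (hF : Fintype.card F = q ^ 2) :
    4 ≤ q → ∀ D : Fin 2 → Submodule F (Fin 4 → F), Cfsg.Geo.IsMDecomposition 2 D → (∀ i, Cfsg.Geo.IsTotallySingularFor (Cfsg.hermForm 4 F q) (D i)) → Cfsg.Geo.IsMaximalIn (Cfsg.GU 4 F q ⊓ Cfsg.Geo.specialLinear (Fin 4) F) (Cfsg.Geo.decompositionStabilizer D ⊓ (Cfsg.GU 4 F q ⊓ Cfsg.Geo.specialLinear (Fin 4) F)) := by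
  intro hq D hD hts
  haveI : Fact (Fintype.card F = q ^ 2) := ⟨hF⟩
  obtain ⟨d⟩ := exists_dec hD.indep hD.iSup_eq_top
  obtain ⟨ζ, h0, hζ⟩ := H10.exists_skew F q
  obtain ⟨m, m2, hm⟩ := (H98.qf_cj (F := F) (q := q)).exists_fix [0, 1, -1] (by simp; omega)
  simp only [List.mem_cons, List.not_mem_nil, or_false, not_or] at hm
  have := isMaximalIn_comap (toLE (Fin 4) F)
    (suts_max (skH_su (n := 4) (by omega) h0 hζ) d (fun i x hx y hy =>
      (suB_eq_zero h0).2 (hts i y hy x hx))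
      (fun t ht => (H10.exists_trace_eq ht).imp fun _ h => h.symm)
      (fun t ht => (H10.exists_norm_eq ht).imp fun _ h => (mul_comm _ _).trans h) hD.finrank_eq m2 hm.1
      (fun h => (mul_self_eq_one_iff.1 h).elim hm.2.1 hm.2.2) h0 hζ)
  rwa [Subgroup.comap_inf, comap_GG_su h0, comap_dstab] at this

end Cfsg.Agent.K4
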